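import Cfsg.Agent.Lib.Unitary.SixB

/-!
# The stabiliser of an orthonormal frame is maximal in `SU_6(q)`, `q ≥ 3`
-/

set_option autoImplicit false

namespace Cfsg.Lib.Unitary

open Module Finset

variable {F V : Type*} [Field F] [AddCommGroup V] [Module F V] {σ : F →+* F}
  {B : V →ₛₗ[σ] V →ₗ[F] F} {q : ℕ}

theorem IsBar.exists_norm_one_pows_ne (hσ : IsBar q σ) :
    ∃ l : F, l * σ l = 1 ∧ ∀ k, 0 < k → k ≤ q → l ^ k ≠ 1 := by
  obtain ⟨ζ, hζ⟩ := hσ.exists_primitive_norm_one
  exact ⟨ζ, by rw [hσ.norm_eq, hζ.pow_eq_one], fun k h1 h2 =>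
    hζ.pow_ne_one_of_pos_of_lt h1.ne' (by omega)⟩

theorem no_linear_space {ι : Type*} [Fintype ι] [DecidableEq ι] (hn : Fintype.card ι = 6)
    (Z : ι → ι → Finset ι) (h1 : ∀ i j, i ≠ j → i ∈ Z i j ∧ j ∈ Z i j ∧ 3 ≤ (Z i j).card ∧
      Z i j ≠ univ) (h2 : ∀ i j, i ≠ j → ∀ a ∈ Z i j, ∀ b ∈ Z i j, a ≠ b → Z a b = Z i j) :
    False := by
  obtain ⟨p, x, hpx⟩ := Fintype.exists_pair_of_one_lt_card (show 1 < Fintype.card ι by omega)
  obtain ⟨-, -, a3, a4⟩ := h1 p x hpx
  obtain ⟨s, hs⟩ : ∃ s, s ∉ Z p x := by simpa [eq_univ_iff_forall] using a4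
  have h3 : ∀ r ∈ Z p x, s ≠ r := by rintro r hr rfl; exact hs hr
  have h4 : ∀ r ∈ Z p x, ∃ t ∈ Z s r, t ∉ ({s, r} : Finset ι) := fun r hr =>
    exists_mem_notMem_of_card_lt_card (by have := (h1 s r (h3 r hr)).2.2.1
                                          have := card_le_two (a := s) (b := r); omega)
  choose! f f1 f2 using h4
  simp only [mem_insert, mem_singleton, not_or] at f2
  have h5 : ∀ r ∈ Z p x, ∀ r' ∈ Z p x, r' ∈ Z s r → r' = r := fun r hr r' hr' h => by
    by_contra hne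
    have := h1 s r (h3 r hr)
    exact hs (h2 p x hpx r' hr' r hr hne ▸ h2 s r (h3 r hr) r' h r this.2.1 hne ▸ this.1)
  have := card_le_card_of_injOn (s := Z p x) (t := (Z p x)ᶜ.erase s) f
    (fun r hr => by simpa using ⟨fun h => (f2 r hr).2 (h5 r hr _ h (f1 r hr)), (f2 r hr).1⟩)
    fun r hr r' hr' h => (h5 r hr r' hr' (by
      rw [← h2 s r (h3 r hr) s (h1 s r (h3 r hr)).1 _ (f1 r hr) (Ne.symm (f2 r hr).1), h,
        h2 s r' (h3 r' hr') s (h1 s r' (h3 r' hr')).1 _ (f1 r' hr') (Ne.symm (f2 r' hr').1)]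
      exact (h1 s r' (h3 r' hr')).2.1)).symm
  rw [card_erase_of_mem (by simpa using hs), card_compl] at this
  omega

variable {ι : Type*} [Fintype ι] [DecidableEq ι]

namespace FrameStr

variable {e : ι → V} {K : Subgroup (V ≃ₗ[F] V)} (S : FrameStr B e K)
include S

theorem sum_supp (a : V) {T : Finset ι} (hT : supp B e a ⊆ T) :
    ∑ i ∈ T, B a (e i) * B (e i) a = B a a := by
  rw [S.form_eq a a, ← sum_subset (subset_univ T) fun i _ hi => by
    simp [not_not.mp (mem_supp.not.mp fun h => hi (hT h))]]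
  simp only [S.herm.symm]

theorem trace_of_isBi {a b : V} {l : F} {x : V ≃ₗ[F] V} (hx : IsBi B a b l x) (hl : σ l ≠ l)
    (ha : B a a = 1) (hb : B b b = 1) (hab : B a b = 0) (hM : x ∈ decStab fun i => F ∙ e i)
    (h1 : supp B e a = supp B e b) : ((supp B e a).card : F) + (l - 1) + (σ l - 1) = 0 := by
  obtain ⟨π, hπ⟩ := S.exists_perm_of_mem hM
  have key : ∀ i ∈ supp B e a,
      1 + (l - 1) * (B a (e i) * B (e i) a) + (σ l - 1) * (B b (e i) * B (e i) b) = 0 := by
    intro i hi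
    obtain ⟨c, -, hc⟩ := hπ i
    rw [hx] at hc
    by_cases h2 : π i = i
    · have k1 := congrArg (B a) hc
      have k2 := congrArg (B b) hc
      simp only [h2, map_add, map_smul, ha, hb, hab, S.herm.eq_zero_comm.mp hab, smul_eq_mul] at k1 k2
      have k3 : B a (e i) ≠ 0 := fun h => mem_supp.mp hi (S.herm.eq_zero_comm.mp h)
      have k4 : B b (e i) ≠ 0 := fun h => mem_supp.mp (h1 ▸ hi) (S.herm.eq_zero_comm.mp h)
      exact absurd ((mul_right_cancel₀ k4 (show σ l * _ = c * _ by linear_combination k2)).trans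
        (mul_right_cancel₀ k3 (show c * _ = l * _ by linear_combination -k1))) hl
    · have := congrArg (B (e i)) hc
      simp only [map_add, map_smul, S.on, Ne.symm h2, if_true, if_false, smul_eq_mul] at this
      linear_combination this
  have := sum_eq_zero key
  rwa [sum_add_distrib, sum_add_distrib, ← mul_sum, ← mul_sum, S.sum_supp a le_rfl,
    S.sum_supp b h1.ge, ha, hb, sum_const, nsmul_eq_mul, mul_one, mul_one, mul_one] at this

theorem card_supp_mono {m : V ≃ₗ[F] V} (hm : m ∈ UG B) (hM : m ∈ decStab fun i => F ∙ e i) (v : V) :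
    (supp B e (m v)).card = (supp B e v).card := by
  obtain ⟨π, hπ⟩ := S.exists_perm_of_mem hM
  refine (card_bijective π π.bijective fun i => ?_).symm
  obtain ⟨c, -, hc⟩ := hπ i
  exact (S.mem_supp_apply hm (Submodule.mem_span_singleton.mpr ⟨c, hc.symm⟩) v).symm

theorem eq_pair {v : V} {a b : ι} (hab : a ≠ b) (h : supp B e v ⊆ {a, b}) :
    v = B (e a) v • e a + B (e b) v • e b := S.ext fun i => by
  by_cases h1 : i = a
  · simp [h1, S.on, hab]
  by_cases h2 : i = b
  · simp [h2, S.on, hab.symm]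
  · simpa [S.on, h1, h2] using not_not.mp (mem_supp.not.mp fun hi => by simpa [h1, h2] using h hi)

theorem supp_pair (a b : ι) (c d : F) : supp B e (c • e a + d • e b) ⊆ {a, b} := fun i => by
  by_cases h1 : i = a <;> by_cases h2 : i = b <;> simp [S.on, h1, h2]

theorem card_pair_le (a b : ι) (c d : F) : (supp B e (c • e a + d • e b)).card ≤ 2 :=
  (card_le_card (S.supp_pair a b c d)).trans card_le_two

variable [FiniteDimensional F V] (hσ : IsBar q σ) (hq : 3 ≤ q) (hn : Fintype.card ι = 6)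
  (hB : ∀ g ∈ K, ∀ i, g (e i) ∈ F ∙ e i → g ∈ decStab fun i => F ∙ e i)
include hσ hq hB

theorem supp_of_zero' {g : V ≃ₗ[F] V} (hg : g ∈ K) (hg' : g ∉ decStab fun i => F ∙ e i) {j k l : ι}
    (hkl : k ≠ l) (hk : B (e k) (g⁻¹ (e j)) = 0) (hl : B (e l) (g⁻¹ (e j)) = 0) :
    (supp B e (g (e k))).card ≤ 2 := by
  obtain ⟨μ, h1, h2⟩ := hσ.exists_norm_one_pows_ne
  obtain ⟨s, hs, e1⟩ := S.exists_diag_two hkl h1
  have e2 := e1.conj (S.leU hg)
  have h3 := hB _ (mul_mem (mul_mem hg hs) (inv_mem hg)) j (by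
    rw [e2, UG_apply_left (S.leU hg), UG_apply_left (S.leU hg)]
    simp [← LinearEquiv.coe_inv, hk, hl])
  have h4 := S.supp_of_zero hσ hB hg hg' hkl hk hl
  have h5 := S.trace_of_isBi e2 (fun h => h2 2 (by omega) (by omega) (by rw [sq, ← h1, h]))
    ((S.leU hg _ _).trans (S.self _)) ((S.leU hg _ _).trans (S.self _))
    ((S.leU hg _ _).trans (by simp [S.on, hkl])) h3
    (h4.2.antisymm (S.supp_of_zero hσ hB hg hg' hkl.symm hl hk).2)
  by_contra hlt
  rw [show (supp B e (g (e k))).card = 3 by omega] at h5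
  exact h2 3 (by omega) hq (by push_cast at h5; linear_combination (μ - 1) * (μ * h5 - h1))

include hn

/-- Every column of a non-monomial element has at most one zero. -/
theorem card_supp' {g : V ≃ₗ[F] V} (hg : g ∈ K) (hg' : g ∉ decStab fun i => F ∙ e i) (j : ι) :
    5 ≤ (supp B e (g (e j))).card := by
  by_contra hlt
  obtain ⟨k, hk, l, hl, hkl⟩ := one_lt_card.mp (show 1 < (supp B e (g (e j)))ᶜ.card by
    rw [card_compl]; omega)
  simp only [mem_compl, mem_supp, not_not] at hk hl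
  have h1 := S.supp_of_zero' hσ hq hB (inv_mem hg) (by simpa using hg') hkl (j := j)
    (by simpa using hk) (by simpa using hl)
  let Z := (supp B e (g⁻¹ (e k)))ᶜ
  have hZ : 4 ≤ Z.card := by rw [card_compl]; omega
  have h2 : ∀ a ∈ Z, ∀ b ∈ Z, a ≠ b → (supp B e (g (e a))).card ≤ 3 ∧
      supp B e (g (e a)) ⊆ supp B e (g (e b)) := fun a ha b hb hab =>
    S.supp_of_zero hσ hB hg hg' hab (j := k) (by simpa [Z] using ha) (by simpa [Z] using hb)
  obtain ⟨a, ha, b, hb, hab⟩ := one_lt_card.mp (show 1 < Z.card by omega)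
  have h3 : (Submodule.span F (e '' Z)).map (g : V →ₗ[F] V) ≤
      Submodule.span F (e '' supp B e (g (e a))) := by
    rw [Submodule.map_span, Submodule.span_le]
    rintro _ ⟨_, ⟨c, hc, rfl⟩, rfl⟩
    by_cases h : c = a
    · exact S.mem_span_iff.mpr (by simp [h])
    · exact S.mem_span_iff.mpr (h2 c hc a ha h).2
  have h4 := Submodule.finrank_mono h3
  rw [LinearEquiv.finrank_map_eq, S.finrank_span, S.finrank_span] at h4
  have := (h2 a ha b hb hab).1
  omega

theorem mem_of_isBi' {g x : V ≃ₗ[F] V} (hg : g ∈ K) {k : ι} {b : V} {l : F}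
    (hx : IsBi B (g (e k)) b l x) (hl : σ l ≠ l) (hl1 : l * σ l = 1)
    (hM : x ∈ decStab fun i => F ∙ e i) : g ∈ decStab fun i => F ∙ e i := by
  by_contra hg'
  have := S.card_supp' hσ hq hn hB hg hg' k
  have := S.card_supp_of_isBi hx hl hl1 hM
  omega

theorem card_supp_eq {g : V ≃ₗ[F] V} (hg : g ∈ K) {v : V} (hv : (supp B e v).card ≤ 4)
    (hv' : (supp B e (g v)).card ≤ 4) : (supp B e (g v)).card = (supp B e v).card := by
  obtain ⟨k, hk, l, hl, hkl⟩ := one_lt_card.mp (show 1 < (supp B e v)ᶜ.card by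
    rw [card_compl]; omega)
  obtain ⟨i, hi, j, hj, hij⟩ := one_lt_card.mp (show 1 < (supp B e (g v))ᶜ.card by
    rw [card_compl]; omega)
  simp only [mem_compl, mem_supp, not_not] at hk hl hi hj
  have := hσ.finite
  have : Finite V := Module.finite_of_finite F
  have : Finite (V ≃ₗ[F] V) := DFunLike.finite _
  obtain ⟨μ, p, r, hp, h1, h2, h3⟩ := hσ.exists_norm_one_prime_pow
  obtain ⟨s, hs, e1⟩ := S.exists_diag_two hij h1
  obtain ⟨t, ht, e2⟩ := S.exists_diag_two hkl h1
  have e3 := e2.conj (S.leU hg)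
  let W := Submodule.span F {e i, e j} ⊔ Submodule.span F {g (e k), g (e l)}
  have hW : ∀ {a b : V} {x}, IsBi B a b μ x → Submodule.span F {a, b} ≤ W →
      x ∈ fixStab (perp B W) := fun hx h v hv => by
    rw [hx, mem_perp.mp hv _ (h (Submodule.subset_span (by simp))),
      mem_perp.mp hv _ (h (Submodule.subset_span (by simp)))]
    simp
  obtain ⟨y, ⟨hy, hy'⟩, h4⟩ := exists_conj_mem (H := K ⊓ fixStab (perp B W))
    (M := decStab fun i => F ∙ e i) hp ⟨hs, hW e1 le_sup_left⟩
    ⟨K.mul_mem (K.mul_mem hg ht) (K.inv_mem hg), hW e3 le_sup_right⟩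
    (e1.pow_eq_one S.herm (S.self _) (S.self _) (by simp [S.on, hij]) h3)
    (e3.pow_eq_one S.herm ((S.leU hg _ _).trans (S.self _))
      ((S.leU hg _ _).trans (S.self _)) ((S.leU hg _ _).trans (by simp [S.on, hkl])) h3)
    (S.mem_mono (S.leU hs) fun m => ⟨m, by
      rw [e1]
      by_cases a1 : i = m
      · subst a1
        simp [S.on, hij.symm, Submodule.add_mem, Submodule.smul_mem]
      · by_cases a2 : j = m
        · subst a2
          simp [S.on, hij, Submodule.add_mem, Submodule.smul_mem]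
        · simp [S.on, a1, a2]⟩)
    fun y hy h => S.mem_of_isBi' hσ hq hn hB hy.1 (e1.conj (S.leU hy.1)) h2 h1 h
  rw [← S.card_supp_mono (S.leU (K.mul_mem hy hg)) (S.mem_of_isBi' hσ hq hn hB (K.mul_mem hy hg)
    (k := k) (e3.conj (S.leU hy)) h2 h1 h4) v, LinearEquiv.mul_apply, hy' (g v) (by
      rw [perp_sup]
      exact ⟨mem_perp_span.mpr (by simp [hi, hj]), mem_perp_span.mpr (by
        simp [S.leU hg _ _, hk, hl])⟩)]

theorem eq_zero_of_small {g : V ≃ₗ[F] V} (hg : g ∈ K) (hg' : g ∉ decStab fun i => F ∙ e i) {j : ι}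
    {c : F} (h : (supp B e (g (c • e j))).card ≤ 4) : c = 0 := by
  by_contra hc
  have h1 := S.card_supp' hσ hq hn hB hg hg' j
  have h2 := card_le_card (show supp B e (g (e j)) ⊆ supp B e (g (c • e j)) from fun i hi => by
    simpa [hc] using hi)
  omega

theorem exists_good {g : V ≃ₗ[F] V} (hg : g ∈ K) {a b : ι} (hab : a ≠ b) : ∃ α β : F,
    α • e a + β • e b ≠ 0 ∧ (supp B e (g (α • e a + β • e b))).card ≤ 2 := by
  suffices ∃ v, v ≠ 0 ∧ supp B e v ⊆ {a, b} ∧ (supp B e (g v)).card ≤ 4 by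
    obtain ⟨v, h1, h2, h3⟩ := this
    have h4 := (card_le_card h2).trans card_le_two
    refine ⟨B (e a) v, B (e b) v, ?_⟩
    rw [← S.eq_pair hab h2, S.card_supp_eq hσ hq hn hB hg (by omega) h3]
    exact ⟨h1, h4⟩
  by_contra hcon
  push Not at hcon
  obtain ⟨c, -, hc⟩ := exists_mem_notMem_of_card_lt_card (s := {a, b}) (t := univ)
    (by rw [card_univ]; have := card_le_two (a := a) (b := b); omega)
  have h1 : ∀ i j, ∃ v, v ≠ 0 ∧ supp B e v ⊆ insert c {a, b} ∧ B (e i) (g v) = 0 ∧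
      B (e j) (g v) = 0 := fun i j => by
    have h1 := finrank_le_finrank_inf_perp S.herm (Submodule.span F (e '' (insert c {a, b} : Finset ι)))
      (Submodule.span F {g⁻¹ (e i), g⁻¹ (e j)})
    have h2 := finrank_span_pair_le (F := F) (g⁻¹ (e i)) (g⁻¹ (e j))
    rw [S.finrank_span, card_insert_of_notMem hc, card_pair hab] at h1
    obtain ⟨v, hv, hv0⟩ := exists_notMem_of_lt (W := Submodule.span F (e '' (insert c {a, b} : Finset ι))
      ⊓ perp B (Submodule.span F {g⁻¹ (e i), g⁻¹ (e j)})) (Z := ⊥) (by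
        simp only [finrank_bot]; omega)
    exact ⟨v, hv0, S.mem_span_iff.mp hv.1, (UG_apply_right (S.leU hg) _ _).trans
      (mem_perp_span.mp hv.2 _ (by simp)), (UG_apply_right (S.leU hg) _ _).trans
      (mem_perp_span.mp hv.2 _ (by simp))⟩
  choose v v0 v1 v2 v3 using h1
  have h2 : ∀ {w : V} {i j : ι}, i ≠ j → B (e i) w = 0 → B (e j) w = 0 → (supp B e w).card ≤ 4 :=
    fun {w i j} hij h1 h2 => by
      have := card_le_card (show supp B e w ⊆ {i, j}ᶜ from fun k hk => by
        simp only [mem_compl, mem_insert, mem_singleton]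
        rintro (rfl | rfl) <;> exact mem_supp.mp hk ‹_›)
      rw [card_compl, card_pair hij] at this
      omega
  have h3 : ∀ w, supp B e w ⊆ insert c {a, b} → B (e c) w = 0 → ∀ i j, i ≠ j → B (e i) (g w) = 0 →
      B (e j) (g w) = 0 → w = 0 := fun w h1 h3 i j hij h4 h5 => by_contra fun h0 =>
    (hcon w h0 fun k hk => (mem_insert.mp (h1 hk)).resolve_left (by
      rintro rfl; exact mem_supp.mp hk h3)).not_ge (h2 hij h4 h5)
  refine no_linear_space hn (fun i j => (supp B e (g (v i j)))ᶜ) (fun i j hij => ⟨by simp [v2],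
    by simp [v3], ?_, fun h => v0 i j (g.map_eq_zero_iff.mp (S.top _ fun k => by
      simpa using h.ge (mem_univ k)))⟩) fun i j hij r hr s hs hrs => ?_
  · have := (card_le_card (v1 i j)).trans card_le_three
    rw [card_compl, S.card_supp_eq hσ hq hn hB hg (by omega) (h2 hij (v2 i j) (v3 i j))]
    omega
  simp only [mem_compl, mem_supp, not_not] at hr hs
  have h4 := fun h => v0 i j (h3 _ (v1 i j) h i j hij (v2 i j) (v3 i j))
  have h5 := fun h => v0 r s (h3 _ (v1 r s) h r s hrs (v2 r s) (v3 r s))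
  have h6 := sub_eq_zero.mp (h3 (B (e c) (v i j) • v r s - B (e c) (v r s) • v i j) (by
    rw [sub_eq_add_neg, ← neg_smul]
    exact (supp_add _ _ _).trans (union_subset ((supp_smul _ _ _).trans (v1 r s))
      ((supp_smul _ _ _).trans (v1 i j)))) (by simp [mul_comm]) r s hrs (by simp [hr, v2])
      (by simp [hs, v3]))
  ext k
  have := congrArg (fun x => B (e k) (g x)) h6
  simp only [map_smul, smul_eq_mul] at this
  simp only [mem_compl, mem_supp, not_not]
  exact ⟨fun h => (mul_eq_zero.mp (by simpa only [h, mul_zero] using this.symm)).resolve_left h5,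
    fun h => (mul_eq_zero.mp (by simpa only [h, mul_zero] using this)).resolve_left h4⟩

variable {g : V ≃ₗ[F] V} (hg : g ∈ K) (hg' : g ∉ decStab fun i => F ∙ e i) {k l r s : ι}
  (hkl : k ≠ l) (hrs : r ≠ s) {A A' c d : F} (hw : g (A • e k + A' • e l) = c • e r + d • e s)
  (hc : c ≠ 0)
include hg hg' hkl hrs hw hc

omit hkl in
theorem ne_zero_of_good : A ≠ 0 := by
  rintro rfl
  rw [zero_smul, zero_add] at hw
  have := S.eq_zero_of_small hσ hq hn hB hg hg' (hw ▸ (S.card_pair_le r s c d).trans (by omega))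
  simpa [this, S.on, hrs, hc] using congrArg (B (e r)) hw.symm

theorem exists_move {μ : F} (h1 : μ * σ μ = 1) (h2 : σ μ ≠ μ) {x : V ≃ₗ[F] V} (hx : x ∈ K)
    (e1 : IsBi B (g (e k)) (g (e l)) μ x) {b : ι} (hbr : b ≠ r) (hbs : b ≠ s) :
    ∃ β : F, x (c • e r + β • e b) = β • e b + (-d) • e s := by
  have hx' : x ∉ decStab fun i => F ∙ e i := fun h => hg' (S.mem_of_isBi' hσ hq hn hB hg e1 h2 h1 h)
  obtain ⟨α, β, h3, h4⟩ := S.exists_good hσ hq hn hB hx hbr.symm
  have hα : α ≠ 0 := by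
    rintro rfl
    rw [zero_smul, zero_add] at h3 h4
    simp [S.eq_zero_of_small hσ hq hn hB hx hx' (h4.trans (by omega))] at h3
  have hβ : β ≠ 0 := by
    rintro rfl
    rw [zero_smul, add_zero] at h3 h4
    exact hα (S.eq_zero_of_small hσ hq hn hB hx hx' (h4.trans (by omega)))
  have hA := S.ne_zero_of_good hσ hq hn hB hg hg' hrs hw hc
  have hd : d ≠ 0 := S.ne_zero_of_good hσ hq hn hB (inv_mem hg) (by simpa using hg') hkl
    (k := s) (l := r) (A' := c) (d := A') (by rw [add_comm, ← hw]; simp) hA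
  obtain ⟨v, hv⟩ : ∃ v, v = α • e r + β • e b := ⟨_, rfl⟩
  obtain ⟨y, hy⟩ : ∃ y, y = (μ - 1) * B (g (e k)) v := ⟨_, rfl⟩
  obtain ⟨z, hz⟩ : ∃ z, z = (σ μ - 1) * B (g (e l)) v := ⟨_, rfl⟩
  have h5 : g (y • e k + z • e l) = x v + (-1 : F) • v := by
    rw [e1, ← hy, ← hz, map_add, map_smul, map_smul]; (module)
  have h6 : (supp B e (g (y • e k + z • e l))).card ≤ 2 := by
    have := S.card_pair_le k l y z
    rw [S.card_supp_eq hσ hq hn hB hg (by omega) (by
      rw [h5]
      refine (card_le_card (supp_add _ _ _)).trans ((card_union_le _ _).trans (add_le_add (b := 2)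
        (d := 2) (hv ▸ h4) ((card_le_card (supp_smul _ _ _)).trans (hv ▸ S.card_pair_le _ _ _ _)))))]
    exact this
  have h7 : z - y / A * A' = 0 := S.eq_zero_of_small hσ hq hn hB hg hg' (j := l) (by
    rw [show (z - y / A * A') • e l = (y • e k + z • e l) + (-(y / A)) • (A • e k + A' • e l) by
      match_scalars <;> field_simp <;> ring, map_add, map_smul g (-_), hw]
    exact (card_le_card (supp_add _ _ _)).trans ((card_union_le _ _).trans (add_le_add (b := 2)
        (d := 2) h6 ((card_le_card (supp_smul _ _ _)).trans (S.card_pair_le _ _ _ _)))))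
  have h8 : x v = v + (y / A) • (c • e r + d • e s) := by
    rw [← hw, ← map_smul, show (y / A) • (A • e k + A' • e l) = y • e k + z • e l by
      rw [sub_eq_zero.mp h7]; match_scalars <;> field_simp, h5]
    (module)
  have h9 : μ - 1 ≠ 0 := fun h => h2 (by simp [sub_eq_zero.mp h])
  have h10 : σ μ - 1 ≠ 0 := by simpa using (map_ne_zero σ).mpr h9
  have hy0 : y ≠ 0 := by
    intro h0
    have k1 : B (g (e k)) v = 0 := by simpa [h0, h9] using hy.symm
    have k2 : B (g (e l)) v = 0 := by simpa [h0, h10, hz] using h7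
    have := congrArg (fun t => B t v) hw
    simp [LinearMap.map_smulₛₗ, k1, k2] at this
    simp [hv, S.on, hrs.symm, hbr.symm, hbs.symm, hc, hα] at this
  have h11 : α + y / A * c = 0 := by
    by_contra h0
    have := card_le_card (show {r, b, s} ⊆ supp B e (x v) by
      rw [h8]
      simp [insert_subset_iff, hv, S.on, hrs, hrs.symm, hbr, hbr.symm, hbs, hbs.symm, h0, hβ,
        hy0, hA, hd])
    rw [card_eq_three.mpr ⟨r, b, s, hbr.symm, hrs, hbs, rfl⟩, hv] at this
    omega
  refine ⟨-(A / y) * β, ?_⟩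
  rw [show c • e r + (-(A / y) * β) • e b = (-(A / y)) • v by
    rw [hv, eq_neg_of_add_eq_zero_left h11]; match_scalars <;> field_simp, map_smul, h8, hv,
    eq_neg_of_add_eq_zero_left h11]
  match_scalars <;> field_simp <;> ring

theorem norm_eq_of_good : c * σ c = d * σ d := by
  obtain ⟨μ, h1, h2⟩ := hσ.exists_norm_one_sq_ne
  obtain ⟨t, ht, e1⟩ := S.exists_diag_two hkl h1
  obtain ⟨b, -, hb⟩ := exists_mem_notMem_of_card_lt_card (s := {r, s}) (t := univ)
    (by rw [card_univ]; have := card_le_two (a := r) (b := s); omega)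
  simp only [mem_insert, mem_singleton, not_or] at hb
  have hx := mul_mem (mul_mem hg ht) (inv_mem hg)
  obtain ⟨β, e2⟩ := S.exists_move hσ hq hn hB hg hg' hkl hrs hw hc h1 h2 hx (e1.conj (S.leU hg))
    hb.1 hb.2
  have := S.leU hx (c • e r + β • e b) (c • e r + β • e b)
  rw [e2] at this
  simp [LinearMap.map_smulₛₗ, S.on, hb.1, hb.2, Ne.symm hb.1, Ne.symm hb.2] at this
  linear_combination -this

theorem norm_identity {μ : F} (h1 : μ * σ μ = 1) (h2 : σ μ ≠ μ) {b : ι} (hbr : b ≠ r) (hbs : b ≠ s) :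
    (2 - μ - σ μ) * (c * σ c) * (B (g (e k)) (e b) * σ (B (g (e k)) (e b))) =
      (A + (μ - 1) * (c * B (g (e k)) (e r))) * σ (A + (μ - 1) * (c * B (g (e k)) (e r))) := by
  obtain ⟨t, ht, e1⟩ := S.exists_diag_two hkl h1
  have hx := mul_mem (mul_mem hg ht) (inv_mem hg)
  have e3 := e1.conj (S.leU hg)
  obtain ⟨β, e2⟩ := S.exists_move hσ hq hn hB hg hg' hkl hrs hw hc h1 h2 hx e3 hbr hbs
  have h3 := S.norm_eq_of_good hσ hq hn hB (inv_mem hx) (fun h => hg'
    (S.mem_of_isBi' hσ hq hn hB hg e3 h2 h1 (by simpa only [inv_mem_iff] using h))) hbs hbr.symm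
    (by rw [← e2, LinearEquiv.coe_inv, LinearEquiv.symm_apply_apply]) hc
  have h4 := congrArg (B (g (e k))) hw
  have h5 := congrArg (B (g (e k))) e2
  rw [e3] at h5
  simp [S.leU hg _ _, S.on, hkl] at h4 h5
  rw [show A + (μ - 1) * (c * B (g (e k)) (e r)) = -((μ - 1) * β * B (g (e k)) (e b)) by
    linear_combination h4 + h5, h3]
  simp only [map_neg, map_mul, map_sub, map_one]
  linear_combination -(β * σ β * (B (g (e k)) (e b) * σ (B (g (e k)) (e b)))) * h1

theorem false_of_good : False := by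
  have hA := S.ne_zero_of_good hσ hq hn hB hg hg' hrs hw hc
  have hA' := (map_ne_zero σ).mpr hA
  have E := fun μ h1 h2 b => S.norm_identity hσ hq hn hB hg hg' hkl hrs hw hc (μ := μ) h1 h2 (b := b)
  obtain ⟨μ, h1, h2⟩ := hσ.exists_norm_one_pows_ne
  have h3 : σ μ ≠ μ := fun h => h2 2 (by omega) (by omega) (by rw [sq, ← h1, h])
  rcases hq.eq_or_lt with rfl | hq'
  · have h4 : (3 : F) = 0 := by exact_mod_cast hσ.cast_q
    have hw' : g⁻¹ (c • e r + d • e s) = A • e k + A' • e l := by rw [← hw]; simp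
    have hd : d ≠ 0 := S.ne_zero_of_good hσ le_rfl hn hB (inv_mem hg) (by simpa using hg') hkl
      (k := s) (l := r) (A' := c) (by rw [add_comm, hw']) hA
    have h5 := S.norm_eq_of_good hσ le_rfl hn hB hg hg' hkl hrs hw hc
    have h6 := S.norm_eq_of_good hσ le_rfl hn hB (inv_mem hg) (by simpa using hg') hrs hkl hw' hA
    have h7 := S.leU hg (A • e k + A' • e l) (A • e k + A' • e l)
    have h8 := congrArg (B (g (e k))) hw
    rw [hw] at h7
    simp [LinearMap.map_smulₛₗ, S.leU hg _ _, S.on, hkl, hkl.symm, hrs, hrs.symm] at h7 h8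
    have h9 := S.sum_supp (g (e k)) (subset_univ _)
    obtain ⟨b, -, hb⟩ := exists_mem_notMem_of_card_lt_card (s := {r, s}) (t := univ)
      (by rw [card_univ]; have := card_le_two (a := r) (b := s); omega)
    simp only [mem_insert, mem_singleton, not_or] at hb
    have E1 := E μ h1 h3 b hb.1 hb.2
    have E2 := S.norm_identity hσ le_rfl hn hB hg hg' hkl hrs.symm (hw.trans (add_comm _ _)) hd h1 h3
      hb.2 hb.1
    have h10 := congrArg ((2 - μ - σ μ) * (c * σ c) * ·) h9
    simp only [← S.herm.symm (g (e k)) (e _)] at h10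
    rw [← sum_add_sum_compl {r, s}, sum_pair hrs, mul_add, mul_sum, sum_congr rfl fun i hi => by
      simp only [mem_compl, mem_insert, mem_singleton, not_or] at hi
      exact E μ h1 h3 i hi.1 hi.2, sum_const, card_compl, card_pair hrs, hn, S.leU hg, S.self] at h10
    have h11 := congrArg σ h8
    simp only [map_add, map_mul, map_sub, map_one, nsmul_eq_mul] at E1 E2 h10 h11
    generalize B (g (e k)) (e r) = x at *
    generalize B (g (e k)) (e s) = y at *
    generalize B (g (e k)) (e b) * σ (B (g (e k)) (e b)) = z at *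
    refine mul_ne_zero hA hA' ?_
    simp only [Nat.reduceSub, Nat.cast_ofNat] at h10
    have k1 : c * σ c = A * σ A := by
      linear_combination -(h7 + h5 - h6) + (c * σ c - A * σ A) * h4
    have k3 : (A + (μ - 1) * (c * x)) * (σ A + (σ μ - 1) * (σ c * σ x)) +
        (A + (μ - 1) * (d * y)) * (σ A + (σ μ - 1) * (σ d * σ y)) = 2 * (A * σ A) -
        (2 - μ - σ μ) * (A * σ A) + (2 - μ - σ μ) * (c * σ c) * (x * σ x + y * σ y) := by
      linear_combination (c * x * (σ c * σ x) + d * y * (σ d * σ y)) * h1 - (σ μ - 1) * A * h11 -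
        (μ - 1) * σ A * h8 - (2 - μ - σ μ) * y * σ y * h5
    linear_combination E2 - E1 + (2 - μ - σ μ) * z * h5 + k3 + h10 + (2 - μ - σ μ) * k1 +
      (A * σ A - 2 * ((A + (μ - 1) * (c * x)) * (σ A + (σ μ - 1) * (σ c * σ x)))) * h4
  · obtain ⟨b, -, hb⟩ := exists_mem_notMem_of_card_lt_card (s := {r, s}) (t := univ)
      (by rw [card_univ]; have := card_le_two (a := r) (b := s); omega)
    simp only [mem_insert, mem_singleton, not_or] at hb
    have E1 := E μ h1 h3 b hb.1 hb.2
    have E2 := E (σ μ) (by rw [hσ.invol, mul_comm, h1]) (by rw [hσ.invol]; exact h3.symm) b hb.1 hb.2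
    have h4 : μ ^ 2 * σ (μ ^ 2) = 1 := by rw [map_pow, ← mul_pow, h1, one_pow]
    have E3 := E (μ ^ 2) h4 (fun h => h2 4 (by omega) (by omega) (by
      rw [← h4, h]; ring)) b hb.1 hb.2
    simp only [map_add, map_mul, map_sub, map_one, map_pow, hσ.invol] at E1 E2 E3
    generalize B (g (e k)) (e b) * σ (B (g (e k)) (e b)) = z at *
    generalize B (g (e k)) (e r) = x at *
    have k1 : A * (σ c * σ x) = c * x * σ A :=
      mul_left_cancel₀ (sub_ne_zero.mpr h3) (by linear_combination E2 - E1)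
    have k2 : (2 - μ - σ μ) * (c * σ c * z - c * x * (σ c * σ x) + A * (σ c * σ x)) = A * σ A := by
      linear_combination E1 + c * x * (σ c * σ x) * h1 + (1 - μ) * k1
    have k3 : (2 - μ ^ 2 - σ μ ^ 2) * (c * σ c * z - c * x * (σ c * σ x) + A * (σ c * σ x)) =
        A * σ A := by
      linear_combination E3 + c * x * (σ c * σ x) * (μ * σ μ + 1) * h1 + (1 - μ ^ 2) * k1
    generalize c * σ c * z - c * x * (σ c * σ x) + A * (σ c * σ x) = X at k2 k3
    have k4 : X = 0 := (mul_eq_zero.mp (show (μ ^ 1 - 1) * (μ ^ 3 - 1) * X = 0 by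
      linear_combination μ ^ 2 * (k2 - k3) + (μ - μ * σ μ - 1) * X * h1)).resolve_left
      (mul_ne_zero (sub_ne_zero.mpr (h2 1 (by omega) (by omega)))
        (sub_ne_zero.mpr (h2 3 (by omega) (by omega))))
    exact mul_ne_zero hA hA' (by rw [← k2, k4, mul_zero])

omit hg hg' hkl hrs hw hc in
theorem le_mono' : K ≤ decStab fun i => F ∙ e i := fun g hg => by
  by_contra hg'
  obtain ⟨k, l, hkl⟩ := Fintype.exists_pair_of_one_lt_card (show 1 < Fintype.card ι by omega)
  obtain ⟨A, A', h1, h2⟩ := S.exists_good hσ hq hn hB hg hkl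
  obtain ⟨r, hr⟩ : ∃ r, B (e r) (g (A • e k + A' • e l)) ≠ 0 := by
    by_contra hcon
    push Not at hcon
    exact h1 (g.map_eq_zero_iff.mp (S.top _ hcon))
  obtain ⟨T, h3, -, h4⟩ := exists_subsuperset_card_eq (subset_univ _) h2 (by rw [card_univ]; omega)
  obtain ⟨s, hs⟩ := card_eq_one.mp (show (T.erase r).card = 1 by
    rw [card_erase_of_mem (h3 (mem_supp.mpr hr)), h4])
  have hrs : r ≠ s := (ne_of_mem_erase (hs.ge (mem_singleton_self s))).symm
  exact S.false_of_good hσ hq hn hB hg hg' hkl hrs (S.eq_pair hrs (h3.trans (by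
    rw [← hs]; exact subset_insert_iff.mpr le_rfl))) hr

omit hB hg hg' hkl hrs hw hc in
theorem max_frame' : K ≤ decStab (fun i => F ∙ e i) ∨ SUG B ≤ K := by
  by_cases hB : ∀ g ∈ K, ∀ i, g (e i) ∈ F ∙ e i → g ∈ decStab fun i => F ∙ e i
  · exact Or.inl (S.le_mono' hσ hq hn hB)
  · push Not at hB
    obtain ⟨g, hg, i, h1, h2⟩ := hB
    exact Or.inr (S.SUG_le_of_fix' hσ hn.ge hg h2 h1)

end FrameStr

theorem IsBar.isMaximalIn_frame_six (hσ : IsBar q σ) (hq : 3 ≤ q) {n t : ℕ} (hn : n = 6)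
    {D : Fin t → Submodule F (Fin n → F)}
    (hD : Geo.IsNondegenerateMDecomposition (hermForm n F q) 1 D) :
    Geo.IsMaximalIn (GU n F q ⊓ Geo.specialLinear (Fin n) F)
      (Geo.decompositionStabilizer D ⊓ (GU n F q ⊓ Geo.specialLinear (Fin n) F)) := by
  have := hσ.finite
  have h := hσ.isHerm (ι := Fin n)
  have S := hσ.decStr hD
  have h1 := S.finrank_eq hD.decomp.indep
  simp only [finrank_fintype_fun_eq_card, Fintype.card_fin] at h1
  have h2 : ∀ i, ∃ e, D i = F ∙ e ∧ stdForm σ (Fin n) e e = 1 := fun i => by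
    obtain ⟨e, he⟩ := (h.restrict (S.nondeg i)).exists_orthonormal 1 (by rw [S.dim])
    have he' : stdForm σ (Fin n) (e 0) (e 0) = 1 := he 0 0
    exact ⟨e 0, (Submodule.eq_of_le_of_finrank_eq
      ((Submodule.span_singleton_le_iff_mem _ _).mpr (e 0).2)
      (by rw [S.dim, finrank_span_singleton (by rintro h0; simp [h0] at he')])).symm, he'⟩
  choose e he he' using h2
  obtain rfl : D = fun i => F ∙ e i := funext he
  have hon : ∀ i j, stdForm σ (Fin n) (e i) (e j) = if i = j then 1 else 0 := fun i j => by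
    split_ifs with hij
    · rw [hij, he']
    · exact S.orth' hij (Submodule.mem_span_singleton_self _) (Submodule.mem_span_singleton_self _)
  have hS : ∀ K, K ≤ SUG (stdForm σ (Fin n)) → decStab (fun i => F ∙ e i) ⊓ SUG _ ≤ K →
      FrameStr (stdForm σ (Fin n)) e K := fun K h1 h2 => ⟨h, hon, fun v hv => h.nondeg_right _
    fun u => by
      obtain ⟨y, y1, -, rfl⟩ := S.exists_comp h u
      rw [map_sum, LinearMap.sum_apply]
      exact sum_eq_zero fun i _ => by
        obtain ⟨c, hc⟩ := Submodule.mem_span_singleton.mp (y1 i)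
        simp [← hc, LinearMap.map_smulₛₗ, hv], h1, h2⟩
  refine hσ.isMaximalIn_of (fun g _ => mem_decompositionStabilizer_iff g) ?_ fun K hH hK =>
    (hS K hK hH).max_frame' hσ hq (by simp; omega)
  obtain ⟨θ, hθ⟩ := h.exists_norm_eq (μ := -1) (by simp)
  have hθ0 : θ ≠ 0 := by rintro rfl; simp at hθ
  let a : Fin t := ⟨0, by omega⟩
  let b : Fin t := ⟨1, by omega⟩
  let c : Fin t := ⟨2, by omega⟩
  have h4 : ∀ j, e a + e b + θ • e c ∉ F ∙ e j := fun j hm => by
    have := (hS _ le_rfl inf_le_right).mem_span_singleton_iff.mp hm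
    have h5 := @this a (by simp [hon, a, b, c])
    have h6 := @this b (by simp [hon, a, b, c])
    simp only [mem_singleton] at h5 h6
    simp [a, b, ← h5] at h6
  exact h.not_SUG_le_decStab (by simp; omega) (Submodule.mem_span_singleton_self (e a))
    ((hS _ le_rfl inf_le_right).ne_zero a) (v := e a + e b + θ • e c)
    (fun h0 => h4 a (h0 ▸ zero_mem _))
    (by simp [LinearMap.map_smulₛₗ, hon, a, b, c, mul_comm (σ θ), hθ]) h4

end Cfsg.Lib.Unitary
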