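import Cfsg.Agent.Lib.Unitary.XfC

/-!
# Extension-field subgroups of unitary groups are maximal
-/

set_option autoImplicit false
set_option linter.unusedSectionVars false

namespace Cfsg.Lib.Unitary

open Module Cfsg.Lib.Linear Cfsg.Lib.OMax

variable {F K V : Type*} [Field F] [Field K] [Algebra F K] [AddCommGroup V] [Module F V]
  [Module K V] [IsScalarTower F K V] {q : ℕ} {σ : F →+* F} {s : K →+* K} {τ : K →ₗ[F] F}
  {B : V →ₛₗ[σ] V →ₗ[F] F} {A : V →ₛₗ[s] V →ₗ[K] K} {M : Subgroup (V ≃ₗ[F] V)}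

namespace FStr

variable (h : FStr q σ s τ) {ω : F} (hω : σ ω ≠ ω)
include h hω

theorem decomp_fixed (y : K) : ∃ a b : K, s a = a ∧ s b = b ∧ y = a + ω • b := by
  obtain ⟨δ, hδ0, hδ⟩ := h.bar.exists_skew
  obtain ⟨a, b, ha, hb, e⟩ := h.decomp hω (δ • y)
  have h1 : ∀ a, a + s a = 0 → s (δ⁻¹ • a) = δ⁻¹ • a := fun a ha => by
    rw [h.s_smul, map_inv₀, hδ, eq_neg_of_add_eq_zero_right ha, inv_neg, neg_smul_neg]
  exact ⟨_, _, h1 a ha, h1 b hb, by rw [smul_comm, ← smul_add, ← e, inv_smul_smul₀ hδ0]⟩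

omit h in
theorem eq_zero_of_skew {a b : F} (ha : a + σ a = 0) (hb : b + σ b = 0)
    (e : a + ω * b + σ (a + ω * b) = 0) : b = 0 := by
  rw [map_add, map_mul] at e
  exact (mul_eq_zero.1 (show (σ ω - ω) * b = 0 by
    linear_combination ha - e + σ ω * hb)).resolve_left (sub_ne_zero.2 hω)

theorem ker_decomp {y : K} (hy : τ y = 0) :
    ∃ a b : K, a + s a = 0 ∧ b + s b = 0 ∧ τ a = 0 ∧ τ b = 0 ∧ y = a + ω • b := by
  obtain ⟨a, b, ha, hb, rfl⟩ := h.decomp hω y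
  rw [map_add, map_smul, smul_eq_mul] at hy
  have h1 := eq_zero_of_skew hω (h.tau_skew ha) (h.tau_skew hb) (by simp [hy])
  exact ⟨a, b, ha, hb, by simpa [h1] using hy, h1, rfl⟩

omit hω in
theorem exists_tau_eq {m : K}
    (hm : ∀ ρ : F, ρ ≠ 0 → ∀ y, s y = y → ∀ μ : F, ρ • m ≠ y + algebraMap F K μ) (t : F) :
    ∃ y, y + s y = 0 ∧ τ y = 0 ∧ τ (y * m) = t := by
  by_contra! h0
  obtain ⟨ρ, hρ, h1⟩ : ∃ ρ : F, ρ ≠ 0 ∧ ∀ y, y + s y = 0 → τ y = 0 →
      ρ * τ (y * m) + σ (ρ * τ (y * m)) = 0 := by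
    by_cases h1 : ∀ y, y + s y = 0 → τ y = 0 → τ (y * m) = 0
    · exact ⟨1, one_ne_zero, fun y h2 h3 => by simp [h1 y h2 h3]⟩
    push Not at h1
    obtain ⟨y₀, h1, h2, h3⟩ := h1
    obtain ⟨δ, hδ0, hδ⟩ := h.bar.exists_skew
    refine ⟨δ / τ (y₀ * m), div_ne_zero hδ0 h3, fun y h4 h5 => ?_⟩
    by_cases h6 : σ (τ (y * m) / τ (y₀ * m)) = τ (y * m) / τ (y₀ * m)
    · rw [div_mul_eq_mul_div, mul_div_assoc, map_mul σ, h6, hδ]; ring
    set w := τ (y * m) / τ (y₀ * m) with hw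
    set x := t / τ (y₀ * m) with hx
    have h7 : σ w - w ≠ 0 := sub_ne_zero.2 h6
    have h8 : σ ((σ x - x) / (σ w - w)) = (σ x - x) / (σ w - w) := by
      rw [map_div₀, map_sub, map_sub, h.bar.invol, h.bar.invol, ← neg_sub (σ x), ← neg_sub (σ w),
        neg_div_neg_eq]
    have h9 : σ (x - (σ x - x) / (σ w - w) * w) = x - (σ x - x) / (σ w - w) * w := by
      rw [map_sub, map_mul, h8]; field_simp; ring
    refine (h0 ((x - (σ x - x) / (σ w - w) * w) • y₀ + ((σ x - x) / (σ w - w)) • y)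
      (by linear_combination (norm := skip) h.skew_smul h1 h9 + h.skew_smul h4 h8
          rw [map_add]; ring) (by simp [h2, h5]) ?_).elim
    rw [add_mul, smul_mul_assoc, smul_mul_assoc, map_add, map_smul, map_smul, smul_eq_mul,
      smul_eq_mul, ← div_mul_cancel₀ (τ (y * m)) h3, ← hw, ← div_mul_cancel₀ t h3, ← hx]
    ring
  obtain ⟨ω, hω⟩ := h.bar.exists_ne
  obtain ⟨p, p', hp, hp', e⟩ := h.decomp_fixed hω (ρ • m)
  have h2 : ∀ y, y + s y = 0 → τ y = 0 → τ (y * p') = 0 := fun y h2 h3 =>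
    eq_zero_of_skew hω (h.tau_skew (h.skew_mul h2 hp)) (h.tau_skew (h.skew_mul h2 hp')) (by
      have := h1 y h2 h3
      rwa [← smul_eq_mul, ← map_smul, ← mul_smul_comm, e, mul_add, map_add, mul_smul_comm,
        map_smul, smul_eq_mul] at this)
  obtain ⟨y₀, hy₀⟩ : ∃ t, τ t = 1 := LinearMap.surjective h.ne 1
  refine hm ρ hρ p hp (ω * τ (y₀ * p')) ?_
  rw [e, map_mul, ← Algebra.smul_def, eq_of_coef h.ne (a := algebraMap F K (τ (y₀ * p'))) (b := p')]
  intro y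
  obtain ⟨a, b, ha, hb, ha', hb', e⟩ := h.ker_decomp hω (y := y - τ y • y₀) (by simp [hy₀])
  have h3 : τ ((y - τ y • y₀) * p') = 0 := by
    simp [e, add_mul, h2 a ha ha', h2 b hb hb']
  rw [sub_mul, map_sub, sub_eq_zero] at h3
  rw [h3, mul_comm y, ← Algebra.smul_def]
  simp [mul_comm]

end FStr

/-- `M` contains the transvection with centre `v` and parameter `γ`. -/
def TvL (B : V →ₛₗ[σ] V →ₗ[F] F) (M : Subgroup (V ≃ₗ[F] V)) (γ : F) (v : V) : Prop :=
  ∃ hv hγ, transv B v γ hv hγ ∈ M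

theorem TvL.map (hU : M ≤ UG B) {γ : F} {v : V} (h : TvL B M γ v) {g : V ≃ₗ[F] V} (hg : g ∈ M) :
    TvL B M γ (g v) := by
  obtain ⟨hv, hγ, h⟩ := h
  exact ⟨_, hγ, conj_transv (hU hg) v γ hv hγ ▸ mul_mem (mul_mem hg h) (inv_mem hg)⟩

theorem TvL.zero {γ : F} {v : V} (h : TvL B M γ v) : TvL B M γ 0 := by
  obtain ⟨-, hγ, -⟩ := h
  refine ⟨by simp, hγ, ?_⟩
  convert one_mem M
  ext
  simp

namespace IsHerm

variable (h : IsHerm σ B) (hU : M ≤ UG B) {γ : F} {u : V} (hu : B u u = 0)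
include hU

theorem smul_mem_AE_of_tvL {y w : V} (hy : TvL B M γ y) (huy : B y u = 0) (hw : w ∈ h.AE M hu) :
    (γ * B y w) • y ∈ h.AE M hu := by
  obtain ⟨_, _, hy⟩ := hy
  simpa using h.sub_mem_AE hu hU hy (by simp [huy]) hw

omit hU in
theorem smul_mem_AE_of_tvL_add {v : V} (huv : B u v = 0) (h1 : TvL B M γ v)
    (h2 : TvL B M γ (v + u)) : γ • v ∈ h.AE M hu := by
  obtain ⟨hv, hγ, h1⟩ := h1
  obtain ⟨_, _, h2⟩ := h2
  exact h.smul_mem_AE_of_transv hu hv hγ huv h1 h2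

theorem mem_AE_of_real (hγ : γ ≠ 0) {V₀ : AddSubgroup V} (hV : ∀ x ∈ V₀, TvL B M γ x) (hu' : u ∈ V₀)
    {v : V} (huv : B u v = 0) (hv : TvL B M γ v) (hs : ∀ t, ∃ w ∈ V₀, B u w = 0 ∧ B w v = t)
    (t : F) {y : V} (hy : y ∈ V₀) (huy : B u y = 0) : t • y ∈ h.AE M hu := by
  have h0 : σ γ = -γ := eq_neg_of_add_eq_zero_right hv.2.1
  have h1 : ∀ t : F, t • v ∈ h.AE M hu := fun t => by
    rcases eq_or_ne t 0 with rfl | ht
    · simp
    obtain ⟨w, hw, h2, h3⟩ := hs (σ (t / γ) / γ)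
    obtain ⟨-, g, hg, c, e⟩ := h.smul_mem_AE_of_tvL_add hu h2 (hV w hw) (hV _ (add_mem hw hu'))
    have h4 : g v = v + σ (t / γ) • u := by
      rw [e, LinearMap.map_smulₛₗ, LinearMap.smul_apply, h3, h0, huv]
      simp [mul_div_cancel₀ _ hγ]
    have h5 := h.smul_mem_AE_of_tvL_add (u := σ (t / γ) • u) (by simp [LinearMap.map_smulₛₗ, hu])
      (by simp [LinearMap.map_smulₛₗ, huv]) hv (h4 ▸ hv.map hU hg)
    simpa [h.invol, smul_smul, hγ] using h.conj_mem_AE _ hU hu (one_mem M) (a := σ (t / γ))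
      (by simp [ht, hγ]) rfl h5
  have h2 : ∀ y ∈ V₀, B u y = 0 → B y v ≠ 0 → t • y ∈ h.AE M hu := fun y hy h2 h3 => by
    convert h.smul_mem_AE_of_tvL hU hu (hV y hy) (h.eq_zero_comm.1 h2) (h1 (t / (γ * B y v)))
    rw [map_smul, smul_eq_mul]
    field_simp
  by_cases h3 : B y v = 0
  · obtain ⟨w, hw, h4, h5⟩ := hs 1
    simpa using sub_mem (h2 _ (add_mem hy hw) (by simp [huy, h4]) (by simp [h3, h5]))
      (h2 w hw h4 (by simp [h5]))
  · exact h2 y hy huy h3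

end IsHerm

namespace KStr

variable (h : KStr q τ B A) [FiniteDimensional F V] [FiniteDimensional K V] (hM : HasK A M)
  (hU : M ≤ UG B) (hk2 : 2 ≤ finrank K V)
  (hk : 3 ≤ finrank K V ∨ ¬ (q = 2 ∧ finrank F K = 3))
include h hM hU hk2 hk

theorem SUG_le_of_tvL {e : V} (he0 : e ≠ 0) (he : A e e = 0) {γ : F} (hγ : γ ≠ 0)
    (hT : TvL B M γ e) : SUG B ≤ M := by
  have := h.finite
  have := h.barK.finite
  obtain ⟨f, hf, hef⟩ := h.hK.exists_hyperbolic he0 he
  have hfe : A f e = 1 := by rw [← h.hK.symm, hef, map_one]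
  have hb : B e e = 0 := hT.1
  obtain ⟨ω, hω⟩ := h.bar.exists_ne
  have h1 : ∀ m : K, σ (Algebra.norm F m) = Algebra.norm F m → TvL B M γ (m • e) := fun m hm => by
    rcases eq_or_ne m 0 with rfl | h0
    · simpa using hT.zero
    obtain ⟨g, hg, hg'⟩ := h.exists_tor hM he0 he h0 hm
    have := hg' 1
    rw [one_smul, one_mul] at this
    exact this ▸ hT.map hU hg
  have h2 : ∀ x y : K, x ≠ 0 → s x = x → y + s y = 0 → TvL B M γ (x • e + y • f) :=
    fun x y h0 hx hy => by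
      obtain ⟨t, ht, ht'⟩ := h.exists_tv hM hf (h.skew_mul hy (y := x⁻¹) (by rw [map_inv₀, hx]))
      simpa [ht', hfe, h0] using (h1 x (by rw [← h.norm_s, hx])).map hU ht
  have h3 : ∀ y : K, y + s y = 0 → TvL B M γ (y • f) := fun y hy => by
    rcases eq_or_ne y 0 with rfl | h0
    · simpa using hT.zero
    obtain ⟨t, ht, ht'⟩ := h.exists_tv hM he (c := -y⁻¹) (by
      rw [map_neg, map_inv₀, eq_neg_of_add_eq_zero_right hy, inv_neg, neg_neg, neg_add_cancel])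
    simpa [ht', he, hef, h0] using (h2 1 y one_ne_zero (map_one s) hy).map hU ht
  have h4 : ∀ w, A e w = 0 → w ∈ h.h.AE M hb := fun w hw => by
    by_cases hk3 : 3 ≤ finrank K V
    · have k1 : ∀ v, A v v = 0 → TvL B M γ v := fun v hv => by
        rcases eq_or_ne v 0 with rfl | h0
        · exact hT.zero
        obtain ⟨g, hg, rfl⟩ := h.hK.exists_SUG_vec hk3 he0 h0 (he.trans hv.symm)
        exact hT.map hU (hM.of_SUG hg)
      have k2 : ∀ v, A v v = 0 → A e v + s (A e v) = 0 → τ (A e v) = 0 → γ • v ∈ h.h.AE M hb :=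
        fun v k2 k3 k4 => h.h.smul_mem_AE_of_tvL_add hb (by rw [h.eq, k4]) (k1 v k2)
          (k1 _ (by simp [k2, he, ← h.hK.symm e v, add_comm, k3]))
      obtain ⟨c, hc0, hc, hc', -⟩ := h.exists_skew_two (map_one s) (map_one s)
      rw [mul_one] at hc'
      have k3 : A e (γ⁻¹ • w) = 0 := by rw [← algebraMap_smul K, map_smul, hw, smul_zero]
      obtain ⟨a, ha⟩ := h.hK.exists_add_smul_isotropic he (v := c • f + γ⁻¹ • w)
        (by simpa [k3, hef])
      simpa [hγ] using sub_mem (sub_mem (k2 _ ha (by simpa [k3, hef, he]) (by simpa [k3, hef, he]))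
        (k2 (a • e) (by simp [LinearMap.map_smulₛₗ, he]) (by simp [he]) (by simp [he])))
        (k2 (c • f) (by simp [LinearMap.map_smulₛₗ, hf]) (by simpa [hef]) (by simpa [hef]))
    obtain ⟨κ, rfl⟩ : ∃ κ : K, κ • e = w := Submodule.mem_span_singleton.1
      ((Submodule.eq_of_le_of_finrank_eq (S₁ := K ∙ e) (S₂ := perp A (K ∙ e))
        ((Submodule.span_singleton_le_iff_mem _ _).2 (mem_perp_singleton.2 he)) (by
          have := h.hK.finrank_perp_singleton he0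
          rw [finrank_span_singleton he0]
          omega)).ge (mem_perp_singleton.2 hw))
    obtain ⟨a, k1, k2, k3⟩ := h.exists_lam (hk.resolve_left hk3)
    obtain ⟨b, -, k4, k5⟩ := h.exists_kappa k1 k3
    let V₀ : AddSubgroup V :=
      { carrier := {v | ∃ x y : K, s x = x ∧ y + s y = 0 ∧ v = x • e + y • f}
        zero_mem' := ⟨0, 0, by simp, by simp, by simp⟩
        add_mem' := by
          rintro _ _ ⟨x, y, hx, hy, rfl⟩ ⟨x', y', hx', hy', rfl⟩
          exact ⟨x + x', y + y', by rw [map_add, hx, hx'], by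
            rw [map_add]; linear_combination hy + hy', by module⟩
        neg_mem' := by
          rintro _ ⟨x, y, hx, hy, rfl⟩
          exact ⟨-x, -y, by rw [map_neg, hx], by rw [map_neg]; linear_combination -hy,
            by module⟩ }
    have k6 : ∀ (t : F) (x : K), s x = x → t • x • e ∈ h.h.AE M hb := fun t x hx =>
      h.h.mem_AE_of_real hU hb hγ (V₀ := V₀) (by
          rintro _ ⟨x, y, hx, hy, rfl⟩
          rcases eq_or_ne x 0 with rfl | h0
          · simpa using h3 y hy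
          · exact h2 x y h0 hx hy) ⟨1, 0, by simp, by simp, by simp⟩ (v := (a * b) • e)
        (by simp [h.smul_right, he]) (h1 _ (by rw [map_mul, k2, one_mul, ← h.norm_s, k4]))
        (fun t => by
          obtain ⟨y, k6, k7, k8⟩ := h.exists_tau_eq k5 (-t)
          refine ⟨y • f, ⟨0, y, by simp, k6, by simp⟩, by simp [h.smul_right, hef, k7], ?_⟩
          rw [h.smul_left, map_smul, hfe, smul_eq_mul, mul_one, eq_neg_of_add_eq_zero_right k6,
            neg_mul, map_neg, k8, neg_neg])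
        t ⟨x, 0, hx, by simp, by simp⟩ (by simp [h.smul_right, he])
    obtain ⟨x, y, hx, hy, rfl⟩ := h.decomp_fixed hω κ
    simpa [add_smul] using add_mem (k6 1 x hx) (k6 ω y hy)
  have h5 : ∀ (t : F) (y : K), y + s y = 0 → τ y = 0 → t • y • f ∈ h.h.AE M hb :=
    fun t y hy hy' => by
      rcases eq_or_ne y 0 with rfl | h0
      · simp
      obtain ⟨κ, hκ⟩ := LinearMap.surjective h.ne (t / γ)
      have k1 : s y ≠ 0 := by simpa
      convert h.h.smul_mem_AE_of_tvL hU hb (h3 y hy)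
        (h.h.eq_zero_comm.1 (by simp [h.smul_right, hef, hy'])) (h4 (((s y)⁻¹ * κ) • e)
          (by simp [he]))
      rw [h.smul_left, map_smul, hfe, smul_eq_mul, mul_one, mul_inv_cancel_left₀ k1, hκ,
        mul_div_cancel₀ _ hγ]
  obtain ⟨c, hc, hc'⟩ := h.exists_skew_ne (one_ne_zero (α := K))
  obtain ⟨_, _, h6⟩ := h3 c hc
  refine h.h.SUG_le_of_AE h.bar (by
      have := Module.finrank_mul_finrank F K V
      nlinarith [h.three]) hU hb (by simpa [h.smul_right, hef] using hc') hγ h6 fun w hw => ?_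
  obtain ⟨a, b, ha, hb', ha', hb'', e1⟩ := h.ker_decomp hω (h.eq e w ▸ hw)
  convert add_mem (h4 (w - A e w • f) (by simp [hef])) (add_mem (h5 1 a ha ha') (h5 ω b hb' hb''))
  rw [e1, add_smul, one_smul, smul_assoc, sub_add_cancel]

theorem SUG_le {g : V ≃ₗ[F] V} (hg : g ∈ M) (hg' : g ∉ semiU F K V) : SUG B ≤ M := by
  obtain ⟨X, hX, hX'⟩ : ∃ X, IsX A M X ∧ ∀ u, u ≠ 0 → A u u = 0 → X ≠ pt F K u := by
    by_contra! hc
    refine hg' (h.mem_semiU hk2 fun u hu0 hu => ?_)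
    obtain ⟨v, -, -, h1⟩ := hc _ ((isX_pt hu0 hu).map hg)
    exact ⟨v, h1⟩
  obtain ⟨e, he0, he, θ, x, -, hx, hθ⟩ := h.exists_tvOn hM hU hk hX hX'
  obtain ⟨γ, hγ, h1⟩ := h.exists_transv hM hU hk he0 he hx hθ
  exact h.SUG_le_of_tvL hM hU hk2 hk he0 he hγ h1

end KStr

open Matrix in
theorem IsBar.isMaximalIn_extField (hσ : IsBar q σ) {n r : ℕ} (hr : r.Prime) (h3 : 3 ≤ r)
    (hn : r < n) (hq : ¬ (q = 2 ∧ r = 3 ∧ n = 6)) {K : Subalgebra F (Matrix (Fin n) (Fin n) F)}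
    (hK : Geo.IsFieldSubalgebra r K) (ha : Geo.IsAdjointClosedFor (hermForm n F q) K) :
    Geo.IsMaximalIn (GU n F q ⊓ Geo.specialLinear (Fin n) F)
      (Geo.subalgebraNormalizer K ⊓ (GU n F q ⊓ Geo.specialLinear (Fin n) F)) := by
  have := hσ.finite
  have : Nonempty (Fin n) := ⟨⟨0, by omega⟩⟩
  let _ := (Asch.isField_of_isFieldSubalgebra hK).toField
  have h1 := Module.finrank_mul_finrank F K (Fin n → F)
  have h2 := hK.finrank_eq
  rw [h2, Module.finrank_fin_fun] at h1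
  rw [Linear.subalgebraNormalizer_eq hK]
  refine hσ.isMaximalIn_of (H' := semiU F K _) (fun g _ => Iff.rfl)
    (hσ.isHerm.not_SUG_le_semiU (by simp; omega) (by omega)) fun M h4 h5 => ?_
  refine or_iff_not_imp_left.2 fun h6 => ?_
  obtain ⟨g, hg, hg'⟩ := SetLike.not_le_iff_exists.1 h6
  obtain ⟨s, τ, A, h⟩ := hσ.isHerm.exists_kStr (K := K) (V := Fin n → F) hσ (h2 ▸ hr) (h2 ▸ h3)
    fun κ => by
      obtain ⟨κ', hκ', e⟩ := ha κ κ.2
      refine ⟨⟨κ', hκ'⟩, fun u v => ?_⟩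
      have := e u v
      rw [hσ.hermForm_eq, hσ.hermForm_eq] at this
      rw [← hσ.isHerm.symm, ← hσ.isHerm.symm _ u]
      exact congrArg σ this
  have : FiniteDimensional K (Fin n → F) := Module.Finite.of_restrictScalars_finite F K _
  have h7 : 2 ≤ finrank K (Fin n → F) := by
    by_contra! h0
    nlinarith
  refine h.SUG_le (h.hasK h4) (h5.trans SUG_le_UG) h7 ?_ hg hg'
  by_contra! h0
  rw [show finrank K (Fin n → F) = 2 by omega] at h1
  exact hq ⟨h0.2.1, by omega, by omega⟩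

end Cfsg.Lib.Unitary
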