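import Cfsg.Agent.Lib.Unitary.MaxPair

/-!
# Maximality in `SU` of stabilisers of orthogonal decompositions (blocks of dimension at least two)
-/

set_option autoImplicit false

namespace Cfsg.Lib.Unitary

open Module

variable {F V : Type*} [Field F] [AddCommGroup V] [Module F V] {σ : F →+* F}
  {B : V →ₛₗ[σ] V →ₗ[F] F} {q : ℕ}

/-- An orthogonal decomposition into non-degenerate subspaces of dimension `k`. -/
structure DecStr (B : V →ₛₗ[σ] V →ₗ[F] F) {ι : Type*} (D : ι → Submodule F V) (k : ℕ) : Prop where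
  nondeg : ∀ i, Disjoint (D i) (perp B (D i))
  orth : ∀ i j, i ≠ j → D j ≤ perp B (D i)
  top : iSup D = ⊤
  dim : ∀ i, finrank F (D i) = k

namespace DecStr

variable {ι : Type*} {D : ι → Submodule F V} {k : ℕ} (S : DecStr B D k)
include S

theorem orth' {i j : ι} (hij : i ≠ j) {u v : V} (hu : u ∈ D i) (hv : v ∈ D j) : B u v = 0 :=
  S.orth i j hij hv u hu

theorem eq_zero {i : ι} {v : V} (h1 : v ∈ D i) (h2 : v ∈ perp B (D i)) : v = 0 :=
  (S.nondeg i).le_bot ⟨h1, h2⟩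

variable [FiniteDimensional F V] (h : IsHerm σ B)
include h

theorem exists_comp [Fintype ι] (v : V) :
    ∃ y : ι → V, (∀ i, y i ∈ D i) ∧ (∀ i, v - y i ∈ perp B (D i)) ∧ v = ∑ i, y i := by
  classical
  choose y hy w hw e using fun i => h.exists_add_perp (S.nondeg i) v
  have h1 : ∀ i, v - y i ∈ perp B (D i) := fun i => by
    rw [show v - y i = w i by rw [e i]; abel]; exact hw i
  refine ⟨y, hy, h1, sub_eq_zero.mp (h.nondeg_right _ fun u => ?_)⟩
  have : (⊤ : Submodule F V) ≤ perp B (F ∙ (v - ∑ i, y i)) := S.top ▸ iSup_le fun j x hx => by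
    rw [mem_perp_singleton, h.eq_zero_comm, ← Finset.add_sum_erase _ _ (Finset.mem_univ j),
      ← sub_sub, map_sub, h1 j x hx, map_sum, Finset.sum_eq_zero fun i hi =>
        S.orth' (Finset.ne_of_mem_erase hi).symm hx (hy i), sub_zero]
  exact h.eq_zero_comm.mp (mem_perp_singleton.mp (this trivial))

theorem apply_mem_of_fix {i : ι} {g : V ≃ₗ[F] V} (hg : g ∈ UG B) (hg' : g ∈ fixStab (perp B (D i)))
    (j : ι) (v : V) (hv : v ∈ D j) : g v ∈ D j := by
  by_cases hij : i = j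
  · subst hij; exact h.apply_mem_of_fixStab hg hg' hv
  · rwa [hg' v (S.orth i j hij hv)]

theorem exists_perm [Finite F] (π : Equiv.Perm ι) : ∃ g ∈ UG B, (∀ i, ∀ v ∈ D i, g v ∈ D (π i)) ∧
    ∀ i, π i = i → ∀ v ∈ D i, g v = v := by
  classical
  choose x hx using fun i => (h.restrict (S.nondeg i)).exists_orthonormal_basis (S.dim i)
  have h1 : ∀ p p' : ι × Fin k, B (x p.1 p.2) (x p'.1 p'.2) = if p = p' then 1 else 0 := by
    rintro ⟨i, a⟩ ⟨j, b⟩
    by_cases hij : i = j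
    · subst hij; exact (hx i a b).trans (by simp)
    · simp [hij, S.orth' hij (x i a).2 (x j b).2]
  have h2 : ∀ p p' : ι × Fin k, B (x (π p.1) p.2) (x (π p'.1) p'.2) = if p = p' then 1 else 0 :=
    fun p p' => (h1 (π p.1, p.2) (π p'.1, p'.2)).trans (by simp [Prod.ext_iff])
  obtain ⟨g, hg, e1⟩ := h.witt_family (linearIndependent_of_orthonormal h1)
    (linearIndependent_of_orthonormal h2) fun p p' => (h1 p p').trans (h2 p p').symm
  have key : ∀ i (Z : Submodule F V), (∀ a, (x i a : V) ∈ Z) → D i ≤ Z := fun i Z hZ v hv => by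
    have := congrArg Subtype.val ((x i).sum_repr ⟨v, hv⟩)
    simp only [AddSubmonoidClass.coe_finset_sum, SetLike.val_smul] at this
    exact this ▸ sum_mem fun a _ => Z.smul_mem _ (hZ a)
  refine ⟨g, hg, fun i => key i ((D (π i)).comap g.toLinearMap) fun a => ?_,
    fun i hi => key i (LinearMap.eqLocus g.toLinearMap LinearMap.id) fun a => ?_⟩
  · exact (e1 (i, a)).symm.subst (motive := (· ∈ D (π i))) (x (π i) a).2
  · exact (e1 (i, a)).trans (congrArg (fun j => (x j a : V)) hi)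

variable {K : Subgroup (V ≃ₗ[F] V)} (hH : decStab D ⊓ SUG B ≤ K)
include hH

theorem SU_le (i : ι) : SUG B ⊓ fixStab (perp B (D i)) ≤ K := fun _ hg =>
  hH ⟨mem_decStab_of_forall (S.apply_mem_of_fix h hg.1.1 hg.2), hg.1⟩

/-- Correcting the determinant inside a block. -/
theorem exists_corr [Finite F] {g : V ≃ₗ[F] V} (hg : g ∈ UG B) (hg' : g ∈ decStab D) {l : ι}
    {z : V} (hzl : z ∈ D l) (hz : B z z ≠ 0) : ∃ r : V ≃ₗ[F] V, g * r ∈ K ∧
      (∀ v, B z v = 0 → r v = v) ∧ ∀ j, ∀ v ∈ D j, r v ∈ D j := by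
  obtain ⟨r, h1, h2, h3, -⟩ := h.exists_mul_mem_SUG hg hz
  have h4 := S.apply_mem_of_fix h (i := l) h1 fun v hv => h3 v (hv z hzl)
  exact ⟨r, hH ⟨mul_mem hg' (mem_decStab_of_forall h4), h2⟩, h3, h4⟩

omit hH in
theorem mem_decStab [Finite F] [Finite ι] (hk : 2 ≤ k) {g : V ≃ₗ[F] V} (hg : g ∈ UG B)
    (h1 : ∀ i, ∀ u ∈ D i, B u u = 0 → ∃ j, g u ∈ D j) : g ∈ decStab D := by
  have h2 : ∀ i, ∃ e ∈ D i, e ≠ 0 ∧ B e e = 0 := fun i => by
    obtain ⟨e, h1, h2⟩ := (h.restrict (S.nondeg i)).exists_isotropic (by rw [S.dim]; exact hk)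
    exact ⟨e, e.2, by simpa using h1, h2⟩
  choose e he he0 hee using h2
  choose f hf using fun i => h1 i (e i) (he i) (hee i)
  have h3 : ∀ i j, ∀ u ∈ D i, ∀ u' ∈ D i, B u' u' = 0 → B u u' ≠ 0 → g u ∈ D j → g u' ∈ D j := by
    intro i j u hu u' hu' h3 h4 h5
    obtain ⟨l, hl⟩ := h1 i u' hu' h3
    by_cases hjl : j = l
    · exact hjl ▸ hl
    · exact absurd ((hg u u').symm.trans (S.orth' hjl h5 hl)) h4
  have h4 : ∀ i, ∀ v ∈ D i, g v ∈ D (f i) := fun i => h.le_of_isotropic (S.nondeg i)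
    (by rw [S.dim]; exact hk) (Z := (D (f i)).comap g.toLinearMap) fun u hu huu => by
      by_cases hu0 : u = 0
      · simp [hu0]
      by_cases h4 : B u (e i) = 0
      · obtain ⟨y, h5, h6, h7⟩ := (h.restrict (S.nondeg i)).exists_isotropic_not_orth
          (u := ⟨e i, he i⟩) (v := ⟨u, hu⟩) (by simpa using he0 i) (by simpa) (hee i) h4
        exact h3 i _ y y.2 u hu huu (fun h0 => h7 (h.eq_zero_comm.mp h0))
          (h3 i _ _ (he i) y y.2 h5 h6 (hf i))
      · exact h3 i _ _ (he i) u hu huu (fun h0 => h4 (h.eq_zero_comm.mp h0)) (hf i)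
  have h5 : Function.Injective f := fun i j hij => by
    by_contra hne
    have h6 := map_eq_of_le (h4 j) ((S.dim _).trans (S.dim _).symm)
    obtain ⟨y, hy, e1⟩ := (h6.trans (congrArg D hij.symm)).ge (hf i)
    exact he0 i (S.eq_zero (he i) (S.orth i j hne (g.injective e1 ▸ hy)))
  exact mem_decStab_of_perm S.dim (Equiv.ofBijective f (Finite.injective_iff_bijective.mp h5)) h4

variable [Fintype ι] (hσ : IsBar q σ) (hK : K ≤ SUG B) (hk : 2 ≤ k)
  (h3 : k = 2 → 3 ≤ Fintype.card ι)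
include hσ hK hk h3

omit hH hσ hK [FiniteDimensional F V] h S in
theorem exists_ne_ne (h2 : k = 2) (i j : ι) : ∃ l, l ≠ i ∧ l ≠ j := by
  classical
  by_contra hcon
  push Not at hcon
  have := Finset.card_le_card (s := Finset.univ) (t := {i, j}) fun l _ => by
    by_cases hl : l = i
    · simp [hl]
    · simp [hcon l hl]
  have := h3 h2
  have := Finset.card_le_two (a := i) (b := j)
  simp at *
  omega

theorem SUG_le_of_mem_AE {i : ι} {e w : V} (hei : e ∈ D i) (he0 : e ≠ 0) (he : B e e = 0)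
    (hw : w ∈ h.AE K he) (hwi : w ∈ perp B (D i)) (hw0 : w ≠ 0) : SUG B ≤ K := by
  classical
  have := hσ.finite
  have hKU := hK.trans SUG_le_UG
  have hk' : ∀ i, 2 ≤ finrank F (D i) := fun i => (S.dim i).symm ▸ hk
  obtain ⟨δ, hδ0, hδ⟩ := h.exists_skew
  obtain ⟨j, u, huj, huu, huw⟩ : ∃ j, ∃ u ∈ D j, B u u = 0 ∧ B u w ≠ 0 := by
    by_contra hcon
    push Not at hcon
    have : (⊤ : Submodule F V) ≤ perp B (F ∙ w) := S.top ▸ iSup_le fun j =>
      h.le_of_isotropic (S.nondeg j) (hk' j) fun u hu huu =>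
        mem_perp_singleton.mpr (h.eq_zero_comm.mp (hcon j u hu huu))
    exact hw0 (h.nondeg w fun v => mem_perp_singleton.mp (this trivial))
  have hij : i ≠ j := by rintro rfl; exact huw (hwi u huj)
  have h1 := h.sub_mem_AE he hKU (h.transv_mem_of_SU (S.SU_le h hH j) huj δ huu (by simp [hδ]))
    (by simp [S.orth' hij.symm huj hei]) hw
  rw [transv_apply, add_sub_cancel_left] at h1
  have hz : ∀ l, ∃ z ∈ D l, B z z ≠ 0 := fun l => by
    obtain ⟨x, hx⟩ := (h.restrict (S.nondeg l)).exists_orthonormal 1 (by have := hk' l; omega)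
    exact ⟨x 0, (x 0).2, fun h0 => by simpa using (hx 0 0).symm.trans h0⟩
  obtain ⟨l, z, hlj, hzl, hzz, hez⟩ : ∃ l z, l ≠ j ∧ z ∈ D l ∧ B z z ≠ 0 ∧ B e z = 0 := by
    by_cases h2 : k = 2
    · obtain ⟨l, h4, h5⟩ := exists_ne_ne hk h3 h2 i j
      obtain ⟨z, h6, h7⟩ := hz l
      exact ⟨l, z, h5, h6, h7, S.orth' h4.symm hei h6⟩
    · obtain ⟨z, h4, h5, h6⟩ := h.exists_nonisotropic_orth_mem (S.nondeg i)
        (by rw [S.dim]; omega) hei
      exact ⟨i, z, hij, h4, h5, h6⟩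
  have h4 : ∀ y ∈ D j, y ∈ h.AE K he := fun y hy => h.mem_of_UG_invariant (S.nondeg j) hσ
    (fun a ha ha' x hx hxj => by
      obtain ⟨r, r1, r2, -⟩ := S.exists_corr h hH ha
        (mem_decStab_of_forall (S.apply_mem_of_fix h ha ha')) hzl hzz
      have := h.apply_mem_AE he hKU r1 (by
        rw [LinearEquiv.mul_apply, r2 e (h.eq_zero_comm.mp hez), ha' e (S.orth j i hij.symm hei)]) hx
      rwa [LinearEquiv.mul_apply, r2 x (S.orth' hlj hzl hxj)] at this) h1 ((D j).smul_mem _ huj)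
    (smul_ne_zero (mul_ne_zero hδ0 huw) (by rintro rfl; simp at huw)) hy
  have h5 : ∀ l, l ≠ i → ∀ y ∈ D l, y ∈ h.AE K he := fun l hl y hy => by
    obtain ⟨g, hg, g1, g2⟩ := S.exists_perm h (Equiv.swap j l)
    obtain ⟨z, hzj, hzz⟩ := hz j
    obtain ⟨r, r1, r2, r3⟩ := S.exists_corr h hH hg (mem_decStab_of_perm S.dim _ g1) hzj hzz
    obtain ⟨x, hx, rfl⟩ := (map_eq_of_le (g := g * r) (W := D j) (W' := D l) (fun v hv => by
      simpa using g1 j _ (r3 j v hv)) ((S.dim _).trans (S.dim _).symm)).ge hy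
    exact h.apply_mem_AE he hKU r1 (by
      rw [LinearEquiv.mul_apply, r2 e (S.orth' hij.symm hzj hei),
        g2 i (Equiv.swap_apply_of_ne_of_ne hij hl.symm) e hei]) (h4 x hx)
  obtain ⟨f, hfi, hf, hef⟩ := h.exists_hyperbolic_mem (S.nondeg i) hei he0 he
  have hn : 4 ≤ finrank F V := by
    have h6 := Submodule.finrank_sup_add_finrank_inf_eq (D i) (D j)
    have h7 := Submodule.finrank_le (D i ⊔ D j)
    rw [((S.nondeg i).mono_right (S.orth i j hij)).eq_bot, finrank_bot, S.dim, S.dim] at h6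
    omega
  refine h.SUG_le_of_AE hσ hn hKU he (by simp [hef]) hδ0
    (h.transv_mem_of_SU (S.SU_le h hH i) hfi δ hf (by simp [hδ])) fun x hx => ?_
  obtain ⟨y, y1, y2, y3⟩ := S.exists_comp h x
  rw [y3]
  refine sum_mem fun l _ => ?_
  by_cases hl : l = i
  · subst hl
    exact h.mem_AE_of_SU (S.SU_le h hH l) hei (y1 l) he (by simpa [hx] using y2 l e hei)
  · exact h5 l hl _ (y1 l)

/-- Stabilisers of orthogonal decompositions with blocks of dimension at least two are maximal. -/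
theorem max_dec (hq : ¬ (k = 2 ∧ q = 2)) : K ≤ decStab D ∨ SUG B ≤ K := by
  have := hσ.finite
  have hKU := hK.trans SUG_le_UG
  refine or_iff_not_imp_left.mpr fun hK' => ?_
  obtain ⟨g, hg, hgD⟩ := SetLike.not_le_iff_exists.mp hK'
  obtain ⟨i₀, u, hu, huu, hv⟩ : ∃ i, ∃ u ∈ D i, B u u = 0 ∧ ∀ j, g u ∉ D j := by
    by_contra hcon
    push Not at hcon
    exact hgD (S.mem_decStab h hk (hKU hg) hcon)
  have hvv : B (g u) (g u) = 0 := (hKU hg u u).trans huu
  have ht : ∀ c hc, transv B (g u) c hvv hc ∈ K := fun c hc => by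
    rw [← conj_transv (hKU hg) u c huu hc]
    exact mul_mem (mul_mem hg (h.transv_mem_of_SU (S.SU_le h hH i₀) hu c huu hc)) (inv_mem hg)
  generalize g u = v at hv hvv ht
  have ht' : ∀ x ∈ K, ∀ c hu hc, transv B (x v) c hu hc ∈ K := fun x hx c hu hc => by
    rw [← conj_transv (hKU hx) v c hvv hc]
    exact mul_mem (mul_mem hx (ht c hc)) (inv_mem hx)
  obtain ⟨y, y1, y2, y3⟩ := S.exists_comp h v
  have y4 : ∀ i, v - y i ≠ 0 := fun i h0 => hv i (sub_eq_zero.mp h0 ▸ y1 i)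
  obtain ⟨δ, hδ0, hδ⟩ := h.exists_skew
  have hδ' : δ + σ δ = 0 := by simp [hδ]
  obtain ⟨i, hi⟩ : ∃ i, y i ≠ 0 := by
    by_contra hcon
    push Not at hcon
    exact hv i₀ (by rw [y3]; simp [hcon])
  by_cases h2 : k = 2
  swap
  · obtain ⟨e, h4, h5, h6, h7⟩ := h.exists_mem_AE (S.nondeg i) (by rw [S.dim]; omega) hKU
      (S.SU_le h hH i) (y1 i) (y2 i) hi (hv := by simpa) (hc := hδ') (by simpa using ht δ hδ')
    exact S.SUG_le_of_mem_AE h hH hσ hK hk h3 h4 h5 h6 h7 (Submodule.smul_mem _ _ (y2 i))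
      (smul_ne_zero hδ0 (y4 i))
  by_cases h4 : ∃ j, y j ≠ 0 ∧ B (y j) (y j) = 0
  · obtain ⟨j, h4, h5⟩ := h4
    obtain ⟨f, hfj, hf, hef⟩ := h.exists_hyperbolic_mem (S.nondeg j) (y1 j) h4 h5
    obtain ⟨s, s1, s2, s3⟩ := hσ.exists_fixed_ne fun h0 => hq ⟨h2, h0⟩
    have hfe : B f (y j) = 1 := by rw [← h.symm, hef, map_one]
    have h6 := ht' (tor B (y j) f hef hfe (Units.mk0 s s2) (Units.mk0 s s2)⁻¹)
      (S.SU_le h hH j ⟨mem_SUG.mpr ⟨h.tor_mem_UG _ _ h5 hf (by simp [s1, s2]),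
        by rw [det_tor, mul_inv_cancel]⟩, fun x hx => by
          simp [tor_apply hef hfe hf, mem_perp.mp hx f hfj, mem_perp.mp hx _ (y1 j)]⟩) δ
    have h7 : B (y j) v = 0 := by simpa [h5] using y2 j _ (y1 j)
    have h8 : B f v = 1 := by simpa [hfe, sub_eq_zero] using y2 j _ hfj
    simp only [tor_apply hef hfe hf, h7, h8, mul_zero, zero_smul, add_zero, mul_one,
      Units.val_mk0] at h6
    have he : B ((s - 1) • y j) ((s - 1) • y j) = 0 := by simp [LinearMap.map_smulₛₗ, h5]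
    have h9 := h.smul_mem_AE_of_transv he hvv hδ' (by simp [LinearMap.map_smulₛₗ, h7])
      (ht δ hδ') (h6 (by simp [LinearMap.map_smulₛₗ, hvv, h5, h7, h.eq_zero_comm.mp h7]) hδ')
    refine S.SUG_le_of_mem_AE h hH hσ hK hk h3 ((D j).smul_mem _ (y1 j))
      (smul_ne_zero (sub_ne_zero.mpr s3) h4) he (w := δ • (v - y j)) ?_
      (Submodule.smul_mem _ _ (y2 j)) (smul_ne_zero hδ0 (y4 j))
    rw [smul_sub]
    exact sub_mem h9 (h.mem_AE_of_SU (S.SU_le h hH j) ((D j).smul_mem _ (y1 j))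
      ((D j).smul_mem _ (y1 j)) he (by simp [LinearMap.map_smulₛₗ, h5]))
  push Not at h4
  obtain ⟨l, hl, -⟩ := exists_ne_ne hk h3 h2 i i
  obtain ⟨z', z1, z2, z3⟩ : ∃ z ∈ D l, B z z ≠ 0 ∧ B z (y l) = 0 := by
    by_cases h0 : y l = 0
    · obtain ⟨x, hx⟩ := (h.restrict (S.nondeg l)).exists_orthonormal 1 (by rw [S.dim]; omega)
      exact ⟨x 0, (x 0).2, fun h0 => by simpa using (hx 0 0).symm.trans h0, by simp [h0]⟩
    · obtain ⟨z, h5, h6⟩ := (h.restrict (S.nondeg l)).exists_nonisotropic_orth'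
        (by rw [S.dim]; exact hk) (z := ⟨y l, y1 l⟩) (h4 l h0)
      exact ⟨z, z.2, h5, h.eq_zero_comm.mp h6⟩
  obtain ⟨z, hz⟩ : ∃ z, z = v - y i := ⟨_, rfl⟩
  have hzi : z ∈ perp B (D i) := hz ▸ y2 i
  have h5 : B (y i) (y i) + B z z = 0 := by
    rw [show v = y i + z by rw [hz]; abel] at hvv
    simpa [show B (y i) z = 0 from hzi _ (y1 i), h.eq_zero_comm.mp (hzi _ (y1 i))] using hvv
  have hzz : B z z ≠ 0 := fun h0 => h4 i hi (by simpa [h0] using h5)
  have hY : Disjoint (D i ⊔ F ∙ z) (perp B (D i ⊔ F ∙ z)) := Submodule.disjoint_def.mpr (by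
    intro x hx hx'
    obtain ⟨x, h6, _, h7, rfl⟩ := Submodule.mem_sup.mp hx
    obtain ⟨a, rfl⟩ := Submodule.mem_span_singleton.mp h7
    rw [perp_sup] at hx'
    have h8 : a = 0 := by
      simpa [h.eq_zero_comm.mp (hzi x h6), hzz] using mem_perp_singleton.mp hx'.2
    simpa [h8] using S.eq_zero h6 (by simpa [h8] using hx'.1))
  have hS := h.SU_le_of_transv hY hσ (fun h0 => hq ⟨h2, h0.2⟩) (K := K) fun u hu c huu hc => by
    obtain ⟨x, h6, _, h7, rfl⟩ := Submodule.mem_sup.mp hu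
    obtain ⟨a, rfl⟩ := Submodule.mem_span_singleton.mp h7
    by_cases ha : a = 0
    · exact h.transv_mem_of_SU (S.SU_le h hH i) (by simpa [ha]) c huu hc
    have ha' := (map_ne_zero σ).mpr ha
    have h8 : B (a⁻¹ • x) (a⁻¹ • x) = B (y i) (y i) := by
      simp [LinearMap.map_smulₛₗ, show B x z = 0 from hzi _ h6,
        h.eq_zero_comm.mp (hzi _ h6)] at huu ⊢
      field_simp
      linear_combination huu - a * σ a * h5
    obtain ⟨b, hb, hb', e1⟩ := h.exists_UG_vec (S.nondeg i) (y1 i) ((D i).smul_mem a⁻¹ h6) hi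
      (fun h0 => h4 i hi (by simp [← h8, h0])) h8.symm
    obtain ⟨r, r1, r2, -⟩ := S.exists_corr h hH hb
      (mem_decStab_of_forall (S.apply_mem_of_fix h hb hb')) z1 z2
    have h9 : (b * r) v = a⁻¹ • x + z := by
      rw [LinearEquiv.mul_apply, r2 v (by simpa [z3] using y2 l z' z1),
        show v = y i + z by rw [hz]; abel, map_add, e1, hb' z hzi]
    have := ht' _ r1 (c * a * σ a) ((hKU r1 v v).trans hvv) (by
      simp only [map_mul, h.invol]; linear_combination a * σ a * hc)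
    convert this using 1
    ext w
    simp only [transv_apply, h9, map_add, LinearMap.map_smulₛₗ, LinearMap.add_apply,
      LinearMap.smul_apply, smul_eq_mul, map_inv₀]
    match_scalars <;> field_simp
  obtain ⟨⟨e, hei⟩, he0, he⟩ := (h.restrict (S.nondeg i)).exists_isotropic (by rw [S.dim]; exact hk)
  exact S.SUG_le_of_mem_AE h hH hσ hK hk h3 hei (by simpa using he0) he
    (h.mem_AE_of_SU hS (Submodule.mem_sup_left hei)
      (Submodule.mem_sup_right (Submodule.mem_span_singleton_self z)) he (hzi e hei)) hzi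
    (by rintro rfl; simp at hzz)

end DecStr

theorem IsBar.decStr (hσ : IsBar q σ) {n t k : ℕ} {D : Fin t → Submodule F (Fin n → F)}
    (hD : Geo.IsNondegenerateMDecomposition (hermForm n F q) k D) :
    DecStr (stdForm σ (Fin n)) D k :=
  ⟨fun i => hσ.disjoint_of_nondeg (hD.nondegenerate i), fun i j hij v hv u hu =>
    (hσ.hermForm_eq v u).symm.trans (hD.orthogonal j i hij.symm v hv u hu),
    hD.decomp.iSup_eq_top, hD.decomp.finrank_eq⟩

theorem DecStr.finrank_eq {ι : Type*} [Fintype ι] {D : ι → Submodule F V} {k : ℕ}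
    [FiniteDimensional F V] (hi : iSupIndep D) (S : DecStr B D k) :
    finrank F V = Fintype.card ι * k := by
  classical
  rw [← (LinearEquiv.ofBijective (DirectSum.coeLinearMap D)
    (DirectSum.isInternal_submodule_of_iSupIndep_of_iSup_eq_top hi S.top)).finrank_eq,
    Module.finrank_directSum]
  simp [S.dim]

theorem IsBar.isMaximalIn_dec (hσ : IsBar q σ) {n t k : ℕ} (hn : 5 ≤ n) (hk : 2 ≤ k)
    {D : Fin t → Submodule F (Fin n → F)}
    (hD : Geo.IsNondegenerateMDecomposition (hermForm n F q) k D) (hq : ¬ (k = 2 ∧ q = 2)) :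
    Geo.IsMaximalIn (GU n F q ⊓ Geo.specialLinear (Fin n) F)
      (Geo.decompositionStabilizer D ⊓ (GU n F q ⊓ Geo.specialLinear (Fin n) F)) := by
  have := hσ.finite
  have h := hσ.isHerm (ι := Fin n)
  have S := hσ.decStr hD
  have h1 := S.finrank_eq hD.decomp.indep
  have ht := hD.decomp.two_le
  refine hσ.isMaximalIn_of (fun g _ => mem_decompositionStabilizer_iff g) ?_ fun K hH hK =>
    S.max_dec h hH hσ hK hk (by rintro rfl; simp at h1 ⊢; omega) hq
  have h2 : ∀ i, ∃ e ∈ D i, e ≠ 0 ∧ stdForm σ (Fin n) e e = 0 := fun i => by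
    obtain ⟨e, h1, h2⟩ := (h.restrict (S.nondeg i)).exists_isotropic (by rw [S.dim]; exact hk)
    exact ⟨e, e.2, by simpa using h1, h2⟩
  obtain ⟨a, a1, a2, a3⟩ := h2 ⟨0, by omega⟩
  obtain ⟨b, b1, b2, b3⟩ := h2 ⟨1, by omega⟩
  have h3 := S.orth' (by simp) a1 b1
  have h4 : ∀ j, a + b ∉ D j := fun j hm => by
    by_cases hj : j = ⟨0, by omega⟩
    · subst hj
      exact b2 (S.eq_zero ((Submodule.add_mem_iff_right _ a1).mp hm) (S.orth _ _ (by simp) b1))
    · exact a2 (S.eq_zero a1 ((Submodule.add_mem_iff_left _ (S.orth _ _ (by simp) b1)).mp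
        (S.orth _ _ (Ne.symm hj) hm)))
  exact h.not_SUG_le_decStab (by simp; omega) a1 a2 (fun h0 => h4 ⟨0, by omega⟩ (h0 ▸ zero_mem _))
    (by simp [a3, b3, h3, h.eq_zero_comm.mp h3]) h4

end Cfsg.Lib.Unitary
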