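import Cfsg.Agent.Lib.Linear.Four4
import Cfsg.Agent.Lib.Unitary.MaxDec

/-!
# Maximal subgroups of `SU₄(q)` through `Ω₆⁻(q)`
-/

set_option autoImplicit false

namespace Cfsg.Lib.Unitary

open Matrix Module QuadraticMap Cfsg.Geo Cfsg.Lib.Orth Cfsg.Lib.OMax Cfsg.Lib.Orth.Gam
open scoped MatrixGroups

variable {F : Type*} [Field F] {σ : F →+* F} {q : ℕ}

variable (F q) in
/-- `SU₄` inside `GL₄`. -/
def suι : SU 4 F q →* GL (Fin 4) F := SpecialLinearGroup.toGL.comp (SU 4 F q).subtype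

theorem suι_injective : Function.Injective (suι F q) :=
  SpecialLinearGroup.toGL_injective.comp Subtype.val_injective

theorem range_suι : (suι F q).range = GU 4 F q ⊓ specialLinear (Fin 4) F := Subgroup.ext fun g =>
  ⟨by
    rintro ⟨g, rfl⟩
    exact ⟨g.2, Linear.mem_specialLinear.2 g.1.2⟩, fun h =>
    ⟨⟨⟨g.1, Linear.mem_specialLinear.1 h.2⟩, mem_SU_iff_toGL.2 fun u v => h.1 u v⟩,
      Units.ext rfl⟩⟩

theorem IsBar.exists_cover [Fintype F] (h : IsBar q σ) {K : Type*} [Field K] [Finite K]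
    (hK : Nat.card K = q) {φ : K →+* F} (hφ : ∀ x, σ x = x ↔ x ∈ φ.range) {a b : K}
    (hab : Aniso a b) : ∃ (ψ : Gam (qPlus 3 F)) (D : FormData ψ φ (qMinus 2 K a b))
      (f : SU 4 F q →* O (qMinus 2 K a b)), (∀ x, ψ.σ x = σ x) ∧
      (∀ v, ψ.T v = (σ ∘ v) ∘ Sum.swap) ∧ f.range = commutator _ ∧
      ∀ g, D.jO (f g) = klein F g.1 := by
  have hF : Fintype.card F = q ^ 2 := Nat.card_eq_fintype_card.symm.trans h.card
  have hψ := isGF_mul (orderOf_bar h) (qPlus_comp σ 3) (o := swapO F 3)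
    (O.ext fun v => by ext (i | i) <;> rfl) (dickson_swapO 3) fun _ => rfl
  obtain ⟨D⟩ := nonempty_formData_minus (nd_qPlus _) (m := 2) (by simp) hψ.pow hφ hψ.sign hab
  obtain ⟨f, h₀⟩ := D.exists_hom (fun x => (hφ x).1) ((klein F).comp (SU 4 F q).subtype)
    fun g => eq_cj_of fun v => by
      have := congrArg (·.map σ) (h.mem_SU_iff.1 g.2)
      simp only [Matrix.map_mul, transpose_map, map_map, Function.comp_def, h.invol, map_id',
        Matrix.map_one _ (map_zero σ) (map_one σ)] at this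
      erw [mul_T, mul_T, ofO_T, ofO_T, field_T, field_T]
      refine (klM_swap (g' := SpecialLinearGroup.map σ g.1) this (σ ∘ v)).trans ?_
      exact congrArg (· ∘ Sum.swap) ((congrArg (· *ᵥ _) (klM_map σ _)).trans (map_mulVec_comp σ _ v))
  refine ⟨_, D, f, fun _ => rfl, fun _ => by erw [mul_T, ofO_T, field_T]; rfl, ((preCover_klein.comp (SU 4 F q).subtype_injective
    (z' := ⟨-1, h.mem_SU_iff.2 (by simp [Matrix.map_neg])⟩) rfl).of_comp D.jO h₀
    (fun e => by simpa only [map_ofNat, map_zero] using congrArg φ e)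
    fun x e => .inr (by rw [← h₀, e, D.jO_neg])).range_eq (nd_qMinus 2 hab)
    (not_exc_of_five_le (by simp)) (by simp)
    (mem_commutator_of_perfect f (commutator_SU hF (by omega) (by omega)))
    (Nat.eq_of_mul_eq_mul_left q.succ_pos ?_), h₀⟩
  rw [mul_left_comm, card_SU hF (by omega), card_O_qMinus 2 hab, hK]
  obtain ⟨r, rfl⟩ := Nat.exists_eq_add_of_le' (h.two_le.trans' one_le_two)
  have : (r + 1) ^ 2 - 1 = r * (r + 2) := Nat.sub_eq_of_eq_add (by ring)
  simp [guOrder, uf, Finset.prod_range_succ, Nat.even_iff, this]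
  ring

/-- Stabilisers of rational non-degenerate planes of the exterior square. -/
theorem IsBar.isMaximalIn_of_stab [Fintype F] (h : IsBar q σ) (hq : 3 ≤ q)
    {P : Submodule F (Fin 3 ⊕ Fin 3 → F)} (hP : ∀ w ∈ P, (σ ∘ w) ∘ Sum.swap ∈ P)
    (h2 : finrank F P ≤ 2) (hnd : ND ((qPlus 3 F).restrict P))
    (hex : q ≤ 3 → ∀ w ∈ P, (σ ∘ w) ∘ Sum.swap = w → qPlus 3 F w = 0 → w = 0)
    {H : Subgroup (GL (Fin 4) F)}
    (hH : ∀ g : SU 4 F q, (∀ w ∈ P, klM g.1.1 *ᵥ w ∈ P) → suι F q g ∈ H)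
    (h1 : ¬ GU 4 F q ⊓ specialLinear (Fin 4) F ≤ H) :
    IsMaximalIn (GU 4 F q ⊓ specialLinear (Fin 4) F) (H ⊓ (GU 4 F q ⊓ specialLinear (Fin 4) F)) := by
  obtain ⟨φ, hφ⟩ := h.exists_ringHom h.card_fixedField
  obtain ⟨b, hab⟩ := exists_aniso_one (fixedField σ)
  obtain ⟨ψ, D, f, a1, a2, a3, a4⟩ := h.exists_cover h.card_fixedField hφ hab
  have hQ := nd_qMinus 2 hab
  let P₀ : Submodule (fixedField σ) _ :=
    { carrier := {v | D.e (φ ∘ v) ∈ P}
      add_mem' := fun hu hv => by simpa [comp_add'] using add_mem hu hv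
      zero_mem' := by
        change D.e (φ ∘ 0) ∈ P
        simp
      smul_mem' := fun c v hv => by simpa [comp_smul'] using P.smul_mem (φ c) hv }
  have b1 : ∀ Z : Submodule F _, (∀ v ∈ P₀, D.e (φ ∘ v) ∈ Z) → P ≤ Z := fun Z hZ w hw => by
    have c1 : ∀ w ∈ P, w + (σ ∘ w) ∘ Sum.swap ∈ Z := fun w hw => by
      obtain ⟨x, hx⟩ := D.e.surjective (w + (σ ∘ w) ∘ Sum.swap)
      have c2 : ψ.T (D.e x) = D.e x := by
        rw [hx, a2]; ext i; simp [h.invol, add_comm]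
      rw [D.T_e] at c2
      choose v hv using fun i => (hφ _).1 ((a1 _).symm.trans (congrFun (D.e.injective c2) i))
      obtain rfl : φ ∘ v = x := funext hv
      exact hx ▸ hZ v (show _ ∈ P from hx ▸ add_mem hw (hP w hw))
    obtain ⟨ω, hω⟩ := h.exists_ne
    refine (Z.smul_mem_iff (sub_ne_zero.2 hω)).1 ?_
    convert sub_mem (Z.smul_mem (σ ω) (c1 w hw)) (c1 _ (P.smul_mem ω hw)) using 1
    ext i; simp; ring
  have b2 : finrank (fixedField σ) P₀ ≤ 2 := by
    letI := φ.toAlgebra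
    have c1 := ((Module.finBasis _ P₀).linearIndependent.map' P₀.subtype P₀.ker_subtype)
    have c2 := (linearIndependent_algebraMap_comp_iff (S := F)).2 c1
    have c3 := c2.map' D.e.toLinearMap D.e.ker
    have c4 := (LinearIndependent.of_comp (v := fun i => (⟨_, (Module.finBasis _ P₀ i).2⟩ : P))
      P.subtype c3).fintype_card_le_finrank
    simpa using c4.trans h2
  have b3 : ND ((qMinus 2 _ 1 b).restrict P₀) := nd_restrict_iff.2 fun v hv h0 => by
    have := nd_restrict_iff.1 hnd _ hv fun y hy => Orth.mem_perp_singleton.1 (b1 (Orth.perp _ (F ∙ _))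
      (fun u hu => Orth.mem_perp_singleton.2 (by rw [D.map_polar, h0 u hu, map_zero, mul_zero])) hy)
    ext i
    simpa using congrFun (D.e.map_eq_zero_iff.1 this) i
  have b4 := finrank_add_finrank_perp hQ P₀
  simp only [finrank_fintype_fun_eq_card, Fintype.card_sum, Fintype.card_fin] at b4
  rw [← range_suι] at h1 ⊢
  refine MaxC.isMaximalIn (fun K => max_two_four hQ (nd_restrict_perp hQ b3) (by omega)
    (by rwa [perp_perp hQ]) (by simp) (by rwa [h.card_fixedField]) ?_) _ f a3 (fun g hg => ?_) h1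
  · rintro ⟨c1, -, e, c2, c3, c4⟩
    rw [perp_perp hQ] at c2
    refine c3 (funext fun i => ?_)
    simpa using congrFun (D.e.map_eq_zero_iff.1 (hex (by rwa [h.card_fixedField] at c1) _ c2
      ((a2 _).symm.trans (D.fix e)) (by rw [D.map_Q, c4, map_zero, mul_zero]))) i
  · rw [stab_perp hQ] at hg
    refine hH g (b1 (P.comap (toLin' (klM g.1.1))) fun v hv => ?_)
    rw [Submodule.mem_comap, toLin'_apply, ← klein_apply, ← a4, D.jO_apply]
    exact apply_mem_of_mem_stab hg hv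

theorem polar_qPlus_three (u v : Fin 3 ⊕ Fin 3 → F) :
    polar (qPlus 3 F) u v = u ⬝ᵥ (v ∘ Sum.swap) := by
  simp [polar_qPlus, dotProduct, Finset.sum_add_distrib]

theorem polar_klM (g : Matrix (Fin 4) (Fin 4) F) (u v : Fin 3 ⊕ Fin 3 → F) :
    polar (qPlus 3 F) (klM g *ᵥ u) (klM g *ᵥ v) = g.det * polar (qPlus 3 F) u v := by
  simp only [polar, ← mulVec_add, qPlus_klM]; ring

theorem polar_bar_wedge (x y u v : Fin 4 → F) :
    polar (qPlus 3 F) ((σ ∘ wedge x y) ∘ Sum.swap) (wedge u v) =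
      stdForm σ _ x u * stdForm σ _ y v - stdForm σ _ x v * stdForm σ _ y u := by
  rw [polar_comm, polar_qPlus_three, dotProduct_comm, stdForm_eq_dotProduct, stdForm_eq_dotProduct,
    stdForm_eq_dotProduct, stdForm_eq_dotProduct, ← wedge_dotProduct]
  congr 1
  ext I
  simp [wedge_apply]

theorem mem_span_of_wedge (h : IsBar q σ) {x y u v : Fin 4 → F} {c : F}
    (e : wedge x y = c • wedge u v) (h0 : wedge x y ≠ 0) :
    x ∈ Submodule.span F {u, v} ∧ y ∈ Submodule.span F {u, v} := by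
  have key : ∀ z ∈ perp (stdForm σ (Fin 4)) (Submodule.span F {u, v}),
      stdForm σ _ z x = 0 ∧ stdForm σ _ z y = 0 := fun z hz => by
    have a1 := h.isHerm.eq_zero_comm.1 (mem_perp_span.1 hz u (by simp))
    have a2 := h.isHerm.eq_zero_comm.1 (mem_perp_span.1 hz v (by simp))
    simp only [stdForm_eq_dotProduct] at a1 a2 ⊢
    have a3 : ∀ j, (σ ∘ z ⬝ᵥ x) * y j = (σ ∘ z ⬝ᵥ y) * x j := fun j => by
      have := wedge_dotProduct (σ ∘ z) (Pi.single j 1) x y
      rw [e, dotProduct_smul, wedge_dotProduct, a1, a2] at this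
      simp only [single_dotProduct, smul_eq_mul] at this
      linear_combination -this
    constructor <;> refine (smul_eq_zero.1 (funext fun I => ?_)).resolve_right h0 <;>
      simp only [Pi.smul_apply, wedge_apply, smul_eq_mul, Pi.zero_apply]
    · linear_combination x (pl1 I) * a3 (pl2 I) - x (pl2 I) * a3 (pl1 I)
    · linear_combination y (pl1 I) * a3 (pl2 I) - y (pl2 I) * a3 (pl1 I)
  rw [← h.isHerm.perp_perp (Submodule.span F {u, v})]
  exact ⟨fun z hz => (key z hz).1, fun z hz => (key z hz).2⟩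

theorem wedge_comm (x y : Fin 4 → F) : wedge x y = -wedge y x := by
  ext I; simp only [wedge_apply, Pi.neg_apply]; ring

theorem exists_wedge_frame {x0 x1 x2 x3 : Fin 4 → F}
    (h : Submodule.span F {x0, x1} ⊔ Submodule.span F {x2, x3} = ⊤) :
    qPlus 3 F (wedge x0 x1) = 0 ∧ qPlus 3 F (wedge x2 x3) = 0 ∧
      polar (qPlus 3 F) (wedge x0 x1) (wedge x2 x3) ≠ 0 ∧
      ∀ w, (∀ u ∈ Submodule.span F {x0, x1}, ∀ v ∈ Submodule.span F {x2, x3},
        polar (qPlus 3 F) w (wedge u v) = 0) → w ∈ Submodule.span F {wedge x0 x1, wedge x2 x3} := by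
  let x : Fin 4 → Fin 4 → F := ![x0, x1, x2, x3]
  let G : Matrix (Fin 4) (Fin 4) F := (of x)ᵀ
  have a1 : G.det ≠ 0 := by
    rw [det_transpose, ← isUnit_iff_ne_zero, ← isUnit_iff_isUnit_det,
      ← linearIndependent_rows_iff_isUnit]
    refine linearIndependent_of_top_le_span_of_card_eq_finrank ?_ (by simp)
    rw [← h, ← Submodule.span_union]
    refine Submodule.span_mono ?_
    rintro _ ((rfl | rfl) | rfl | rfl)
    exacts [⟨0, rfl⟩, ⟨1, rfl⟩, ⟨2, rfl⟩, ⟨3, rfl⟩]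
  have a2 : ∀ I, klM G *ᵥ Pi.single I 1 = wedge (x (pl1 I)) (x (pl2 I)) := fun I => by
    rw [mulVec_single_one, klM_transpose]; rfl
  have a3 : ∀ w I, polar (qPlus 3 F) (klM G *ᵥ w) (wedge (x (pl1 I)) (x (pl2 I))) =
      G.det * w I.swap := fun w I => by
    rw [← a2, polar_klM, polar_comm, polar_qPlus_three]; simp
  have b1 : klM G *ᵥ Pi.single (.inl 0) 1 = wedge x0 x1 := a2 _
  have b2 : klM G *ᵥ Pi.single (.inr 0) 1 = wedge x2 x3 := a2 _
  refine ⟨by rw [← b1, qPlus_klM]; simp [qPlus_apply], by rw [← b2, qPlus_klM]; simp [qPlus_apply],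
    by rw [← b1]; exact (a3 _ (.inr 0)).trans_ne (by simpa), fun w hw => ?_⟩
  obtain ⟨w, rfl⟩ : ∃ w', w = klM G *ᵥ w' := ⟨klM G⁻¹ *ᵥ w, by
    rw [mulVec_mulVec, ← map_mul, mul_nonsing_inv _ (Ne.isUnit a1), map_one, one_mulVec]⟩
  refine Submodule.mem_span_pair.2 ⟨w (.inl 0), w (.inr 0), ?_⟩
  rw [← b1, ← b2, ← mulVec_smul, ← mulVec_smul, ← mulVec_add]
  have m : ∀ a b : Fin 4 → F, a ∈ Submodule.span F {a, b} ∧ b ∈ Submodule.span F {a, b} :=
    fun a b => ⟨Submodule.subset_span (by simp), Submodule.subset_span (by simp)⟩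
  have c1 := (a3 w (.inl 1)).symm.trans (hw _ (m _ _).1 _ (m _ _).1)
  have c2 := (a3 w (.inl 2)).symm.trans (hw _ (m _ _).1 _ (m _ _).2)
  have c3 := (a3 w (.inr 1)).symm.trans (show polar _ _ (wedge x3 x1) = 0 by
    rw [wedge_comm x3, polar_neg_right, hw _ (m _ _).2 _ (m _ _).2, neg_zero])
  have c4 := (a3 w (.inr 2)).symm.trans (hw _ (m _ _).2 _ (m _ _).1)
  simp only [mul_eq_zero, a1, false_or, Sum.swap_inl, Sum.swap_inr] at c1 c2 c3 c4
  congr 1
  ext (i | i) <;> fin_cases i <;> simp [c1, c2, c3, c4]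

theorem IsBar.isMaximalIn_two [Fintype F] (h : IsBar q σ) (hq : 3 ≤ q)
    {D : Fin 2 → Submodule F (Fin 4 → F)} (hD : IsMDecomposition 2 D)
    (hor : D 1 ≤ perp (stdForm σ _) (D 0) ∨ 4 ≤ q ∧ ∀ i, D i ≤ perp (stdForm σ _) (D i))
    {a b : Fin 4 → F} (ha : a ∈ D 0) (hb : b ∈ D 1) (ha0 : a ≠ 0) (hb0 : b ≠ 0)
    (haa : stdForm σ _ a a = 0) (hbb : stdForm σ _ b b = 0) (hab : stdForm σ _ a b = 0) :
    IsMaximalIn (GU 4 F q ⊓ specialLinear (Fin 4) F)
      (decompositionStabilizer D ⊓ (GU 4 F q ⊓ specialLinear (Fin 4) F)) := by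
  have hB := h.isHerm (ι := Fin 4)
  have hc : IsCompl (D 0) (D 1) := ⟨hD.indep.pairwiseDisjoint (by decide), codisjoint_iff_le_sup.mpr (by
    rw [← hD.iSup_eq_top]
    exact iSup_le (Fin.forall_fin_two.mpr ⟨le_sup_left, le_sup_right⟩))⟩
  have a0 : ∀ i, ∃ u v, D i = Submodule.span F {u, v} := fun i => by
    let e := Module.finBasisOfFinrankEq F (D i) (hD.finrank_eq i)
    refine ⟨e 0, e 1, ?_⟩
    have := congrArg (Submodule.map (D i).subtype) e.span_eq
    rw [Submodule.map_span, Submodule.map_subtype_top, ← Set.range_comp] at this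
    refine this.symm.trans ?_
    congr 1; ext; simp [eq_comm]
  obtain ⟨x0, x1, e0⟩ := a0 0
  obtain ⟨x2, x3, e1⟩ := a0 1
  obtain ⟨b3, b4, b5, b7⟩ := exists_wedge_frame (e0 ▸ e1 ▸ hc.sup_eq_top)
  rw [← e0, ← e1] at b7
  have m0 : x0 ∈ D 0 := e0 ▸ Submodule.subset_span (by simp)
  have m1 : x1 ∈ D 0 := e0 ▸ Submodule.subset_span (by simp)
  have m2 : x2 ∈ D 1 := e1 ▸ Submodule.subset_span (by simp)
  have m3 : x3 ∈ D 1 := e1 ▸ Submodule.subset_span (by simp)
  have b8 : ∀ u v : Fin 4 → F, (u ∈ D 0 ∧ v ∈ D 0 ∨ u ∈ D 1 ∧ v ∈ D 1) →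
      (σ ∘ wedge u v) ∘ Sum.swap ∈ Submodule.span F {wedge x0 x1, wedge x2 x3} :=
    fun u v huv => b7 _ fun u' h1 v' h2 => by
    rw [polar_bar_wedge]
    rcases hor with h3 | ⟨-, h3⟩ <;> rcases huv with ⟨h4, h5⟩ | ⟨h4, h5⟩
    · simp [mem_perp.1 (h3 h2) _ h4, mem_perp.1 (h3 h2) _ h5]
    · simp [hB.eq_zero_comm.1 (mem_perp.1 (h3 h4) _ h1), hB.eq_zero_comm.1 (mem_perp.1 (h3 h5) _ h1)]
    · simp [mem_perp.1 (h3 0 h1) _ h4, mem_perp.1 (h3 0 h1) _ h5]
    · simp [mem_perp.1 (h3 1 h2) _ h4, mem_perp.1 (h3 1 h2) _ h5]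
  have b9 : ∀ (s t : F) (u v : Fin 3 ⊕ Fin 3 → F), (σ ∘ (s • u + t • v)) ∘ Sum.swap =
      σ s • (σ ∘ u) ∘ Sum.swap + σ t • (σ ∘ v) ∘ Sum.swap := fun s t u v => by ext; simp
  have b6 : ∀ s t : F, qPlus 3 F (s • wedge x0 x1 + t • wedge x2 x3) = 0 → s = 0 ∨ t = 0 :=
    fun s t h0 => by simpa [Q_add, Q_smul, b3, b4, b5, or_comm] using h0
  have b3' := polar_self (qPlus 3 F) (wedge x0 x1)
  have b4' := polar_self (qPlus 3 F) (wedge x2 x3)
  have b5' := polar_comm (qPlus 3 F) (wedge x2 x3) (wedge x0 x1)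
  rw [b3, smul_zero] at b3'
  rw [b4, smul_zero] at b4'
  refine h.isMaximalIn_of_stab hq (P := Submodule.span F {wedge x0 x1, wedge x2 x3})
    (fun w hw => ?_) (finrank_span_pair_le _ _) (nd_restrict_iff.2 fun w hw h0 => ?_)
    (fun h3 w hw h1 h2 => ?_) (fun g hg => ?_) fun hle => ?_
  · obtain ⟨s, t, rfl⟩ := Submodule.mem_span_pair.1 hw
    rw [b9]
    exact add_mem (Submodule.smul_mem _ _ (b8 _ _ (.inl ⟨m0, m1⟩)))
      (Submodule.smul_mem _ _ (b8 _ _ (.inr ⟨m2, m3⟩)))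
  · obtain ⟨s, t, rfl⟩ := Submodule.mem_span_pair.1 hw
    have c1 := h0 (wedge x0 x1) (Submodule.subset_span (by simp))
    have c2 := h0 (wedge x2 x3) (Submodule.subset_span (by simp))
    simp [b3', b4', b5', b5] at c1 c2
    simp [c1, c2]
  · obtain ⟨s, t, rfl⟩ := Submodule.mem_span_pair.1 hw
    have h4 := hor.resolve_right (by omega)
    have c1 := congrArg (polar (qPlus 3 F) · (wedge x0 x1)) h1
    have c2 := congrArg (polar (qPlus 3 F) · (wedge x2 x3)) h1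
    have d := fun u hu v hv => mem_perp.1 (h4 (x := v) hv) u hu
    have d' := fun u hu v hv => hB.eq_zero_comm.1 (d u hu v hv)
    simp only [b9, polar_add_left, polar_smul_left, polar_bar_wedge, d _ m0 _ m2, d _ m0 _ m3,
      d' _ m0 _ m2, d' _ m1 _ m2, b3', b4', b5'] at c1 c2
    rcases b6 s t h2 with rfl | rfl
    · simp [b5] at c1; simp [c1]
    · simp [b5] at c2; simp [c2]
  · have key : ∀ u v, wedge u v ∈ Submodule.span F {wedge x0 x1, wedge x2 x3} →
        qPlus 3 F (wedge u v) = 0 → wedge u v ≠ 0 → (∀ w ∈ Submodule.span F {u, v},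
          (suι F q g).1 *ᵥ w ∈ D 0) ∨ ∀ w ∈ Submodule.span F {u, v}, (suι F q g).1 *ᵥ w ∈ D 1 := by
      intro u v h1 h2 h3
      obtain ⟨s, t, e⟩ := Submodule.mem_span_pair.1 (hg _ h1)
      have h4 : klM g.1.1 *ᵥ wedge u v ≠ 0 := fun h0 => h3 ((klein F g.1).1.map_eq_zero_iff.1 h0)
      have h5 : ∀ i, g.1.1 *ᵥ u ∈ D i ∧ g.1.1 *ᵥ v ∈ D i →
          ∀ w ∈ Submodule.span F {u, v}, (suι F q g).1 *ᵥ w ∈ D i := fun i hi w hw => by
        obtain ⟨s, t, rfl⟩ := Submodule.mem_span_pair.1 hw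
        rw [mulVec_add, mulVec_smul, mulVec_smul]
        exact add_mem (Submodule.smul_mem _ _ hi.1) (Submodule.smul_mem _ _ hi.2)
      rw [klM_mulVec] at h4
      rcases b6 s t (by rw [e, qPlus_klM, h2, mul_zero]) with rfl | rfl
      · exact .inr (h5 1 (e1 ▸ mem_span_of_wedge h (c := t) (by simpa [klM_mulVec] using e.symm) h4))
      · exact .inl (h5 0 (e0 ▸ mem_span_of_wedge h (c := s) (by simpa [klM_mulVec] using e.symm) h4))
    have k0 := key x0 x1 (Submodule.subset_span (by simp)) b3 (by rintro h0; simp [h0] at b5)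
    have k1 := key x2 x3 (Submodule.subset_span (by simp)) b4 (by rintro h0; simp [h0] at b5)
    rw [← e0] at k0
    rw [← e1] at k1
    rw [mem_decompositionStabilizer_iff]
    have h2 := hD.finrank_eq
    simp only [← glEquiv_apply] at k0 k1
    generalize glEquiv _ F (suι F q g) = g at k0 k1
    have key : ∀ i, ¬ ((∀ a ∈ D 0, g a ∈ D i) ∧ ∀ a ∈ D 1, g a ∈ D i) := fun i ⟨h3, h4⟩ => by
      have := Submodule.finrank_mono (Submodule.map_le_iff_le_comap.mpr
        (sup_le h3 h4 : D 0 ⊔ D 1 ≤ (D i).comap g.toLinearMap))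
      rw [LinearEquiv.finrank_map_eq, hc.sup_eq_top, finrank_top, h2] at this
      simp at this
    rcases k0 with h3 | h3 <;> rcases k1 with h4 | h4
    · exact absurd ⟨h3, h4⟩ (key 0)
    · exact mem_decStab_of_forall (Fin.forall_fin_two.mpr ⟨h3, h4⟩)
    · exact mem_decStab_of_perm h2 (Equiv.swap 0 1) (Fin.forall_fin_two.mpr ⟨h3, h4⟩)
    · exact absurd ⟨h3, h4⟩ (key 1)
  · have h6 : a + b ∉ D 0 := fun hm => hb0 (hc.disjoint.le_bot
      ⟨(Submodule.add_mem_iff_right _ ha).mp hm, hb⟩)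
    refine hB.not_SUG_le_decStab (by simp) ha ha0 (v := a + b) (fun h0 => h6 (h0 ▸ zero_mem _))
      (by simp [haa, hbb, hab, hB.eq_zero_comm.mp hab]) (Fin.forall_fin_two.mpr ⟨h6, fun hm =>
        ha0 (hc.disjoint.le_bot ⟨ha, (Submodule.add_mem_iff_left _ hb).mp hm⟩)⟩) fun g hg => ?_
    convert (mem_decompositionStabilizer_iff _).1
      (hle (range_suι.le ⟨(h.suEquiv 4).symm ⟨g, hg⟩, rfl⟩))
    exact LinearEquiv.ext fun v => (h.suEquiv_symm_mulVec ⟨g, hg⟩ v).symm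

theorem IsBar.isMaximalIn_planes_four [Fintype F] (h : IsBar q σ) (hq : 3 ≤ q)
    {D : Fin 2 → Submodule F (Fin 4 → F)} (hD : IsNondegenerateMDecomposition (hermForm 4 F q) 2 D) :
    IsMaximalIn (GU 4 F q ⊓ specialLinear (Fin 4) F)
      (decompositionStabilizer D ⊓ (GU 4 F q ⊓ specialLinear (Fin 4) F)) := by
  have S := h.decStr hD
  have h2 : ∀ i, ∃ e ∈ D i, e ≠ 0 ∧ stdForm σ (Fin 4) e e = 0 := fun i => by
    obtain ⟨e, h1, h2⟩ := (h.isHerm.restrict (S.nondeg i)).exists_isotropic (by rw [S.dim])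
    exact ⟨e, e.2, by simpa using h1, h2⟩
  obtain ⟨a, a1, a2, a3⟩ := h2 0
  obtain ⟨b, b1, b2, b3⟩ := h2 1
  exact h.isMaximalIn_two hq hD.decomp (.inl (S.orth 0 1 (by simp))) a1 b1 a2 b2 a3 b3
    (S.orth' (by simp) a1 b1)

theorem IsBar.isMaximalIn_pair_four [Fintype F] (h : IsBar q σ) (hq : 4 ≤ q)
    {D : Fin 2 → Submodule F (Fin 4 → F)} (hD : IsMDecomposition 2 D)
    (hts : ∀ i, IsTotallySingularFor (hermForm 4 F q) (D i)) :
    IsMaximalIn (GU 4 F q ⊓ specialLinear (Fin 4) F)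
      (decompositionStabilizer D ⊓ (GU 4 F q ⊓ specialLinear (Fin 4) F)) := by
  have h1 := fun i => h.le_perp_of_singular (hts i)
  have h2 := hD.finrank_eq
  obtain ⟨a, ha, ha0⟩ := exists_notMem_of_lt (W := D 0) (Z := ⊥) (by simp [h2])
  have h3 := finrank_le_finrank_inf_perp h.isHerm (D 1) (F ∙ a)
  have h4 := finrank_span_singleton_le (F := F) a
  obtain ⟨b, hb, hb0⟩ := exists_notMem_of_lt (W := D 1 ⊓ perp (stdForm σ (Fin 4)) (F ∙ a))
    (Z := ⊥) (by rw [h2] at h3; simp only [finrank_bot]; omega)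
  exact h.isMaximalIn_two (by omega) hD (.inr ⟨hq, h1⟩) ha hb.1 ha0 hb0 (h1 0 ha a ha)
    (h1 1 hb.1 b hb.1) (mem_perp_singleton.mp hb.2)

/-- Normalisers of symplectic-type `2`-groups in a double cover of `Ω_n(p)`. -/
theorem isMaximalIn_c6' {K V ι G₀ : Type*} [Field K] [AddCommGroup V] [Module K V]
    [FiniteDimensional K V] {Q : QuadraticForm K V} [Fintype ι] [DecidableEq ι] [Group G₀]
    [Finite K] (hQ : ND Q) (hp : PrimeF K) (hK : (2 : K) ≠ 0) {n : ℕ} (hn : finrank K V = n)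
    (h4 : 4 ≤ n)
    (hmax : ∀ (Q' : QuadraticForm K V) (e : Fin n → V), Fr Q' e → MaxC (mon Q' e))
    (j : G₀ →* GL ι F) (hj : Function.Injective j) (φ : G₀ →* O Q)
    (hφ : φ.range = commutator (O Q)) (hk : ∀ g, φ g = 1 ↔ j g = 1 ∨ j g = -1)
    {R : Subgroup (GL ι F)} (h : C6.St R) (hR : R ≤ j.range) (h1 : -1 ∈ R)
    (hc : Nat.card R = 2 ^ n) :
    IsMaximalIn j.range (Subgroup.normalizer (R : Set (GL ι F)) ⊓ j.range) := by
  obtain ⟨z, hz⟩ := hR h1
  have h2 : Nat.card (φ.ker.subgroupOf (R.comap j)) = 2 := by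
    refine (Nat.card_eq_two_iff' 1).2 ⟨⟨⟨z, show j z ∈ R from hz ▸ h1⟩, (hk z).2 (.inr hz)⟩,
      fun h0 => ?_, fun y hy => Subtype.ext (Subtype.ext (hj ?_))⟩
    · have : z = 1 := congrArg (fun x => x.1.1) h0
      rw [this, map_one] at hz
      exact h.ne_neg 1 (congrArg Units.val hz)
    · rw [hz]
      exact ((hk _).1 y.2).resolve_left fun h0 =>
        hy (Subtype.ext (Subtype.ext (hj (h0.trans (map_one j).symm))))
  have h3 := (φ.ker.subgroupOf (R.comap j)).card_mul_index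
  rw [h2, ← Subgroup.relIndex, Subgroup.relIndex_ker,
    ← Subgroup.card_map_of_injective (K := R.comap j) hj, Subgroup.map_comap_eq_self hR, hc] at h3
  obtain ⟨a1, a2⟩ := maxC_normalizer (E := (R.comap j).map φ) hQ hK hp hn h4 (by
    rintro _ ⟨g, hg, rfl⟩
    rw [← map_mul, hk, map_mul]
    exact (h.sq _ hg).imp Units.ext Units.ext) (by
    rintro _ ⟨g, -, rfl⟩; exact hφ.le ⟨g, rfl⟩) (by
    obtain ⟨m, rfl⟩ : ∃ m, n = m + 1 := ⟨n - 1, by omega⟩
    rw [pow_succ'] at h3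
    simpa using h3) hmax
  exact a1.isMaximalIn_normalizer j φ hφ hR hj
    (fun g hg => by rcases (hk g).1 hg with h | h <;> simp [h, h1]) a2

theorem IsBar.isMaximalIn_c6_four [Fintype F] (h : IsBar q σ) (hp : q.Prime) (hq : Odd q)
    {R : Subgroup (GL (Fin 4) F)} (hs : IsSymplecticTypeGroup 2 R)
    (hi : ActsAbsolutelyIrreducibly (matrixSet R)) (hR : R ≤ GU 4 F q) (hc : Nat.card R = 64)
    (hZ : Nat.card (Subgroup.center R) = 4) :
    IsMaximalIn (GU 4 F q ⊓ specialLinear (Fin 4) F)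
      (subgroupNormalizer R ⊓ (GU 4 F q ⊓ specialLinear (Fin 4) F)) := by
  obtain ⟨φ, hφ⟩ := h.exists_ringHom h.card_fixedField
  obtain ⟨b, hab⟩ := exists_aniso_one (fixedField σ)
  obtain ⟨ψ, D, f, -, -, a3, a4⟩ := h.exists_cover h.card_fixedField hφ hab
  have h2 : (2 : F) ≠ 0 := fun h0 => by
    obtain ⟨k, rfl⟩ := hq
    simpa [h0] using h.cast_q
  have S := C6.St.of h2 (by simp) hs hi
  obtain ⟨a, b, c, d, H⟩ := S.exists_b4 (by omega)
  have h1 := le_inf hR (S.le_sl (by omega))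
  have := Fintype.ofFinite (fixedField σ)
  rw [← range_suι] at h1 ⊢
  exact isMaximalIn_c6' (nd_qMinus 2 hab)
    (primeF_of_card (by rwa [← Nat.card_eq_fintype_card, h.card_fixedField]))
    (fun e => h2 (by simpa only [map_ofNat, map_zero] using congrArg φ e)) (n := 6) (by simp)
    (by omega) (fun Q' e S => S.max_six (by simp)) _ suι_injective f a3
    (fun g => by rw [← D.jO_injective.eq_iff, a4, map_one]; exact C6.klein_eq_one) S h1
    (S.neg_one_mem H) hc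

end Cfsg.Lib.Unitary
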