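import Cfsg.Agent.Lib.Unitary.MaxFrameB

/-!
# The stabiliser of an orthonormal frame is maximal in `SU_n(q)`, `n ≥ 10`
-/

set_option autoImplicit false

namespace Cfsg.Lib.Unitary

open Module Finset

theorem exists_fixed_in_orbit' {G X : Type*} [Group G] [MulAction G X] [Finite G] {p m : ℕ}
    [Fact p.Prime] {s t : G} (hs : s ^ p ^ m = 1) (ht : t ^ p ^ m = 1) {x : X} (hx : s • x = x)
    (hs' : ∀ g : G, s • g • x = g • x → g • x = x) : ∃ g : G, t • g • x = g • x := by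
  have hP : ∀ {u : G}, u ^ p ^ m = 1 → IsPGroup p (Subgroup.zpowers u) := fun {u} hu => by
    rintro ⟨_, k, rfl⟩
    exact ⟨m, Subtype.ext (by
      simp only [SubgroupClass.coe_pow, OneMemClass.coe_one]
      rw [← zpow_natCast, ← zpow_mul, mul_comm, zpow_mul, zpow_natCast, hu, one_zpow])⟩
  have hfix : ∀ (u : G) (y : MulAction.orbit G x),
      y ∈ MulAction.fixedPoints (Subgroup.zpowers u) (MulAction.orbit G x) ↔ u • y.1 = y.1 := by
    intro u y
    constructor
    · exact fun h => congrArg Subtype.val (h ⟨u, Subgroup.mem_zpowers u⟩)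
    · rintro h ⟨g, hg⟩
      have : Subgroup.zpowers u ≤ MulAction.stabilizer G y.1 := by
        rw [Subgroup.zpowers_le]; exact h
      exact Subtype.ext (this hg)
  have : Finite (MulAction.orbit G x) := Set.finite_range _
  have h1 := (hP hs).card_modEq_card_fixedPoints (MulAction.orbit G x)
  have h2 : Nat.card (MulAction.fixedPoints (Subgroup.zpowers s) (MulAction.orbit G x)) = 1 := by
    rw [Nat.card_eq_one_iff_exists]
    refine ⟨⟨⟨x, MulAction.mem_orbit_self x⟩, (hfix _ _).mpr hx⟩, ?_⟩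
    rintro ⟨⟨_, g, rfl⟩, hg⟩
    exact Subtype.ext (Subtype.ext (hs' g ((hfix _ _).mp hg)))
  obtain ⟨⟨_, g, rfl⟩, hg⟩ := (hP ht).nonempty_fixed_point_of_prime_not_dvd_card
    (MulAction.orbit G x) (fun hd => by
      rw [h2] at h1
      exact (Fact.out : p.Prime).one_lt.ne' (Nat.dvd_one.mp ((h1.dvd_iff dvd_rfl).mp hd)))
  exact ⟨g, (hfix _ _).mp hg⟩

/-- The swap trick: if `s` fixes only the trivial coset of `M` in its `H`-orbit, every `p`-element
of `H` is `H`-conjugate into `M`. -/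
theorem exists_conj_mem {G : Type*} [Group G] [Finite G] {H M : Subgroup G} {p m : ℕ}
    (hp : p.Prime) {s t : G} (hs : s ∈ H) (ht : t ∈ H) (hs1 : s ^ p ^ m = 1) (ht1 : t ^ p ^ m = 1)
    (hsM : s ∈ M) (hs' : ∀ y ∈ H, y * s * y⁻¹ ∈ M → y ∈ M) : ∃ y ∈ H, y * t * y⁻¹ ∈ M := by
  have := Fact.mk hp
  have hM : ∀ x y : H, x • y • ((1 : G) : G ⧸ M) = y • ((1 : G) : G ⧸ M) ↔
      y.1⁻¹ * x.1 * y.1⁻¹⁻¹ ∈ M := fun x y => by
    change ((x.1 * (y.1 * 1) : G) : G ⧸ M) = ((y.1 * 1 : G) : G ⧸ M) ↔ _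
    rw [eq_comm, QuotientGroup.eq, inv_inv, mul_one, mul_assoc]
  obtain ⟨y, hy⟩ := exists_fixed_in_orbit' (G := H) (p := p) (m := m) (s := ⟨s, hs⟩) (t := ⟨t, ht⟩)
    (Subtype.ext hs1) (Subtype.ext ht1) (x := ((1 : G) : G ⧸ M))
    (by simpa using (hM ⟨s, hs⟩ 1).mpr (by simpa using hsM)) fun y hy => by
      simpa using (hM y 1).mpr (by simpa using hs' _ (inv_mem y.2) ((hM _ _).mp hy))
  exact ⟨_, inv_mem y.2, (hM _ _).mp hy⟩

variable {F V : Type*} [Field F] [AddCommGroup V] [Module F V] {σ : F →+* F}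
  {B : V →ₛₗ[σ] V →ₗ[F] F} {q : ℕ}

theorem IsBar.exists_norm_one_prime_pow (hσ : IsBar q σ) :
    ∃ (l : F) (p m : ℕ), p.Prime ∧ l * σ l = 1 ∧ σ l ≠ l ∧ l ^ p ^ m = 1 := by
  obtain ⟨ζ, hζ⟩ := hσ.exists_primitive_norm_one
  have key : ∀ d, d ∣ q + 1 → 2 < d → ∃ l : F, l * σ l = 1 ∧ σ l ≠ l ∧ l ^ d = 1 := by
    rintro d ⟨k, hk⟩ hd
    have h1 := hζ.pow (by omega) (hk.trans (mul_comm _ _))
    have h2 : ζ ^ k * σ (ζ ^ k) = 1 := by
      rw [hσ.norm_eq, ← pow_mul, mul_comm, pow_mul, hζ.pow_eq_one, one_pow]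
    refine ⟨_, h2, fun h0 => ?_, h1.pow_eq_one⟩
    rw [h0, ← sq] at h2
    exact absurd (Nat.le_of_dvd two_pos (h1.dvd_of_pow_eq_one 2 h2)) (by omega)
  have := hσ.two_le
  rcases Nat.four_dvd_or_exists_odd_prime_and_dvd_of_two_lt (show 2 < q + 1 by omega) with
    h | ⟨p, hp, h, hp'⟩
  · obtain ⟨l, h1⟩ := key 4 h (by omega)
    exact ⟨l, 2, 2, Nat.prime_two, h1⟩
  · obtain ⟨l, h1⟩ := key p h (lt_of_le_of_ne hp.two_le (by rintro rfl; exact absurd hp' (by decide)))
    exact ⟨l, p, 1, hp, by simpa using h1⟩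

theorem IsBi.pow (h : IsHerm σ B) {a b : V} {l : F} {x : V ≃ₗ[F] V} (hx : IsBi B a b l x)
    (ha : B a a = 1) (hb : B b b = 1) (hab : B a b = 0) (k : ℕ) : IsBi B a b (l ^ k) (x ^ k) := by
  induction k with
  | zero => intro v; simp
  | succ k ih =>
    intro v
    rw [pow_succ x, LinearEquiv.mul_apply, ih, hx]
    simp only [map_add, map_smul, ha, hb, hab, h.eq_zero_comm.mp hab, smul_eq_mul, pow_succ, map_mul]
    (module)

theorem IsBi.pow_eq_one (h : IsHerm σ B) {a b : V} {l : F} {x : V ≃ₗ[F] V} (hx : IsBi B a b l x)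
    (ha : B a a = 1) (hb : B b b = 1) (hab : B a b = 0) {k : ℕ} (hl : l ^ k = 1) : x ^ k = 1 :=
  LinearEquiv.ext fun v => by simpa [hl] using hx.pow h ha hb hab k v

variable {ι : Type*} [Fintype ι] [DecidableEq ι]

theorem supp_add (e : ι → V) (u v : V) : supp B e (u + v) ⊆ supp B e u ∪ supp B e v := by
  intro i
  simp only [mem_supp, map_add, mem_union]
  by_cases h : B (e i) u = 0 <;> simp [h]

omit [DecidableEq ι] in
theorem supp_smul (e : ι → V) (c : F) (v : V) : supp B e (c • v) ⊆ supp B e v := by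
  intro i
  simp

namespace FrameStr

variable {e : ι → V} {K : Subgroup (V ≃ₗ[F] V)} (S : FrameStr B e K) [FiniteDimensional F V]
  (hσ : IsBar q σ) (hn : 10 ≤ Fintype.card ι)
  (hB : ∀ g ∈ K, ∀ i, g (e i) ∈ F ∙ e i → g ∈ decStab fun i => F ∙ e i)
include S hσ hB

theorem mem_of_apply {g : V ≃ₗ[F] V} (hg : g ∈ K) {i j : ι} (h : g (e i) ∈ F ∙ e j) :
    g ∈ decStab fun i => F ∙ e i := by
  have := hσ.finite
  obtain ⟨m, hm, m1, -⟩ := S.exists_perm (Equiv.swap j i) i
  obtain ⟨c, hc⟩ := Submodule.mem_span_singleton.mp h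
  exact ((decStab _).mul_mem_cancel_left (S.mem_mono (S.leU hm) fun k => ⟨_, m1 k⟩)).mp
    (hB _ (mul_mem hm hg) i (by
      rw [LinearEquiv.mul_apply, ← hc, map_smul]
      exact Submodule.smul_mem _ _ (by simpa using m1 j)))

theorem supp_of_zero {g : V ≃ₗ[F] V} (hg : g ∈ K) (hg' : g ∉ decStab fun i => F ∙ e i) {j k l : ι}
    (hkl : k ≠ l) (hk : B (e k) (g⁻¹ (e j)) = 0) (hl : B (e l) (g⁻¹ (e j)) = 0) :
    (supp B e (g (e k))).card ≤ 3 ∧ supp B e (g (e k)) ⊆ supp B e (g (e l)) := by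
  obtain ⟨μ, h1, h2⟩ := hσ.exists_norm_one_sq_ne
  obtain ⟨s, hs, e1⟩ := S.exists_diag_two hkl h1
  have e2 := e1.conj (S.leU hg)
  have h3 := hB _ (mul_mem (mul_mem hg hs) (inv_mem hg)) j (by
    rw [e2, UG_apply_left (S.leU hg), UG_apply_left (S.leU hg)]
    simp [← LinearEquiv.coe_inv, hk, hl])
  exact ⟨S.card_supp_of_isBi e2 h2 h1 h3, S.supp_subset_of_isBi e2 h2 h3 fun i hi =>
    hg' (S.mem_of_apply hσ hB hg hi)⟩

include hn

/-- Every column of a non-monomial element has at most one zero. -/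
theorem card_supp {g : V ≃ₗ[F] V} (hg : g ∈ K) (hg' : g ∉ decStab fun i => F ∙ e i) (j : ι) :
    Fintype.card ι ≤ (supp B e (g (e j))).card + 1 := by
  by_contra hlt
  obtain ⟨k, hk, l, hl, hkl⟩ := one_lt_card.mp (show 1 < (supp B e (g (e j)))ᶜ.card by
    rw [card_compl]; omega)
  simp only [mem_compl, mem_supp, not_not] at hk hl
  have h1 := (S.supp_of_zero hσ hB (inv_mem hg) (by simpa using hg') hkl (j := j)
    (by simpa using hk) (by simpa using hl)).1
  let Z := (supp B e (g⁻¹ (e k)))ᶜ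
  have hZ : 4 ≤ Z.card := by rw [card_compl]; omega
  have h2 : ∀ a ∈ Z, ∀ b ∈ Z, a ≠ b → (supp B e (g (e a))).card ≤ 3 ∧
      supp B e (g (e a)) ⊆ supp B e (g (e b)) := fun a ha b hb hab =>
    S.supp_of_zero hσ hB hg hg' hab (j := k) (by simpa [Z] using ha) (by simpa [Z] using hb)
  obtain ⟨a, ha, b, hb, hab⟩ := one_lt_card.mp (show 1 < Z.card by omega)
  have h3 : (Submodule.span F (e '' Z)).map (g : V →ₗ[F] V) ≤
      Submodule.span F (e '' supp B e (g (e a))) := by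
    rw [Submodule.map_span, Submodule.span_le]
    rintro _ ⟨_, ⟨c, hc, rfl⟩, rfl⟩
    by_cases h : c = a
    · exact S.mem_span_iff.mpr (by simp [h])
    · exact S.mem_span_iff.mpr (h2 c hc a ha h).2
  have h4 := Submodule.finrank_mono h3
  rw [LinearEquiv.finrank_map_eq, S.finrank_span, S.finrank_span] at h4
  have := (h2 a ha b hb hab).1
  omega

theorem mem_of_isBi {g x : V ≃ₗ[F] V} (hg : g ∈ K) {k : ι} {b : V} {l : F}
    (hx : IsBi B (g (e k)) b l x) (hl : σ l ≠ l) (hl1 : l * σ l = 1)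
    (hM : x ∈ decStab fun i => F ∙ e i) : g ∈ decStab fun i => F ∙ e i := by
  by_contra hg'
  have := S.card_supp hσ hn hB hg hg' k
  have := S.card_supp_of_isBi hx hl hl1 hM
  omega

theorem exists_swap_frame {g : V ≃ₗ[F] V} (hg : g ∈ K) {i j k l : ι} (hij : i ≠ j) (hkl : k ≠ l) :
    ∃ π : Equiv.Perm ι, ∀ m, ∃ u ∈ Submodule.span F {g (e k), g (e l)},
      supp B e (g (e m) - u) ⊆ {i, j, π m} := by
  have := hσ.finite
  have : Finite V := Module.finite_of_finite F
  have : Finite (V ≃ₗ[F] V) := DFunLike.finite _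
  obtain ⟨μ, p, r, hp, h1, h2, h3⟩ := hσ.exists_norm_one_prime_pow
  obtain ⟨s, hs, e1⟩ := S.exists_diag_two hij h1
  obtain ⟨t, ht, e2⟩ := S.exists_diag_two hkl h1
  have e3 := e2.conj (S.leU hg)
  let W := Submodule.span F {e i, e j} ⊔ Submodule.span F {g (e k), g (e l)}
  have hW : ∀ {a b : V} {x}, IsBi B a b μ x → Submodule.span F {a, b} ≤ W →
      x ∈ fixStab (perp B W) := fun hx h v hv => by
    rw [hx, mem_perp.mp hv _ (h (Submodule.subset_span (by simp))),
      mem_perp.mp hv _ (h (Submodule.subset_span (by simp)))]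
    simp
  obtain ⟨y, ⟨hy, hy'⟩, h4⟩ := exists_conj_mem (H := K ⊓ fixStab (perp B W))
    (M := decStab fun i => F ∙ e i) hp ⟨hs, hW e1 le_sup_left⟩
    ⟨K.mul_mem (K.mul_mem hg ht) (K.inv_mem hg), hW e3 le_sup_right⟩
    (e1.pow_eq_one S.herm (S.self _) (S.self _) (by simp [S.on, hij]) h3)
    (e3.pow_eq_one S.herm ((S.leU hg _ _).trans (S.self _))
      ((S.leU hg _ _).trans (S.self _)) ((S.leU hg _ _).trans (by simp [S.on, hkl])) h3)
    (S.mem_mono (S.leU hs) fun m => ⟨m, by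
      rw [e1]
      by_cases a1 : i = m
      · subst a1
        simp [S.on, hij.symm, Submodule.add_mem, Submodule.smul_mem]
      · by_cases a2 : j = m
        · subst a2
          simp [S.on, hij, Submodule.add_mem, Submodule.smul_mem]
        · simp [S.on, a1, a2]⟩)
    fun y hy h => S.mem_of_isBi hσ hn hB hy.1 (e1.conj (S.leU hy.1)) h2 h1 h
  obtain ⟨π, hπ⟩ := S.exists_perm_of_mem (S.mem_of_isBi hσ hn hB (K.mul_mem hy hg) (k := k)
    (e3.conj (S.leU hy)) h2 h1 h4)
  refine ⟨π, fun m => ?_⟩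
  obtain ⟨c, -, hc⟩ := hπ m
  obtain ⟨u, hu, v, hv, h5⟩ := Submodule.mem_sup.mp
    (S.herm.sub_mem_of_fixStab (S.leU hy) hy' (g (e m)))
  refine ⟨-v, neg_mem hv, S.mem_span_iff.mp ?_⟩
  rw [show g (e m) - -v = -u + c • e (π m) by
    rw [← hc, LinearEquiv.mul_apply]
    linear_combination (norm := module) h5]
  exact add_mem (Submodule.span_mono (by simp [Set.insert_subset_iff, Set.image_insert_eq]) (neg_mem hu))
    (Submodule.smul_mem _ _ (Submodule.subset_span ⟨π m, by simp, rfl⟩))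

theorem not_small {g : V ≃ₗ[F] V} (hg : g ∈ K) (hg' : g ∉ decStab fun i => F ∙ e i) {j : ι}
    {c : F} (hc : c ≠ 0) {T : Finset ι} (hT : T.card ≤ 8) : ¬ supp B e (c • g (e j)) ⊆ T :=
  fun h => by
    have h1 := S.card_supp hσ hn hB hg hg' j
    have h2 := card_le_card (show supp B e (g (e j)) ⊆ T from fun i hi => h (by simpa [hc] using hi))
    omega

theorem exists_small {g : V ≃ₗ[F] V} (hg : g ∈ K) (hg' : g ∉ decStab fun i => F ∙ e i) {k l : ι}
    (hkl : k ≠ l) {I : Finset ι} (hI : I.card = 3) : ∃ w ∈ Submodule.span F {g (e k), g (e l)},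
      w ≠ 0 ∧ (supp B e w \ I).card ≤ 2 := by
  obtain ⟨a, b, c, hab, hac, hbc, rfl⟩ := card_eq_three.mp hI
  obtain ⟨π₁, h1⟩ := S.exists_swap_frame hσ hn hB hg hab hkl
  obtain ⟨π₂, h2⟩ := S.exists_swap_frame hσ hn hB hg hac hkl
  obtain ⟨π₃, h3⟩ := S.exists_swap_frame hσ hn hB hg hbc hkl
  obtain ⟨m, -, hm⟩ := exists_mem_notMem_of_card_lt_card
    (s := {k, l, π₁.symm c, π₂.symm b, π₃.symm a}) (t := univ)
    (by have := card_le_five (a := k) (b := l) (c := π₁.symm c) (d := π₂.symm b) (e := π₃.symm a)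
        rw [card_univ]; omega)
  simp only [mem_insert, mem_singleton, not_or, Equiv.eq_symm_apply] at hm
  obtain ⟨u₁, a1, b1⟩ := h1 m
  obtain ⟨u₂, a2, b2⟩ := h2 m
  obtain ⟨u₃, a3, b3⟩ := h3 m
  have key : ∀ {u u' : V} {x y : ι}, supp B e (g (e m) - u) ⊆ {a, b, c, x} →
      supp B e (g (e m) - u') ⊆ {a, b, c, y} → (supp B e (u - u') \ {a, b, c}).card ≤ 2 :=
    fun {u u' x y} h h' => (card_le_card (t := {x, y}) fun i hi => by
      have h1 := @h i
      have h2 := @h' i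
      simp only [mem_sdiff, mem_supp, map_sub, mem_insert, mem_singleton] at hi h1 h2 ⊢
      push Not at hi
      by_cases h3 : B (e i) (g (e m)) - B (e i) u = 0
      · exact Or.inr (by simpa [hi.2] using h2 fun h4 => hi.1 (by linear_combination h4 - h3))
      · exact Or.inl (by simpa [hi.2] using h1 h3)).trans card_le_two
  by_cases c1 : u₁ = u₂
  swap
  · exact ⟨_, sub_mem a1 a2, sub_ne_zero.mpr c1, key (x := π₁ m) (y := π₂ m)
      (b1.trans (by simp [insert_subset_iff])) (b2.trans (by simp [insert_subset_iff]))⟩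
  by_cases c2 : u₁ = u₃
  swap
  · exact ⟨_, sub_mem a1 a3, sub_ne_zero.mpr c2, key (x := π₁ m) (y := π₃ m)
      (b1.trans (by simp [insert_subset_iff])) (b3.trans (by simp [insert_subset_iff]))⟩
  subst c1 c2
  obtain ⟨d, hd⟩ := Submodule.mem_span_singleton.mp ((S.mem_span_singleton_iff (i := π₁ m)).mpr
    (show supp B e (g (e m) - u₁) ⊆ _ from fun i hi => by
      have h1 := b1 hi
      have h2 := b2 hi
      have h3 := b3 hi
      simp only [mem_insert, mem_singleton] at h1 h2 h3 ⊢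
      grind))
  obtain ⟨α, β, rfl⟩ := Submodule.mem_span_pair.mp a1
  have h4 : d • g⁻¹ (e (π₁ m)) = e m - (α • e k + β • e l) := by
    rw [← map_smul, hd]; simp
  refine (S.not_small hσ hn hB (inv_mem hg) (by simpa using hg') (j := π₁ m) (c := d) (fun h0 => by
    simpa [h0, S.on, hm.1, hm.2.1] using congrArg (B (e m)) h4) (T := {m, k, l})
    (card_le_three.trans (by omega)) fun i hi => ?_).elim
  by_contra hi'
  simp only [mem_insert, mem_singleton, not_or] at hi'
  rw [h4] at hi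
  simp [S.on, hi'] at hi

theorem exists_two {g : V ≃ₗ[F] V} (hg : g ∈ K) {k l : ι} (hkl : k ≠ l) :
    ∃ w ∈ Submodule.span F {g (e k), g (e l)}, w ≠ 0 ∧ (supp B e w).card ≤ 2 := by
  by_cases hg' : g ∈ decStab fun i => F ∙ e i
  · obtain ⟨π, hπ⟩ := S.exists_perm_of_mem hg'
    obtain ⟨c, -, hc⟩ := hπ k
    exact ⟨_, Submodule.subset_span (by simp), by simpa using S.ne_zero k,
      (card_le_card (S.mem_span_singleton_iff.mp (Submodule.mem_span_singleton.mpr
        ⟨c, hc.symm⟩))).trans (by simp)⟩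
  obtain ⟨I, -, hI⟩ := exists_subset_card_eq (s := (univ : Finset ι)) (n := 3)
    (by rw [card_univ]; omega)
  obtain ⟨w, hw, hw0, h1⟩ := S.exists_small hσ hn hB hg hg' hkl hI
  refine ⟨w, hw, hw0, ?_⟩
  by_contra hlt
  obtain ⟨T, hT, hTc⟩ := exists_subset_card_eq (s := supp B e w) (n := 3) (by omega)
  have h2 := card_le_card_sdiff_add_card (s := supp B e w) (t := I)
  obtain ⟨J, hJ1, hJ2, hJ⟩ := exists_subsuperset_card_eq (s := supp B e w \ T) (t := Tᶜ) (n := 3)
    (fun i hi => by simpa using (mem_sdiff.mp hi).2) (by rw [card_sdiff_of_subset hT]; omega)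
    (by rw [card_compl]; omega)
  obtain ⟨w', hw', hw0', h3⟩ := S.exists_small hσ hn hB hg hg' hkl hJ
  obtain ⟨α, β, rfl⟩ := Submodule.mem_span_pair.mp hw
  obtain ⟨α', β', rfl⟩ := Submodule.mem_span_pair.mp hw'
  by_cases h4 : α * β' - α' * β = 0
  · have := card_le_card (show T ⊆ supp B e (α' • g (e k) + β' • g (e l)) \ J from fun i hi => by
      have h5 := hT hi
      refine mem_sdiff.mpr ⟨?_, fun h => by simpa [hi] using hJ2 h⟩
      simp only [mem_supp, map_add, map_smul, smul_eq_mul] at h5 ⊢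
      refine fun h0 => hw0' ?_
      rw [(mul_eq_zero_iff_left h5).mp (show _ * α' = 0 by
          linear_combination α * h0 - B (e i) (g (e l)) * h4),
        (mul_eq_zero_iff_left h5).mp (show _ * β' = 0 by
          linear_combination β * h0 + B (e i) (g (e k)) * h4)]
      simp)
    omega
  refine S.not_small hσ hn hB hg hg' (j := k) h4
    (T := T ∪ J ∪ (supp B e (α' • g (e k) + β' • g (e l)) \ J))
    ((card_union_le _ _).trans (by have := card_union_le T J; omega)) fun i hi => ?_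
  by_contra hi'
  have h5 : i ∉ supp B e (α • g (e k) + β • g (e l)) := fun h =>
    hi' (by by_cases h' : i ∈ T <;> simp [h', hJ1 (mem_sdiff.mpr ⟨h, _⟩)])
  simp only [mem_union, mem_sdiff, not_or, not_and, mem_supp, map_add, map_smul, smul_eq_mul,
    not_not] at hi hi' h5
  refine hi (by_contra fun h0 => hi'.1.2 (hi'.2 fun h6 => h0 ?_))
  linear_combination β' * h5 - β * h6

theorem le_mono : K ≤ decStab fun i => F ∙ e i := fun g hg => by
  by_contra hg'
  have hg1 : g⁻¹ ∉ decStab fun i => F ∙ e i := by simpa using hg'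
  obtain ⟨κ⟩ := Function.Embedding.nonempty_of_card_le (α := Fin 4 × Fin 2) (β := ι) (by simp; omega)
  have hκ : ∀ r, κ (r, 0) ≠ κ (r, 1) := by simp
  have h0 : ∀ {c : F} {i : ι} {T : Finset ι}, T.card ≤ 8 → supp B e (c • g⁻¹ (e i)) ⊆ T → c = 0 :=
    fun hT h => by_contra fun hc => S.not_small hσ hn hB (inv_mem hg) hg1 hc hT h
  choose w hw hw0 hw2 using fun r => S.exists_two hσ hn hB hg (hκ r)
  have h1 : ∀ r, ∀ v ∈ Submodule.span F {g (e (κ (r, 0))), g (e (κ (r, 1)))},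
      supp B e (g⁻¹ v) ⊆ {κ (r, 0), κ (r, 1)} := fun r v hv => by
    obtain ⟨α, β, rfl⟩ := Submodule.mem_span_pair.mp hv
    intro i
    by_cases a : i = κ (r, 0) <;> by_cases b : i = κ (r, 1) <;> simp [S.on, a, b]
  have h2 : ∀ r s, r ≠ s → ∀ v ∈ Submodule.span F {g (e (κ (s, 0))), g (e (κ (s, 1)))},
      B (w r) v = 0 := fun r s hrs v hv => by
    obtain ⟨α, β, e1⟩ := Submodule.mem_span_pair.mp (hw r)
    obtain ⟨α', β', rfl⟩ := Submodule.mem_span_pair.mp hv
    simp [← e1, LinearMap.map_smulₛₗ, S.leU hg _ _, S.on, hrs]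
  have h3 : ∀ r, ∃ ρ : Fin 2 → ι, ρ 0 ≠ ρ 1 ∧ (∀ c, B (e (ρ c)) (w r) ≠ 0) ∧
      w r = B (e (ρ 0)) (w r) • e (ρ 0) + B (e (ρ 1)) (w r) • e (ρ 1) := fun r => by
    obtain ⟨a, b, hab, e1⟩ := card_eq_two.mp (le_antisymm (hw2 r) (by
      by_contra hlt
      have : Nonempty ι := ⟨κ (0, 0)⟩
      obtain ⟨i, hi⟩ := card_le_one_iff_subset_singleton.mp (show (supp B e (w r)).card ≤ 1 by omega)
      obtain ⟨c, hc⟩ := Submodule.mem_span_singleton.mp (S.mem_span_singleton_iff.mpr hi)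
      have := h1 r _ (hw r)
      rw [← hc, map_smul] at this
      exact hw0 r (by simp [← hc, h0 (card_le_two.trans (by omega)) this])))
    refine ⟨![a, b], hab, Fin.forall_fin_two.mpr ⟨mem_supp.mp (by simp [e1]),
      mem_supp.mp (by simp [e1])⟩, S.ext fun i => ?_⟩
    by_cases h : i = a
    · simp [h, S.on, hab]
    by_cases h' : i = b
    · simp [h', S.on, hab.symm]
    · simpa [S.on, h, h'] using show i ∉ supp B e (w r) by simp [e1, h, h']
  choose ρ ρ1 ρ2 ρ3 using h3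
  have h4 : ∀ r v, B (w r) v = σ (B (e (ρ r 0)) (w r)) * B (e (ρ r 0)) v +
      σ (B (e (ρ r 1)) (w r)) * B (e (ρ r 1)) v := fun r v => by
    conv_lhs => rw [ρ3 r]
    simp [LinearMap.map_smulₛₗ]
  have h5 : ∀ r s, r ≠ s → ∀ c, B (e (ρ r c)) (w s) = 0 := fun r s hrs => by
    by_contra hcon
    have a1 := h2 r s hrs _ (hw s)
    rw [h4] at a1
    have a2 : ∀ c, B (e (ρ r c)) (w s) ≠ 0 := by
      simp only [Fin.forall_fin_two] at hcon ⊢
      constructor <;> intro h <;> simp [h, ρ2] at a1 hcon <;> exact hcon a1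
    have a3 : supp B e (w s) = {ρ r 0, ρ r 1} := (eq_of_subset_of_card_le
      (by simp [insert_subset_iff, a2]) (by rw [card_pair (ρ1 r)]; exact hw2 s)).symm
    have a4 : B (e (ρ r 1)) (w s) • w r - B (e (ρ r 1)) (w r) • w s =
        (B (e (ρ r 1)) (w s) * B (e (ρ r 0)) (w r) - B (e (ρ r 1)) (w r) * B (e (ρ r 0)) (w s)) •
          e (ρ r 0) := S.ext fun i => by
      by_cases h : i = ρ r 0
      · simp [h, S.on]
      by_cases h' : i = ρ r 1
      · simp [h', S.on, (ρ1 r).symm, mul_comm]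
      have a5 : B (e i) (w r) = 0 := by rw [ρ3 r]; simp [S.on, h, h']
      simpa [S.on, h, a5, ρ2] using show i ∉ supp B e (w s) by simp [a3, h, h']
    rw [h0 (c := B (e (ρ r 1)) (w s) * B (e (ρ r 0)) (w r) - B (e (ρ r 1)) (w r) * B (e (ρ r 0)) (w s))
      (i := ρ r 0) (T := {κ (r, 0), κ (r, 1)} ∪ {κ (s, 0), κ (s, 1)})
      ((card_union_le _ _).trans (add_le_add (card_le_two.trans (by omega : 2 ≤ 4))
        (card_le_two.trans (by omega : 2 ≤ 4)))) (by
        rw [← map_smul, ← a4, sub_eq_add_neg, ← neg_smul, map_add]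
        exact (supp_add _ _ _).trans (union_subset_union (h1 _ _ (Submodule.smul_mem _ _ (hw r)))
          (h1 _ _ (Submodule.smul_mem _ _ (hw s))))), zero_smul, sub_eq_zero] at a4
    refine hw0 r (g⁻¹.map_eq_zero_iff.mp (S.top _ fun i => by_contra fun h => ?_))
    have a5 := h1 r _ (hw r) (mem_supp.mpr h)
    have a6 := h1 s _ (Submodule.smul_mem _ (B (e (ρ r 1)) (w r)) (hw s)) (x := i) (by
      rw [← a4]; simpa [a2] using h)
    simp only [mem_insert, mem_singleton] at a5 a6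
    rcases a5 with rfl | rfl <;> simp [hrs] at a6
  have h6 : Function.Injective fun x : Fin 4 × Fin 2 => ρ x.1 x.2 := by
    rintro ⟨r, c⟩ ⟨s, d⟩ h
    by_cases hrs : r = s
    · subst hrs
      have := ρ1 r
      have := this.symm
      fin_cases c <;> fin_cases d <;> first | rfl | contradiction
    · exact (ρ2 s d (by simpa [show ρ r c = ρ s d from h] using h5 r s hrs c)).elim
  obtain ⟨μ, hμ, hμ'⟩ := hσ.exists_norm_one_sq_ne
  have h7 := h6.extend_apply (fun x => ![μ, σ μ] x.2) 1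
  obtain ⟨t, ht, e1⟩ := S.exists_diag (Function.extend (fun x : Fin 4 × Fin 2 => ρ x.1 x.2)
    (fun x => ![μ, σ μ] x.2) 1) (fun i => by
      by_cases h : ∃ x : Fin 4 × Fin 2, ρ x.1 x.2 = i
      · obtain ⟨⟨r, c⟩, rfl⟩ := h
        rw [h7 (r, c)]
        fin_cases c <;> simp [hμ, S.herm.invol, mul_comm]
      · simp [Function.extend_apply' _ _ _ h]) (by
      rw [← Fintype.prod_of_injective _ h6 _ _ (fun i hi => Function.extend_apply' _ _ i hi)
        fun x => (h7 x).symm]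
      simp [Fintype.prod_prod_type, hμ])
  have h8 : ∀ r v, B (e (ρ r 0)) (t v) = μ * B (e (ρ r 0)) v ∧
      B (e (ρ r 1)) (t v) = σ μ * B (e (ρ r 1)) v := fun r v =>
    ⟨by rw [e1, h7 (r, 0)]; rfl, by rw [e1, h7 (r, 1)]; rfl⟩
  obtain ⟨X, hX, hX0, hX2⟩ := S.exists_two hσ hn hB (mul_mem (mul_mem (inv_mem hg) ht) hg) (hκ 0)
  obtain ⟨α', β', rfl⟩ := Submodule.mem_span_pair.mp hX
  obtain ⟨α, β, e2⟩ := Submodule.mem_span_pair.mp (hw 0)
  obtain ⟨z, hz⟩ : ∃ z, z = α' • g (e (κ (0, 0))) + β' • g (e (κ (0, 1))) := ⟨_, rfl⟩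
  simp only [LinearEquiv.mul_apply, ← map_smul, ← map_add] at hX0 hX2
  simp only [map_smul, map_add g, ← hz] at hX0 hX2
  obtain ⟨r, hr, hr'⟩ : ∃ r, r ≠ 0 ∧ ∀ c, κ (r, c) ∉ supp B e (g⁻¹ (t z)) := by
    by_contra hcon
    push Not at hcon
    choose! f hf using hcon
    have := card_le_card_of_injOn (s := univ.erase 0) (fun r => κ (r, f r))
      (fun r hr => hf r (mem_erase.mp hr).1) fun r _ s _ h => by simpa using congrArg Prod.fst (κ.2 h)
    rw [card_erase_of_mem (mem_univ _), card_univ, Fintype.card_fin] at this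
    omega
  have h9 : B (w r) (t z) = 0 := by
    obtain ⟨a, b, e3⟩ := Submodule.mem_span_pair.mp (hw r)
    simp only [mem_supp, not_not, ← UG_apply_left (S.leU hg)] at hr'
    simp [← e3, LinearMap.map_smulₛₗ, hr']
  have h10 := h2 r 0 hr z (hz ▸ Submodule.mem_span_pair.mpr ⟨_, _, rfl⟩)
  rw [h4] at h9 h10
  rw [(h8 r z).1, (h8 r z).2] at h9
  have h11 : B (e (ρ r 0)) z = 0 := (mul_eq_zero_iff_left (mul_ne_zero (sub_ne_zero.mpr hμ')
    ((map_ne_zero σ).mpr (ρ2 r 0)))).mp (by linear_combination σ μ * h10 - h9)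
  have h12 : B (e (ρ r 1)) z = 0 := by simpa [h11, ρ2] using h10
  have h13 : α * β' - α' * β = 0 := by
    by_contra h
    have a1 := S.card_supp hσ hn hB hg hg' (κ (0, 0))
    have a2 := card_le_card (show supp B e (g (e (κ (0, 0)))) ⊆ {ρ r 0, ρ r 1}ᶜ from fun i hi => by
      simp only [mem_compl, mem_insert, mem_singleton]
      have a3 := h5 r 0 hr
      simp only [← e2, hz, map_add, map_smul, smul_eq_mul] at a3 h11 h12
      rintro (rfl | rfl) <;> refine mul_ne_zero h (mem_supp.mp hi) ?_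
      · linear_combination β' * a3 0 - β * h11
      · linear_combination β' * a3 1 - β * h12)
    rw [card_compl, card_pair (ρ1 r)] at a2
    omega
  have key : ∀ c d : F, c • z = d • w 0 → d = 0 := fun c d h => by
    have a1 : c • t z = (d * σ μ) • w 0 + (d * (μ - σ μ) * B (e (ρ 0 0)) (w 0)) • e (ρ 0 0) := by
      rw [← map_smul, h, map_smul]
      refine S.ext fun i => ?_
      by_cases h : i = ρ 0 0
      · simp [h, (h8 0 _).1, S.on]; ring
      by_cases h' : i = ρ 0 1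
      · simp [h', (h8 0 _).2, S.on, (ρ1 0).symm]; ring
      have a5 : B (e i) (w 0) = 0 := by rw [ρ3 0]; simp [S.on, h, h']
      simp [e1, a5, S.on, h]
    simpa [sub_eq_zero, hμ'.symm, ρ2] using h0 (c := d * (μ - σ μ) * B (e (ρ 0 0)) (w 0))
      (i := ρ 0 0) (T := supp B e (g⁻¹ (t z)) ∪ {κ (0, 0), κ (0, 1)})
      ((card_union_le _ _).trans (add_le_add hX2 (card_le_two.trans (by omega : 2 ≤ 6)))) (by
        rw [← map_smul, ← sub_eq_iff_eq_add'.mpr a1, sub_eq_add_neg, ← neg_smul, map_add, map_smul]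
        exact (supp_add _ _ _).trans (union_subset_union (supp_smul _ _ _)
          (h1 _ _ (Submodule.smul_mem _ _ (hw 0)))))
  refine hX0 (by
    rw [hz, key α α' (by rw [hz, ← e2]; linear_combination (norm := module) h13 • g (e (κ (0, 1)))),
      key β β' (by rw [hz, ← e2]; linear_combination (norm := module) -h13 • g (e (κ (0, 0))))]
    simp)

omit hB in
theorem max_frame : K ≤ decStab (fun i => F ∙ e i) ∨ SUG B ≤ K := by
  by_cases hB : ∀ g ∈ K, ∀ i, g (e i) ∈ F ∙ e i → g ∈ decStab fun i => F ∙ e i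
  · exact Or.inl (S.le_mono hσ hn hB)
  · push Not at hB
    obtain ⟨g, hg, i, h1, h2⟩ := hB
    exact Or.inr (S.SUG_le_of_fix hσ (by omega) hg h2 h1)

end FrameStr

theorem IsBar.isMaximalIn_dec' (hσ : IsBar q σ) {n t k : ℕ} (hn : 10 ≤ n)
    {D : Fin t → Submodule F (Fin n → F)}
    (hD : Geo.IsNondegenerateMDecomposition (hermForm n F q) k D) (hq : ¬ (k = 2 ∧ q = 2)) :
    Geo.IsMaximalIn (GU n F q ⊓ Geo.specialLinear (Fin n) F)
      (Geo.decompositionStabilizer D ⊓ (GU n F q ⊓ Geo.specialLinear (Fin n) F)) := by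
  by_cases hk : 2 ≤ k
  · exact hσ.isMaximalIn_dec (by omega) hk hD hq
  have := hσ.finite
  have h := hσ.isHerm (ι := Fin n)
  have S := hσ.decStr hD
  have h1 := S.finrank_eq hD.decomp.indep
  simp only [finrank_fintype_fun_eq_card, Fintype.card_fin] at h1
  obtain rfl : k = 1 := by
    rcases k with _ | _ | k <;> simp at h1 hk ⊢
    omega
  have h2 : ∀ i, ∃ e, D i = F ∙ e ∧ stdForm σ (Fin n) e e = 1 := fun i => by
    obtain ⟨e, he⟩ := (h.restrict (S.nondeg i)).exists_orthonormal 1 (by rw [S.dim])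
    have he' : stdForm σ (Fin n) (e 0) (e 0) = 1 := he 0 0
    exact ⟨e 0, (Submodule.eq_of_le_of_finrank_eq
      ((Submodule.span_singleton_le_iff_mem _ _).mpr (e 0).2)
      (by rw [S.dim, finrank_span_singleton (by rintro h0; simp [h0] at he')])).symm, he'⟩
  choose e he he' using h2
  obtain rfl : D = fun i => F ∙ e i := funext he
  have hon : ∀ i j, stdForm σ (Fin n) (e i) (e j) = if i = j then 1 else 0 := fun i j => by
    split_ifs with hij
    · rw [hij, he']
    · exact S.orth' hij (Submodule.mem_span_singleton_self _) (Submodule.mem_span_singleton_self _)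
  have hS : ∀ K, K ≤ SUG (stdForm σ (Fin n)) → decStab (fun i => F ∙ e i) ⊓ SUG _ ≤ K →
      FrameStr (stdForm σ (Fin n)) e K := fun K h1 h2 => ⟨h, hon, fun v hv => h.nondeg_right _
    fun u => by
      obtain ⟨y, y1, -, rfl⟩ := S.exists_comp h u
      rw [map_sum, LinearMap.sum_apply]
      exact sum_eq_zero fun i _ => by
        obtain ⟨c, hc⟩ := Submodule.mem_span_singleton.mp (y1 i)
        simp [← hc, LinearMap.map_smulₛₗ, hv], h1, h2⟩
  refine hσ.isMaximalIn_of (fun g _ => mem_decompositionStabilizer_iff g) ?_ fun K hH hK =>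
    (hS K hK hH).max_frame hσ (by simp; omega)
  obtain ⟨θ, hθ⟩ := h.exists_norm_eq (μ := -1) (by simp)
  have hθ0 : θ ≠ 0 := by rintro rfl; simp at hθ
  let a : Fin t := ⟨0, by omega⟩
  let b : Fin t := ⟨1, by omega⟩
  let c : Fin t := ⟨2, by omega⟩
  have h4 : ∀ j, e a + e b + θ • e c ∉ F ∙ e j := fun j hm => by
    have := (hS _ le_rfl inf_le_right).mem_span_singleton_iff.mp hm
    have h5 := @this a (by simp [hon, a, b, c])
    have h6 := @this b (by simp [hon, a, b, c])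
    simp only [mem_singleton] at h5 h6
    simp [a, b, ← h5] at h6
  exact h.not_SUG_le_decStab (by simp; omega) (Submodule.mem_span_singleton_self (e a))
    ((hS _ le_rfl inf_le_right).ne_zero a) (v := e a + e b + θ • e c)
    (fun h0 => h4 a (h0 ▸ zero_mem _))
    (by simp [LinearMap.map_smulₛₗ, hon, a, b, c, mul_comm (σ θ), hθ]) h4

end Cfsg.Lib.Unitary
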