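import Cfsg.Agent.Lib.Unitary.Four1
import Cfsg.Agent.Lib.Unitary.MaxFrameC
import Cfsg.Agent.Lib.OMax.Dec2D

/-!
# The monomial subgroup of `SU₄(q)`, `q ≠ 3`, is maximal
-/

set_option autoImplicit false

namespace Cfsg.Lib.Unitary

open Matrix Module QuadraticMap Cfsg.Geo Cfsg.Lib.Orth Cfsg.Lib.OMax Cfsg.Lib.Orth.Gam
open scoped MatrixGroups

variable {F : Type*} [Field F] {σ : F →+* F} {q : ℕ}

theorem IsBar.eq_zero_of_trace (h : IsBar q σ) {a b : F} (h0 : ∀ t, a * t + b * σ t = 0) :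
    a = 0 ∧ b = 0 := by
  obtain ⟨ω, hω⟩ := h.exists_ne
  have h1 := h0 1
  rw [map_one] at h1
  obtain rfl : b = 0 := mul_left_cancel₀ (sub_ne_zero.2 hω) (by linear_combination h0 ω - ω * h1)
  simpa using h1

theorem IsBar.monomial_of_klM (h : IsBar q σ) {g : SL(4, F)} {π : Equiv.Perm (Fin 3)}
    (hg : ∀ I J, Sum.elim id id J ≠ π (Sum.elim id id I) → klM g.1 J I = 0) (a : Fin 4) :
    ∃ b, ∀ c, c ≠ b → g.1 c a = 0 := by
  have h1 : ∀ I, ∃ J, Sum.elim id id J = π (Sum.elim id id I) ∧ ∀ a, (a = pl1 I ∨ a = pl2 I) →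
      ∀ c, c ≠ pl1 J → c ≠ pl2 J → g.1 c a = 0 := fun I => by
    have a1 : klM g.1 *ᵥ Pi.single I 1 = wedge (g.1ᵀ (pl1 I)) (g.1ᵀ (pl2 I)) := by
      rw [mulVec_single_one, ← transpose_transpose g.1, klM_transpose]; rfl
    have a2 : ∀ J : Fin 3 ⊕ Fin 3, Pi.single J (1 : F) =
        wedge (Pi.single (pl1 J) 1) (Pi.single (pl2 J) 1) := fun J => by
      ext I
      rcases I with I | I <;> rcases J with J | J <;> fin_cases I <;> fin_cases J <;>
        simp [wedge, pl1, pl2]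
    have a3 : klM g.1 *ᵥ Pi.single I 1 ≠ 0 := fun h0 => by
      simpa using (klein F g).1.map_eq_zero_iff.1 h0
    have a4 := qPlus_klM g.1 (Pi.single I 1)
    rw [show qPlus 3 F (Pi.single I 1) = 0 by rcases I with I | I <;> simp [qPlus_apply], mul_zero,
      qPlus_apply, Finset.sum_eq_single (π (Sum.elim id id I))
        (fun j _ hj => by simp [hg I (.inl j) hj]) (by simp)] at a4
    obtain ⟨J, b1, b2⟩ : ∃ J, Sum.elim id id J = π (Sum.elim id id I) ∧
        ∀ J', J' ≠ J → klM g.1 J' I = 0 := by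
      rcases mul_eq_zero.1 a4 with b | b
      · refine ⟨.inr _, rfl, ?_⟩
        rintro (j | j) hj
        · by_cases h : j = π (Sum.elim id id I)
          · simpa [h] using b
          · exact hg _ _ h
        · exact hg _ _ (by simpa using hj)
      · refine ⟨.inl _, rfl, ?_⟩
        rintro (j | j) hj
        · exact hg _ _ (by simpa using hj)
        · by_cases h : j = π (Sum.elim id id I)
          · simpa [h] using b
          · exact hg _ _ h
    have b3 := mem_span_of_wedge h (c := klM g.1 J I) (a1.symm.trans (funext fun J' => by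
      rw [← a2 J]
      by_cases h : J' = J <;> simp [h, b2])) (a1 ▸ a3)
    refine ⟨J, b1, fun a ha c h1 h2 => ?_⟩
    obtain ⟨s, t, e⟩ := Submodule.mem_span_pair.1 (show g.1ᵀ a ∈ _ by
      rcases ha with rfl | rfl; exacts [b3.1, b3.2])
    simpa [h1, h2] using (congrFun e c).symm
  obtain ⟨I, I', h2, h3, h4⟩ : ∃ I I' : Fin 3 ⊕ Fin 3, Sum.elim id id I ≠ Sum.elim id id I' ∧
      (a = pl1 I ∨ a = pl2 I) ∧ (a = pl1 I' ∨ a = pl2 I') := by revert a; decide
  obtain ⟨J, b1, b2⟩ := h1 I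
  obtain ⟨J', b1', b2'⟩ := h1 I'
  have h5 : ∀ J J' : Fin 3 ⊕ Fin 3, Sum.elim id id J ≠ Sum.elim id id J' → ∃ b, ∀ c, c ≠ b →
      (c ≠ pl1 J ∧ c ≠ pl2 J) ∨ (c ≠ pl1 J' ∧ c ≠ pl2 J') := by decide
  obtain ⟨b, hb⟩ := h5 J J' (by rw [b1, b1']; exact π.injective.ne h2)
  exact ⟨b, fun c hc => (hb c hc).elim (fun h => b2 a h3 c h.1 h.2) fun h => b2' a h4 c h.1 h.2⟩

theorem IsBar.exists_maxC_monomial [Fintype F] (h : IsBar q σ) (hq : q ≠ 3) :
    ∃ (b : fixedField σ) (f : SU 4 F q →* O (qMinus 2 (fixedField σ) 1 b))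
      (M : Subgroup (O (qMinus 2 (fixedField σ) 1 b))), f.range = commutator _ ∧ MaxC M ∧
      ∀ g, f g ∈ M → ∀ a, ∃ b, ∀ c, c ≠ b → g.1.1 c a = 0 := by
  classical
  obtain ⟨φ, hφ⟩ := h.exists_ringHom h.card_fixedField
  obtain ⟨b, hab⟩ := exists_aniso_one (fixedField σ)
  obtain ⟨ψ, D, f, a1, a2, a3, a4⟩ := h.exists_cover h.card_fixedField hφ hab
  have hQ := nd_qMinus 2 hab
  have b0 : ∀ v i, D.e (φ ∘ v) (.inr i) = σ (D.e (φ ∘ v) (.inl i)) := fun v i =>
    (congrFun ((a2 _).symm.trans (D.fix v)) (.inr i)).symm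
  have b1 : ∀ u : Fin 3 → F, ∃ v, ∀ i, D.e (φ ∘ v) (.inl i) = u i := fun u => by
    obtain ⟨x, hx⟩ := D.e.surjective (Sum.elim u (σ ∘ u))
    have c2 : ψ.T (D.e x) = D.e x := by
      rw [hx, a2]; ext (i | i) <;> simp [h.invol]
    rw [D.T_e] at c2
    choose v hv using fun i => (hφ _).1 ((a1 _).symm.trans (congrFun (D.e.injective c2) i))
    obtain rfl : φ ∘ v = x := funext hv
    exact ⟨v, fun i => by rw [hx]; rfl⟩
  have b2 : ∀ u v, (∀ i, D.e (φ ∘ u) (.inl i) = D.e (φ ∘ v) (.inl i)) → u = v := fun u v huv =>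
    funext fun i => φ.injective (congrFun (D.e.injective (funext fun I => by
      rcases I with I | I
      · exact huv I
      · rw [b0, b0, huv])) i)
  let P : Fin 3 → Submodule (fixedField σ) _ := fun i =>
    { carrier := {v | ∀ j, j ≠ i → D.e (φ ∘ v) (.inl j) = 0}
      add_mem' := fun hu hv j hj => by simp [comp_add', hu j hj, hv j hj]
      zero_mem' := fun j _ => by simp
      smul_mem' := fun c v hv j hj => by simp [comp_smul', hv j hj] }
  have b3 : ∀ i t, ∃ v ∈ P i, D.e (φ ∘ v) (.inl i) = t := fun i t => by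
    obtain ⟨v, hv⟩ := b1 (Pi.single i t)
    exact ⟨v, fun j hj => by simp [hv, hj], by simp [hv]⟩
  have b4 : ∀ i, ∀ v ∈ P i, D.e (φ ∘ v) (.inl i) = 0 → v = 0 := fun i v hv h0 => b2 _ _ fun j => by
    by_cases hj : j = i
    · simp [hj, h0]
    · simp [hv j hj]
  have b5 : ∀ i, ∀ u ∈ P i, ∀ v, D.c * φ (polar (qMinus 2 _ 1 b) u v) =
      σ (D.e (φ ∘ u) (.inl i)) * D.e (φ ∘ v) (.inl i) +
        D.e (φ ∘ u) (.inl i) * σ (D.e (φ ∘ v) (.inl i)) := fun i u hu v => by
    rw [← D.map_polar, polar_qPlus, Finset.sum_eq_single i (fun j _ hj => by simp [b0, hu j hj])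
      (by simp), b0, b0, add_comm]
  have hA : ∀ i, ∀ x ∈ P i, qMinus 2 _ 1 b x = 0 → x = 0 := fun i x hx h0 => b4 i x hx (by
    have := D.map_Q x
    rw [h0, qPlus_apply, Finset.sum_eq_single i (fun j _ hj => by simp [hx j hj]) (by simp), b0]
      at this
    simpa using this)
  have b6 : ∀ i, ND ((qMinus 2 _ 1 b).restrict (P i)) := fun i => nd_restrict_iff.2 fun v hv h0 =>
    b4 i v hv (h.eq_zero_of_trace fun t => by
      obtain ⟨u, hu, rfl⟩ := b3 i t
      rw [← b5 i v hv, h0 u hu, map_zero, mul_zero]).2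
  have b7 : ∀ i, finrank (fixedField σ) (P i) = 2 := fun i => by
    have c1 := Nat.card_eq_of_bijective (fun v : P i => D.e (φ ∘ v.1) (.inl i))
      ⟨fun u v huv => Subtype.ext (b2 _ _ fun j => by
        by_cases hj : j = i
        · exact hj ▸ huv
        · rw [u.2 j hj, v.2 j hj]), fun t => by
        obtain ⟨v, hv, e⟩ := b3 i t
        exact ⟨⟨v, hv⟩, e⟩⟩
    rw [Module.natCard_eq_pow_finrank (K := fixedField σ), h.card_fixedField, h.card] at c1
    exact Nat.pow_right_injective h.two_le c1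
  have S : OMax.DecStr (qMinus 2 _ 1 b) P 2 := ⟨hQ, b6, fun i j hij v hv => Orth.mem_perp.2
    fun u hu => by simpa [hv i hij, D.hc] using b5 i u hu v, eq_top_iff.2 fun v _ => by
      choose w w1 w2 using fun i => b3 i (D.e (φ ∘ v) (.inl i))
      rw [b2 v (w 0 + w 1 + w 2) fun i => by
        fin_cases i <;> simp [comp_add', w2, w1 0 1, w1 0 2, w1 1 0, w1 1 2, w1 2 0, w1 2 1]]
      exact add_mem (add_mem (Submodule.mem_iSup_of_mem 0 (w1 0))
        (Submodule.mem_iSup_of_mem 1 (w1 1))) (Submodule.mem_iSup_of_mem 2 (w1 2)), b7,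
    fun i j => by
      have c := fun i => equivalent_qBin (b6 i) (b7 i) (fun x hx => Subtype.ext (hA i x x.2 hx)) hab
      obtain ⟨e⟩ := (c i).trans (c j).symm
      obtain ⟨g, hg⟩ := witt_equiv hQ e.toLinearEquiv fun x => e.map_app x
      exact ⟨g, fun x hx => (hg ⟨x, hx⟩).symm ▸ Subtype.property _⟩⟩
  refine ⟨b, f, dstab _ P, a3, fun K h1 _ => S.max_three_aniso (by rwa [h.card_fixedField]) hA h1,
    fun g ⟨π, hπ⟩ => h.monomial_of_klM (π := π) ?_⟩
  have c1 : ∀ i J, Sum.elim id id J ≠ π i → klM g.1.1 J (.inl i) = 0 ∧ klM g.1.1 J (.inr i) = 0 :=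
    fun i J hJ => h.eq_zero_of_trace fun t => by
      obtain ⟨v, hv, rfl⟩ := b3 i t
      have c2 := (hπ i).le (Submodule.mem_map_of_mem hv)
      have c3 : D.e (φ ∘ (f g).1 v) J = 0 := by
        rcases J with J | J
        · exact c2 J hJ
        · rw [b0]; exact (map_eq_zero σ).2 (c2 J hJ)
      rw [← D.jO_apply, a4, klein_apply, mulVec, dotProduct, Fintype.sum_sum_type,
        Finset.sum_eq_single i (fun j _ hj => by simp [hv j hj]) (by simp),
        Finset.sum_eq_single i (fun j _ hj => by simp [b0, hv j hj]) (by simp), b0] at c3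
      exact c3
  rintro (i | i) J hJ
  exacts [(c1 i J hJ).1, (c1 i J hJ).2]

theorem IsBar.isMaximalIn_frame_four [Fintype F] (h : IsBar q σ) (hq : q ≠ 3)
    {D : Fin 4 → Submodule F (Fin 4 → F)} (hD : IsNondegenerateMDecomposition (hermForm 4 F q) 1 D) :
    IsMaximalIn (GU 4 F q ⊓ specialLinear (Fin 4) F)
      (decompositionStabilizer D ⊓ (GU 4 F q ⊓ specialLinear (Fin 4) F)) := by
  have hB := h.isHerm (ι := Fin 4)
  have S := h.decStr hD
  have h2 : ∀ i, ∃ e, D i = F ∙ e ∧ stdForm σ (Fin 4) e e = 1 := fun i => by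
    obtain ⟨e, he⟩ := (hB.restrict (S.nondeg i)).exists_orthonormal 1 (by rw [S.dim])
    have he' : stdForm σ (Fin 4) (e 0) (e 0) = 1 := he 0 0
    exact ⟨e 0, (Submodule.eq_of_le_of_finrank_eq
      ((Submodule.span_singleton_le_iff_mem _ _).mpr (e 0).2)
      (by rw [S.dim, finrank_span_singleton (by rintro h0; simp [h0] at he')])).symm, he'⟩
  choose e he he' using h2
  obtain rfl : D = fun i => F ∙ e i := funext he
  have hon : ∀ i j, stdForm σ (Fin 4) (e i) (e j) = if i = j then 1 else 0 := fun i j => by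
    split_ifs with hij
    · rw [hij, he']
    · exact S.orth' hij (Submodule.mem_span_singleton_self _) (Submodule.mem_span_singleton_self _)
  have hS : FrameStr (stdForm σ (Fin 4)) e (SUG _) := ⟨hB, hon, fun v hv => hB.nondeg_right _
    fun u => by
      obtain ⟨y, y1, -, rfl⟩ := S.exists_comp hB u
      rw [map_sum, LinearMap.sum_apply]
      exact Finset.sum_eq_zero fun i _ => by
        obtain ⟨c, hc⟩ := Submodule.mem_span_singleton.mp (y1 i)
        simp [← hc, LinearMap.map_smulₛₗ, hv], le_rfl, inf_le_right⟩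
  have a1 : (((of e)ᵀ).map σ)ᵀ * (of e)ᵀ = 1 := by
    ext i j
    simpa [mul_apply, one_apply, stdForm_apply] using hon i j
  have a2 : σ (of e).det * (of e).det = 1 := by
    have := congrArg Matrix.det a1
    rwa [Matrix.det_mul, det_transpose, det_transpose, ← RingHom.mapMatrix_apply, ← RingHom.map_det,
      det_transpose, det_one] at this
  let d : Fin 4 → F := ![σ (of e).det, 1, 1, 1]
  have a3 : ∀ i, σ (d i) * d i = 1 := fun i => by fin_cases i <;> simp [d, h.invol, mul_comm (of e).det, a2]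
  let G : SU 4 F q := ⟨⟨(of e)ᵀ * diagonal d, by simpa [d, Fin.prod_univ_four, mul_comm] using a2⟩,
    h.mem_SU_iff.2 (by
      simp only [Matrix.map_mul, transpose_mul, ← Matrix.mul_assoc]
      rw [Matrix.mul_assoc _ _ (of e)ᵀ, a1, diagonal_map (map_zero σ)]
      simp [a3])⟩
  have a4 : ∀ i (t : F), G.1.1 *ᵥ Pi.single i t = (t * d i) • e i := fun i t => by
    ext j; simp [G, mulVec_single, mul_comm, mul_left_comm]
  obtain ⟨b, f, M, f1, f2, f3⟩ := h.exists_maxC_monomial hq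
  rw [← range_suι]
  refine (f2.of_equiv (MulAut.conj (f G)⁻¹) (M := M.comap (MulAut.conj (f G)⁻¹).toMonoidHom)
    fun _ => Iff.rfl).isMaximalIn _ f f1 (fun g hg => ?_) fun hle => ?_
  · refine (mem_decompositionStabilizer_iff _).2 (hS.mem_mono ((h.glEquiv_mem_UG _).2 g.2) fun i => ?_)
    obtain ⟨j, hj⟩ := f3 (G⁻¹ * g * G) (by simpa using hg) i
    have b1 : (G⁻¹ * g * G).1.1 *ᵥ Pi.single i 1 = Pi.single j ((G⁻¹ * g * G).1.1 j i) := by
      generalize (G⁻¹ * g * G).1.1 = m at hj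
      ext c; by_cases hc : c = j <;> simp [hc, hj]
    have b2 := congrArg (G.1.1 *ᵥ ·) b1
    simp only [mulVec_mulVec, a4] at b2
    rw [show G.1.1 * (G⁻¹ * g * G).1.1 = g.1.1 * G.1.1 from
      congrArg (fun x : SU 4 F q => x.1.1) (show G * (G⁻¹ * g * G) = g * G by group),
      ← mulVec_mulVec, a4, mulVec_smul, one_mul] at b2
    exact ⟨j, (Submodule.smul_mem_iff _ (right_ne_zero_of_mul_eq_one (a3 i))).1
      (b2.symm ▸ Submodule.smul_mem _ _ (Submodule.mem_span_singleton_self _))⟩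
  obtain ⟨θ, hθ⟩ := hB.exists_norm_eq (μ := -1) (by simp)
  have h4 : ∀ j, e 0 + e 1 + θ • e 2 ∉ F ∙ e j := fun j hm => by
    have := hS.mem_span_singleton_iff.mp hm
    have h5 := @this 0 (by simp [hon])
    have h6 := @this 1 (by simp [hon])
    simp only [Finset.mem_singleton] at h5 h6
    simp [← h5] at h6
  refine hB.not_SUG_le_decStab (D := fun i => F ∙ e i) (i := 0) (by simp)
    (Submodule.mem_span_singleton_self (e 0)) (hS.ne_zero 0)
    (v := e 0 + e 1 + θ • e 2) (fun h0 => h4 0 (h0 ▸ zero_mem _))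
    (by simp [LinearMap.map_smulₛₗ, hon, mul_comm (σ θ), hθ]) h4 fun g hg => ?_
  convert (mem_decompositionStabilizer_iff _).1 (hle ⟨(h.suEquiv 4).symm ⟨g, hg⟩, rfl⟩)
  exact LinearEquiv.ext fun v => (h.suEquiv_symm_mulVec ⟨g, hg⟩ v).symm

end Cfsg.Lib.Unitary
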