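import Cfsg.Agent.Lib.Unitary.SixC

/-!
# The stabiliser of an orthonormal frame is maximal in `SU_7(q)`
-/

set_option autoImplicit false

namespace Cfsg.Lib.Unitary

open Module Finset

variable {F V : Type*} [Field F] [AddCommGroup V] [Module F V] {σ : F →+* F}
  {B : V →ₛₗ[σ] V →ₗ[F] F} {q : ℕ} {ι : Type*} [Fintype ι] [DecidableEq ι]

namespace FrameStr

variable {e : ι → V} {K : Subgroup (V ≃ₗ[F] V)} (S : FrameStr B e K) [FiniteDimensional F V]
  (hσ : IsBar q σ) (hn : Fintype.card ι = 7)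
  (hB : ∀ g ∈ K, ∀ i, g (e i) ∈ F ∙ e i → g ∈ decStab fun i => F ∙ e i)
include S hσ hB hn

theorem card_supp7 {g : V ≃ₗ[F] V} (hg : g ∈ K) (hg' : g ∉ decStab fun i => F ∙ e i) (j : ι) :
    Fintype.card ι ≤ (supp B e (g (e j))).card + 1 := by
  by_contra hlt
  obtain ⟨k, hk, l, hl, hkl⟩ := one_lt_card.mp (show 1 < (supp B e (g (e j)))ᶜ.card by
    rw [card_compl]; omega)
  simp only [mem_compl, mem_supp, not_not] at hk hl
  have h1 := (S.supp_of_zero hσ hB (inv_mem hg) (by simpa using hg') hkl (j := j)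
    (by simpa using hk) (by simpa using hl)).1
  let Z := (supp B e (g⁻¹ (e k)))ᶜ
  have hZ : 4 ≤ Z.card := by rw [card_compl]; omega
  have h2 : ∀ a ∈ Z, ∀ b ∈ Z, a ≠ b → (supp B e (g (e a))).card ≤ 3 ∧
      supp B e (g (e a)) ⊆ supp B e (g (e b)) := fun a ha b hb hab =>
    S.supp_of_zero hσ hB hg hg' hab (j := k) (by simpa [Z] using ha) (by simpa [Z] using hb)
  obtain ⟨a, ha, b, hb, hab⟩ := one_lt_card.mp (show 1 < Z.card by omega)
  have h3 : (Submodule.span F (e '' Z)).map (g : V →ₗ[F] V) ≤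
      Submodule.span F (e '' supp B e (g (e a))) := by
    rw [Submodule.map_span, Submodule.span_le]
    rintro _ ⟨_, ⟨c, hc, rfl⟩, rfl⟩
    by_cases h : c = a
    · exact S.mem_span_iff.mpr (by simp [h])
    · exact S.mem_span_iff.mpr (h2 c hc a ha h).2
  have h4 := Submodule.finrank_mono h3
  rw [LinearEquiv.finrank_map_eq, S.finrank_span, S.finrank_span] at h4
  have := (h2 a ha b hb hab).1
  omega

theorem mem_of_isBi7 {g x : V ≃ₗ[F] V} (hg : g ∈ K) {k : ι} {b : V} {l : F}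
    (hx : IsBi B (g (e k)) b l x) (hl : σ l ≠ l) (hl1 : l * σ l = 1)
    (hM : x ∈ decStab fun i => F ∙ e i) : g ∈ decStab fun i => F ∙ e i := by
  by_contra hg'
  have := S.card_supp7 hσ hn hB hg hg' k
  have := S.card_supp_of_isBi hx hl hl1 hM
  omega

theorem card_supp_eq7 {g : V ≃ₗ[F] V} (hg : g ∈ K) {v : V} (hv : (supp B e v).card ≤ 3) {i j : ι}
    (hij : i ≠ j) (hi : B (e i) (g v) = 0) (hj : B (e j) (g v) = 0) :
    (supp B e (g v)).card = (supp B e v).card := by
  obtain ⟨k, hk, l, hl, hkl⟩ := one_lt_card.mp (show 1 < (supp B e v)ᶜ.card by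
    rw [card_compl]; omega)
  simp only [mem_compl, mem_supp, not_not] at hk hl
  have := hσ.finite
  have : Finite V := Module.finite_of_finite F
  have : Finite (V ≃ₗ[F] V) := DFunLike.finite _
  obtain ⟨μ, p, r, hp, h1, h2, h3⟩ := hσ.exists_norm_one_prime_pow
  obtain ⟨s, hs, e1⟩ := S.exists_diag_two hij h1
  obtain ⟨t, ht, e2⟩ := S.exists_diag_two hkl h1
  have e3 := e2.conj (S.leU hg)
  let W := Submodule.span F {e i, e j} ⊔ Submodule.span F {g (e k), g (e l)}
  have hW : ∀ {a b : V} {x}, IsBi B a b μ x → Submodule.span F {a, b} ≤ W →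
      x ∈ fixStab (perp B W) := fun hx h v hv => by
    rw [hx, mem_perp.mp hv _ (h (Submodule.subset_span (by simp))),
      mem_perp.mp hv _ (h (Submodule.subset_span (by simp)))]
    simp
  obtain ⟨y, ⟨hy, hy'⟩, h4⟩ := exists_conj_mem (H := K ⊓ fixStab (perp B W))
    (M := decStab fun i => F ∙ e i) hp ⟨hs, hW e1 le_sup_left⟩
    ⟨K.mul_mem (K.mul_mem hg ht) (K.inv_mem hg), hW e3 le_sup_right⟩
    (e1.pow_eq_one S.herm (S.self _) (S.self _) (by simp [S.on, hij]) h3)
    (e3.pow_eq_one S.herm ((S.leU hg _ _).trans (S.self _))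
      ((S.leU hg _ _).trans (S.self _)) ((S.leU hg _ _).trans (by simp [S.on, hkl])) h3)
    (S.mem_mono (S.leU hs) fun m => ⟨m, by
      rw [e1]
      by_cases a1 : i = m
      · subst a1
        simp [S.on, hij.symm, Submodule.add_mem, Submodule.smul_mem]
      · by_cases a2 : j = m
        · subst a2
          simp [S.on, hij, Submodule.add_mem, Submodule.smul_mem]
        · simp [S.on, a1, a2]⟩)
    fun y hy h => S.mem_of_isBi7 hσ hn hB hy.1 (e1.conj (S.leU hy.1)) h2 h1 h
  rw [← S.card_supp_mono (S.leU (K.mul_mem hy hg)) (S.mem_of_isBi7 hσ hn hB (K.mul_mem hy hg)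
    (k := k) (e3.conj (S.leU hy)) h2 h1 h4) v, LinearEquiv.mul_apply, hy' (g v) (by
      rw [perp_sup]
      exact ⟨mem_perp_span.mpr (by simp [hi, hj]), mem_perp_span.mpr (by
        simp [S.leU hg _ _, hk, hl])⟩)]

theorem eq_zero_of_small7 {g : V ≃ₗ[F] V} (hg : g ∈ K) (hg' : g ∉ decStab fun i => F ∙ e i)
    {j : ι} {c : F} (h : (supp B e (g (c • e j))).card ≤ 4) : c = 0 := by
  by_contra hc
  have h1 := S.card_supp7 hσ hn hB hg hg' j
  have h2 := card_le_card (show supp B e (g (e j)) ⊆ supp B e (g (c • e j)) from fun i hi => by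
    simpa [hc] using hi)
  omega

theorem exists_zero7 {g : V ≃ₗ[F] V} (hg : g ∈ K) {T : Finset ι} (hT : T.card = 3) (i j : ι) :
    ∃ v, v ≠ 0 ∧ supp B e v ⊆ T ∧ B (e i) (g v) = 0 ∧ B (e j) (g v) = 0 := by
  have h1 := finrank_le_finrank_inf_perp S.herm (Submodule.span F (e '' T))
    (Submodule.span F {g⁻¹ (e i), g⁻¹ (e j)})
  have h2 := finrank_span_pair_le (F := F) (g⁻¹ (e i)) (g⁻¹ (e j))
  rw [S.finrank_span, hT] at h1
  obtain ⟨v, hv, hv0⟩ := exists_notMem_of_lt (W := Submodule.span F (e '' T)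
    ⊓ perp B (Submodule.span F {g⁻¹ (e i), g⁻¹ (e j)})) (Z := ⊥) (by
      simp only [finrank_bot]; omega)
  exact ⟨v, hv0, S.mem_span_iff.mp hv.1, (UG_apply_right (S.leU hg) _ _).trans
    (mem_perp_span.mp hv.2 _ (by simp)), (UG_apply_right (S.leU hg) _ _).trans
    (mem_perp_span.mp hv.2 _ (by simp))⟩

variable {g : V ≃ₗ[F] V} (hg : g ∈ K) (hg' : g ∉ decStab fun i => F ∙ e i)
include hg hg'

theorem wt7 {v : V} (h0 : v ≠ 0) (hv : (supp B e v).card ≤ 3) {i j : ι} (hij : i ≠ j)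
    (hi : B (e i) (g v) = 0) (hj : B (e j) (g v) = 0) :
    2 ≤ (supp B e v).card ∧ (supp B e (g v)).card = (supp B e v).card := by
  have h1 := S.card_supp_eq7 hσ hn hB hg hv hij hi hj
  refine ⟨by_contra fun h => h0 ?_, h1⟩
  have : Nonempty ι := ⟨i⟩
  obtain ⟨k, hk⟩ := card_le_one_iff_subset_singleton.mp (show (supp B e v).card ≤ 1 by omega)
  obtain ⟨c, rfl⟩ := Submodule.mem_span_singleton.mp (S.mem_span_singleton_iff.mpr hk)
  simp [S.eq_zero_of_small7 hσ hn hB hg hg' (j := k) (c := c) (by omega)]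

/-- Two short vectors with overlapping supports cannot have images with two common zeros. -/
theorem no_pair7 {m k l : ι} (hmk : m ≠ k) (hml : m ≠ l) (hkl : k ≠ l) {a b : V} (a0 : a ≠ 0) (b0 : b ≠ 0)
    (ha : supp B e a ⊆ {k, l}) (hb : supp B e b ⊆ {m, l}) {i j : ι} (hij : i ≠ j) (ai : B (e i) (g a) = 0)
    (aj : B (e j) (g a) = 0) (bi : B (e i) (g b) = 0) (bj : B (e j) (g b) = 0) : False := by
  have a1 := (card_le_card ha).trans card_le_two
  have b1 := (card_le_card hb).trans card_le_two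
  obtain ⟨a2, a3⟩ := S.wt7 hσ hn hB hg hg' a0 (by omega) hij ai aj
  obtain ⟨b2, b3⟩ := S.wt7 hσ hn hB hg hg' b0 (by omega) hij bi bj
  have a4 := eq_of_subset_of_card_le ha (card_le_two.trans a2)
  have b4 := eq_of_subset_of_card_le hb (card_le_two.trans b2)
  have ak : B (e k) a ≠ 0 := mem_supp.mp (a4.ge (by simp))
  have al : B (e l) a ≠ 0 := mem_supp.mp (a4.ge (by simp))
  have bm : B (e m) b ≠ 0 := mem_supp.mp (b4.ge (by simp))
  have bl : B (e l) b ≠ 0 := mem_supp.mp (b4.ge (by simp))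
  have az : ∀ z, z ≠ k → z ≠ l → B (e z) a = 0 := fun z h1 h2 => by_contra fun h => by
    simpa [h1, h2] using ha (mem_supp.mpr h)
  have bz : ∀ z, z ≠ m → z ≠ l → B (e z) b = 0 := fun z h1 h2 => by_contra fun h => by
    simpa [h1, h2] using hb (mem_supp.mpr h)
  have c1 : supp B e (B (e l) b • a - B (e l) a • b) ⊆ {k, m} := fun z hz => by_contra fun h => by
    simp only [mem_insert, mem_singleton, not_or] at h
    by_cases h1 : z = l
    · simp [h1, mul_comm] at hz
    · simp [az z h.1 h1, bz z h.2 h1] at hz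
  have c2 := (card_le_card c1).trans card_le_two
  have c3 := (S.wt7 hσ hn hB hg hg' (v := B (e l) b • a - B (e l) a • b) (fun h => by
    simpa [ak, bl, bz k hmk.symm hkl] using congrArg (B (e k)) h) (by omega) hij (by simp [ai, bi])
    (by simp [aj, bj])).2
  have c4 : (supp B e (g a) ∪ supp B e (g b)).card ≤ 3 := by
    by_contra h
    have h1 := card_union_add_card_inter (supp B e (g a)) (supp B e (g b))
    have h2 := card_eq_zero.mp (show (supp B e (g a) ∩ supp B e (g b)).card = 0 by omega)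
    have := card_le_card (show supp B e (g a) ∪ supp B e (g b) ⊆
        supp B e (g (B (e l) b • a - B (e l) a • b)) from fun z hz => by
      have h3 : z ∉ supp B e (g a) ∩ supp B e (g b) := by simp [h2]
      simp only [mem_union, mem_inter, mem_supp] at hz h3
      by_cases h4 : B (e z) (g a) = 0
      · simpa [h4, al] using hz
      · simp [h4, bl, not_not.mp fun h => h3 ⟨h4, h⟩])
    omega
  obtain ⟨U, u1, -, u2⟩ := exists_subsuperset_card_eq (subset_univ _) c4 (by rw [card_univ]; omega)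
  obtain ⟨s, t, r, hst, -, -, rfl⟩ := card_eq_three.mp u2
  obtain ⟨v, v0, v1, v2, v3⟩ := S.exists_zero7 hσ hn hB hg (T := {m, k, l})
    (card_eq_three.mpr ⟨m, k, l, hmk, hml, hkl, rfl⟩) s t
  have v4 := (card_le_card v1).trans card_le_three
  obtain ⟨v5, v6⟩ := S.wt7 hσ hn hB hg hg' v0 v4 hst v2 v3
  have u3 : ∀ z ∉ ({s, t, r} : Finset ι), B (e z) (g a) = 0 ∧ B (e z) (g b) = 0 := fun z hz => by
    simpa using mt (@u1 z) hz
  obtain ⟨z, z1, z2⟩ := exists_mem_notMem_of_card_lt_card (s := supp B e (g v)) (t := {s, t, r}ᶜ)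
    (by rw [card_compl]; omega)
  obtain ⟨z3, z4⟩ := u3 z (mem_compl.mp z1)
  obtain ⟨d, hd⟩ := Submodule.mem_span_singleton.mp ((S.mem_span_singleton_iff (i := l)
    (v := v - (B (e k) v / B (e k) a) • a - (B (e m) v / B (e m) b) • b)).mpr fun y hy => by_contra fun h => by
      have h1 : y ≠ l := by simpa using h
      by_cases h2 : y = k
      · simp [h2, ak, bz k hmk.symm hkl] at hy
      by_cases h3 : y = m
      · simp [h3, bm, az m hmk hml] at hy
      have h4 : B (e y) v = 0 := by_contra fun h => by simpa [h1, h2, h3] using v1 (mem_supp.mpr h)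
      simp [h4, az y h2 h1, bz y h3 h1] at hy)
  have z5 : B (e z) (g (e l)) ≠ 0 := fun h => by
    have h1 : B (e z) (g (e k)) = 0 := by
      rw [S.eq_pair hkl ha] at z3
      simpa [h, ak] using z3
    have h6 := S.card_supp7 hσ hn hB (inv_mem hg) (by simpa using hg') z
    have h7 := card_le_card (show supp B e (g⁻¹ (e z)) ⊆ {k, l}ᶜ from fun y hy => by
      refine mem_compl.mpr fun h' => mem_supp.mp hy ?_
      rw [← UG_apply_left (S.leU hg)]
      rcases mem_insert.mp h' with rfl | h'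
      · exact S.herm.eq_zero_comm.mp h1
      · exact S.herm.eq_zero_comm.mp (mem_singleton.mp h' ▸ h))
    rw [card_compl, card_pair hkl] at h7
    omega
  have d0 : d = 0 := by
    simpa [z5, z3, z4, not_not.mp (mem_supp.not.mp z2)] using congrArg (fun x => B (e z) (g x)) hd
  rw [d0, zero_smul, eq_comm, sub_sub, sub_eq_zero] at hd
  have := card_le_card (show supp B e (g v) ⊆ {r} from fun y hy => by_contra fun h => by
    by_cases h1 : y ∈ ({s, t, r} : Finset ι)
    · simp only [mem_insert, mem_singleton] at h1 h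
      rcases h1 with rfl | rfl | rfl
      exacts [mem_supp.mp hy v2, mem_supp.mp hy v3, h rfl]
    · rw [hd] at hy
      simp [u3 y h1] at hy)
  rw [card_singleton] at this
  omega

theorem line7 {m k l : ι} (hmk : m ≠ k) (hml : m ≠ l) (hkl : k ≠ l) {u v : V} (u0 : u ≠ 0)
    (hu : supp B e u ⊆ {m, k, l}) (hv : supp B e v ⊆ {m, k, l}) {i j x : ι} (hij : i ≠ j)
    (ui : B (e i) (g u) = 0) (uj : B (e j) (g u) = 0) (vi : B (e i) (g v) = 0) (vj : B (e j) (g v) = 0)
    (ux : B (e x) (g u) = 0) : B (e x) (g v) = 0 := by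
  by_contra vx
  have key : ∀ c, ∃ w, w ≠ 0 ∧ supp B e w ⊆ ({m, k, l} : Finset ι).erase c ∧ B (e i) (g w) = 0 ∧
      B (e j) (g w) = 0 := fun c => by
    by_cases h : B (e c) u = 0
    · exact ⟨u, u0, subset_erase.mpr ⟨hu, by simp [h]⟩, ui, uj⟩
    refine ⟨B (e c) v • u + (-B (e c) u) • v, fun h0 => by
      simpa [ux, vx, h] using congrArg (fun y => B (e x) (g y)) h0, subset_erase.mpr ⟨(supp_add _ _ _).trans
        (union_subset ((supp_smul _ _ _).trans hu) ((supp_smul _ _ _).trans hv)), by simp [mul_comm]⟩,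
      by simp [ui, vi], by simp [uj, vj]⟩
  obtain ⟨a, a0, a1, a2, a3⟩ := key m
  obtain ⟨b, b0, b1, b2, b3⟩ := key k
  exact S.no_pair7 hσ hn hB hg hg' hmk hml hkl a0 b0 (a1.trans fun y hy => by
    simp only [mem_erase, mem_insert, mem_singleton] at hy ⊢; tauto) (b1.trans fun y hy => by
    simp only [mem_erase, mem_insert, mem_singleton] at hy ⊢; tauto) hij a2 a3 b2 b3

omit hg hg' in
theorem le_mono7 : K ≤ decStab fun i => F ∙ e i := fun g hg => by
  by_contra hg'
  obtain ⟨T, -, hT⟩ := exists_subset_card_eq (s := (univ : Finset ι)) (n := 3)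
    (by rw [card_univ]; omega)
  have h1 := S.exists_zero7 hσ hn hB hg hT
  obtain ⟨m, k, l, hmk, hml, hkl, rfl⟩ := card_eq_three.mp hT
  obtain ⟨u, u0, u1, u2, u3⟩ := h1 k l
  have u4 := (card_le_card u1).trans card_le_three
  obtain ⟨u5, u6⟩ := S.wt7 hσ hn hB hg hg' u0 u4 hkl u2 u3
  obtain ⟨x, hx, y, hy, hxy⟩ := one_lt_card.mp (show 1 < (supp B e (g u)).card by omega)
  have key : ∀ c, B (e c) (g u) = 0 → ∃ v, v ≠ 0 ∧ supp B e v ⊆ {m, k, l} ∧ B (e c) (g v) = 0 ∧
      B (e x) (g v) = 0 ∧ B (e y) (g v) = 0 := fun c hc => by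
    obtain ⟨v, v0, v1, v2, v3⟩ := h1 c x
    refine ⟨v, v0, v1, v2, v3, by_contra fun h => ?_⟩
    have v4 := (card_le_card v1).trans card_le_three
    have v5 := (S.wt7 hσ hn hB hg hg' v0 v4 (by rintro rfl; exact mem_supp.mp hx hc) v2 v3).2
    have h2 := card_union_add_card_inter (supp B e (g u)) (supp B e (g v))
    have h3 := card_pos.mpr ⟨y, mem_inter.mpr ⟨hy, mem_supp.mpr h⟩⟩
    obtain ⟨i, hi, j, hj, hij⟩ := one_lt_card.mp
      (show 1 < (supp B e (g u) ∪ supp B e (g v))ᶜ.card by rw [card_compl]; omega)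
    simp only [mem_compl, mem_union, mem_supp, not_or, not_not] at hi hj
    exact mem_supp.mp hx (S.line7 hσ hn hB hg hg' hmk hml hkl v0 v1 u1 hij hi.2 hj.2 hi.1 hj.1 v3)
  obtain ⟨v, v0, v1, v2, v3, v4⟩ := key k u2
  obtain ⟨w, w0, w1, w2, w3, w4⟩ := key l u3
  exact mem_supp.mp hx (S.line7 hσ hn hB hg hg' hmk hml hkl v0 v1 u1 hkl v2
    (S.line7 hσ hn hB hg hg' hmk hml hkl w0 w1 v1 hxy w3 w4 v3 v4 w2) u2 u3 v3)

omit hB hg hg' in
theorem max_frame7 : K ≤ decStab (fun i => F ∙ e i) ∨ SUG B ≤ K := by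
  by_cases hB : ∀ g ∈ K, ∀ i, g (e i) ∈ F ∙ e i → g ∈ decStab fun i => F ∙ e i
  · exact Or.inl (S.le_mono7 hσ hn hB)
  · push Not at hB
    obtain ⟨g, hg, i, h1, h2⟩ := hB
    exact Or.inr (S.SUG_le_of_fix' hσ (by omega) hg h2 h1)

end FrameStr

theorem IsBar.isMaximalIn_frame7 (hσ : IsBar q σ) {n t : ℕ} (hn : n = 7)
    {D : Fin t → Submodule F (Fin n → F)}
    (hD : Geo.IsNondegenerateMDecomposition (hermForm n F q) 1 D) :
    Geo.IsMaximalIn (GU n F q ⊓ Geo.specialLinear (Fin n) F)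
      (Geo.decompositionStabilizer D ⊓ (GU n F q ⊓ Geo.specialLinear (Fin n) F)) := by
  have := hσ.finite
  have h := hσ.isHerm (ι := Fin n)
  have S := hσ.decStr hD
  have h1 := S.finrank_eq hD.decomp.indep
  simp only [finrank_fintype_fun_eq_card, Fintype.card_fin] at h1
  have h2 : ∀ i, ∃ e, D i = F ∙ e ∧ stdForm σ (Fin n) e e = 1 := fun i => by
    obtain ⟨e, he⟩ := (h.restrict (S.nondeg i)).exists_orthonormal 1 (by rw [S.dim])
    have he' : stdForm σ (Fin n) (e 0) (e 0) = 1 := he 0 0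
    exact ⟨e 0, (Submodule.eq_of_le_of_finrank_eq
      ((Submodule.span_singleton_le_iff_mem _ _).mpr (e 0).2)
      (by rw [S.dim, finrank_span_singleton (by rintro h0; simp [h0] at he')])).symm, he'⟩
  choose e he he' using h2
  obtain rfl : D = fun i => F ∙ e i := funext he
  have hon : ∀ i j, stdForm σ (Fin n) (e i) (e j) = if i = j then 1 else 0 := fun i j => by
    split_ifs with hij
    · rw [hij, he']
    · exact S.orth' hij (Submodule.mem_span_singleton_self _) (Submodule.mem_span_singleton_self _)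
  have hS : ∀ K, K ≤ SUG (stdForm σ (Fin n)) → decStab (fun i => F ∙ e i) ⊓ SUG _ ≤ K →
      FrameStr (stdForm σ (Fin n)) e K := fun K h1 h2 => ⟨h, hon, fun v hv => h.nondeg_right _
    fun u => by
      obtain ⟨y, y1, -, rfl⟩ := S.exists_comp h u
      rw [map_sum, LinearMap.sum_apply]
      exact sum_eq_zero fun i _ => by
        obtain ⟨c, hc⟩ := Submodule.mem_span_singleton.mp (y1 i)
        simp [← hc, LinearMap.map_smulₛₗ, hv], h1, h2⟩
  refine hσ.isMaximalIn_of (fun g _ => mem_decompositionStabilizer_iff g) ?_ fun K hH hK =>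
    (hS K hK hH).max_frame7 hσ (by simp; omega)
  obtain ⟨θ, hθ⟩ := h.exists_norm_eq (μ := -1) (by simp)
  have hθ0 : θ ≠ 0 := by rintro rfl; simp at hθ
  let a : Fin t := ⟨0, by omega⟩
  let b : Fin t := ⟨1, by omega⟩
  let c : Fin t := ⟨2, by omega⟩
  have h4 : ∀ j, e a + e b + θ • e c ∉ F ∙ e j := fun j hm => by
    have := (hS _ le_rfl inf_le_right).mem_span_singleton_iff.mp hm
    have h5 := @this a (by simp [hon, a, b, c])
    have h6 := @this b (by simp [hon, a, b, c])
    simp only [mem_singleton] at h5 h6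
    simp [a, b, ← h5] at h6
  exact h.not_SUG_le_decStab (by simp; omega) (Submodule.mem_span_singleton_self (e a))
    ((hS _ le_rfl inf_le_right).ne_zero a) (v := e a + e b + θ • e c)
    (fun h0 => h4 a (h0 ▸ zero_mem _))
    (by simp [LinearMap.map_smulₛₗ, hon, a, b, c, mul_comm (σ θ), hθ]) h4

end Cfsg.Lib.Unitary
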