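import Cfsg.Agent.Lib.Unitary.SixC

/-!
# The stabiliser of an orthonormal frame is maximal in `SU_n(q)`, `n ≥ 8`
-/

set_option autoImplicit false

namespace Cfsg.Lib.Unitary

open Module Finset

variable {F V : Type*} [Field F] [AddCommGroup V] [Module F V] {σ : F →+* F}
  {B : V →ₛₗ[σ] V →ₗ[F] F} {q : ℕ} {ι : Type*} [Fintype ι] [DecidableEq ι]

namespace FrameStr

variable {e : ι → V} {K : Subgroup (V ≃ₗ[F] V)} (S : FrameStr B e K) [FiniteDimensional F V]
  (hσ : IsBar q σ) (hn : 8 ≤ Fintype.card ι)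
  (hB : ∀ g ∈ K, ∀ i, g (e i) ∈ F ∙ e i → g ∈ decStab fun i => F ∙ e i)
include S hσ hB hn

theorem card_supp8 {g : V ≃ₗ[F] V} (hg : g ∈ K) (hg' : g ∉ decStab fun i => F ∙ e i) (j : ι) :
    Fintype.card ι ≤ (supp B e (g (e j))).card + 1 := by
  by_contra hlt
  obtain ⟨k, hk, l, hl, hkl⟩ := one_lt_card.mp (show 1 < (supp B e (g (e j)))ᶜ.card by
    rw [card_compl]; omega)
  simp only [mem_compl, mem_supp, not_not] at hk hl
  have h1 := (S.supp_of_zero hσ hB (inv_mem hg) (by simpa using hg') hkl (j := j)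
    (by simpa using hk) (by simpa using hl)).1
  let Z := (supp B e (g⁻¹ (e k)))ᶜ
  have hZ : 4 ≤ Z.card := by rw [card_compl]; omega
  have h2 : ∀ a ∈ Z, ∀ b ∈ Z, a ≠ b → (supp B e (g (e a))).card ≤ 3 ∧
      supp B e (g (e a)) ⊆ supp B e (g (e b)) := fun a ha b hb hab =>
    S.supp_of_zero hσ hB hg hg' hab (j := k) (by simpa [Z] using ha) (by simpa [Z] using hb)
  obtain ⟨a, ha, b, hb, hab⟩ := one_lt_card.mp (show 1 < Z.card by omega)
  have h3 : (Submodule.span F (e '' Z)).map (g : V →ₗ[F] V) ≤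
      Submodule.span F (e '' supp B e (g (e a))) := by
    rw [Submodule.map_span, Submodule.span_le]
    rintro _ ⟨_, ⟨c, hc, rfl⟩, rfl⟩
    by_cases h : c = a
    · exact S.mem_span_iff.mpr (by simp [h])
    · exact S.mem_span_iff.mpr (h2 c hc a ha h).2
  have h4 := Submodule.finrank_mono h3
  rw [LinearEquiv.finrank_map_eq, S.finrank_span, S.finrank_span] at h4
  have := (h2 a ha b hb hab).1
  omega

theorem mem_of_isBi8 {g x : V ≃ₗ[F] V} (hg : g ∈ K) {k : ι} {b : V} {l : F}
    (hx : IsBi B (g (e k)) b l x) (hl : σ l ≠ l) (hl1 : l * σ l = 1)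
    (hM : x ∈ decStab fun i => F ∙ e i) : g ∈ decStab fun i => F ∙ e i := by
  by_contra hg'
  have := S.card_supp8 hσ hn hB hg hg' k
  have := S.card_supp_of_isBi hx hl hl1 hM
  omega

theorem card_supp_eq8 {g : V ≃ₗ[F] V} (hg : g ∈ K) {v : V} (hv : (supp B e v).card ≤ 3) {i j : ι}
    (hij : i ≠ j) (hi : B (e i) (g v) = 0) (hj : B (e j) (g v) = 0) :
    (supp B e (g v)).card = (supp B e v).card := by
  obtain ⟨k, hk, l, hl, hkl⟩ := one_lt_card.mp (show 1 < (supp B e v)ᶜ.card by
    rw [card_compl]; omega)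
  simp only [mem_compl, mem_supp, not_not] at hk hl
  have := hσ.finite
  have : Finite V := Module.finite_of_finite F
  have : Finite (V ≃ₗ[F] V) := DFunLike.finite _
  obtain ⟨μ, p, r, hp, h1, h2, h3⟩ := hσ.exists_norm_one_prime_pow
  obtain ⟨s, hs, e1⟩ := S.exists_diag_two hij h1
  obtain ⟨t, ht, e2⟩ := S.exists_diag_two hkl h1
  have e3 := e2.conj (S.leU hg)
  let W := Submodule.span F {e i, e j} ⊔ Submodule.span F {g (e k), g (e l)}
  have hW : ∀ {a b : V} {x}, IsBi B a b μ x → Submodule.span F {a, b} ≤ W →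
      x ∈ fixStab (perp B W) := fun hx h v hv => by
    rw [hx, mem_perp.mp hv _ (h (Submodule.subset_span (by simp))),
      mem_perp.mp hv _ (h (Submodule.subset_span (by simp)))]
    simp
  obtain ⟨y, ⟨hy, hy'⟩, h4⟩ := exists_conj_mem (H := K ⊓ fixStab (perp B W))
    (M := decStab fun i => F ∙ e i) hp ⟨hs, hW e1 le_sup_left⟩
    ⟨K.mul_mem (K.mul_mem hg ht) (K.inv_mem hg), hW e3 le_sup_right⟩
    (e1.pow_eq_one S.herm (S.self _) (S.self _) (by simp [S.on, hij]) h3)
    (e3.pow_eq_one S.herm ((S.leU hg _ _).trans (S.self _))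
      ((S.leU hg _ _).trans (S.self _)) ((S.leU hg _ _).trans (by simp [S.on, hkl])) h3)
    (S.mem_mono (S.leU hs) fun m => ⟨m, by
      rw [e1]
      by_cases a1 : i = m
      · subst a1
        simp [S.on, hij.symm, Submodule.add_mem, Submodule.smul_mem]
      · by_cases a2 : j = m
        · subst a2
          simp [S.on, hij, Submodule.add_mem, Submodule.smul_mem]
        · simp [S.on, a1, a2]⟩)
    fun y hy h => S.mem_of_isBi8 hσ hn hB hy.1 (e1.conj (S.leU hy.1)) h2 h1 h
  rw [← S.card_supp_mono (S.leU (K.mul_mem hy hg)) (S.mem_of_isBi8 hσ hn hB (K.mul_mem hy hg)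
    (k := k) (e3.conj (S.leU hy)) h2 h1 h4) v, LinearEquiv.mul_apply, hy' (g v) (by
      rw [perp_sup]
      exact ⟨mem_perp_span.mpr (by simp [hi, hj]), mem_perp_span.mpr (by
        simp [S.leU hg _ _, hk, hl])⟩)]

theorem eq_zero_of_small8 {g : V ≃ₗ[F] V} (hg : g ∈ K) (hg' : g ∉ decStab fun i => F ∙ e i)
    {j : ι} {c : F} (h : (supp B e (g (c • e j))).card ≤ 4) : c = 0 := by
  by_contra hc
  have h1 := S.card_supp8 hσ hn hB hg hg' j
  have h2 := card_le_card (show supp B e (g (e j)) ⊆ supp B e (g (c • e j)) from fun i hi => by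
    simpa [hc] using hi)
  omega

/-- Two coordinates which do not vanish together with another one on a plane `⟨e k, e l⟩`. -/
theorem exists_lonely {g : V ≃ₗ[F] V} (hg : g ∈ K) (hg' : g ∉ decStab fun i => F ∙ e i) {k l : ι}
    (hkl : k ≠ l) : ∃ a b, a ≠ b ∧ ∀ x, x = a ∨ x = b → ∀ y, y ≠ x → ∀ v, supp B e v ⊆ {k, l} →
      B (e x) (g v) = 0 → B (e y) (g v) = 0 → v = 0 := by
  have h1 : ∀ x y, y ≠ x → ∀ v, supp B e v ⊆ {k, l} → B (e x) (g v) = 0 → B (e y) (g v) = 0 →
      (supp B e (g v)).card = (supp B e v).card := fun x y h v hv h1 h2 =>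
    S.card_supp_eq8 hσ hn hB hg (((card_le_card hv).trans card_le_two).trans (by omega)) h h2 h1
  by_cases h : ∀ x y, y ≠ x → ∀ v, supp B e v ⊆ {k, l} → B (e x) (g v) = 0 → B (e y) (g v) = 0 →
      v = 0
  · exact ⟨k, l, hkl, fun x _ => h x⟩
  push Not at h
  obtain ⟨x, y, hxy, v, hv, h2, h3, h0⟩ := h
  have h4 := h1 x y hxy v hv h2 h3
  have h5 := (card_le_card hv).trans card_le_two
  obtain ⟨a, b, hab, h6⟩ := card_eq_two.mp (show (supp B e (g v)).card = 2 by
    by_contra hne
    have : Nonempty ι := ⟨k⟩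
    obtain ⟨i, hi⟩ := card_le_one_iff_subset_singleton.mp (show (supp B e v).card ≤ 1 by omega)
    obtain ⟨c, rfl⟩ := Submodule.mem_span_singleton.mp (S.mem_span_singleton_iff.mpr hi)
    exact h0 (by simp [S.eq_zero_of_small8 hσ hn hB hg hg' (j := i) (c := c) (by omega)]))
  refine ⟨a, b, hab, fun x' hx' y' hy' v' hv' h7 h8 => ?_⟩
  have h9 : B (e x') (g v) ≠ 0 := mem_supp.mp (by rw [h6]; simpa using hx')
  have h10 := h1 x' y' hy' v' hv' h7 h8
  have h11 := (card_le_card hv').trans card_le_two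
  have key : ∀ {c d : ι}, c ≠ d → supp B e v ⊆ {c, d} → supp B e v' ⊆ {c, d} →
      B (e d) v * B (e c) v' - B (e d) v' * B (e c) v = 0 := fun {c d} hcd a1 a2 =>
    S.eq_zero_of_small8 hσ hn hB hg hg' (j := c) (by
      rw [show (B (e d) v * B (e c) v' - B (e d) v' * B (e c) v) • e c =
        B (e d) v • v' + (-B (e d) v') • v by
          conv_rhs => rw [S.eq_pair hcd a1, S.eq_pair hcd a2]
          simp only [map_add, map_smul, S.on, hcd.symm, if_true, if_false, smul_eq_mul]
          (module), map_add, map_smul, map_smul]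
      exact (card_le_card (supp_add _ _ _)).trans ((card_union_le _ _).trans (add_le_add (b := 2)
        (d := 2) ((card_le_card (supp_smul _ _ _)).trans (by omega))
        ((card_le_card (supp_smul _ _ _)).trans (by omega)))))
  have h12 := key hkl hv hv'
  have h13 : ∀ c, c = k ∨ c = l → B (e c) v' • v = B (e c) v • v' := fun c hc => S.ext fun i => by
    simp only [map_smul, smul_eq_mul]
    by_cases a1 : i = c
    · rw [a1, mul_comm]
    by_cases a2 : i ∈ ({k, l} : Finset ι)
    · simp only [mem_insert, mem_singleton] at a2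
      rcases hc with rfl | rfl <;> rcases a2 with rfl | rfl <;>
        first | exact absurd rfl a1 | linear_combination h12 | linear_combination -h12
    · rw [not_not.mp (mem_supp.not.mp fun h => a2 (hv h)),
        not_not.mp (mem_supp.not.mp fun h => a2 (hv' h)), mul_zero, mul_zero]
  have h14 : ∀ c, c = k ∨ c = l → B (e c) v' = 0 := fun c hc => by
    simpa [h7, h9] using congrArg (fun z => B (e x') (g z)) (h13 c hc)
  rw [S.eq_pair hkl hv', h14 k (Or.inl rfl), h14 l (Or.inr rfl)]
  simp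

theorem le_mono8 : K ≤ decStab fun i => F ∙ e i := fun g hg => by
  by_contra hg'
  obtain ⟨T, -, hT⟩ := exists_subset_card_eq (s := (univ : Finset ι)) (n := 3)
    (by rw [card_univ]; omega)
  obtain ⟨m, k, l, hmk, hml, hkl, rfl⟩ := card_eq_three.mp hT
  obtain ⟨a, b, hab, hL⟩ := S.exists_lonely hσ hn hB hg hg' hkl
  have h1 : ∀ i j, i ≠ j → ∃ v, v ≠ 0 ∧ supp B e v ⊆ {m, k, l} ∧ B (e i) (g v) = 0 ∧
      B (e j) (g v) = 0 ∧ (supp B e (g v)).card ≤ 3 ∧ ∃ x, B (e x) (g v) ≠ 0 := fun i j hij => by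
    have h1 := finrank_le_finrank_inf_perp S.herm (Submodule.span F (e '' ({m, k, l} : Finset ι)))
      (Submodule.span F {g⁻¹ (e i), g⁻¹ (e j)})
    have h2 := finrank_span_pair_le (F := F) (g⁻¹ (e i)) (g⁻¹ (e j))
    rw [S.finrank_span, hT] at h1
    obtain ⟨v, hv, hv0⟩ := exists_notMem_of_lt (W := Submodule.span F (e '' ({m, k, l} : Finset ι))
      ⊓ perp B (Submodule.span F {g⁻¹ (e i), g⁻¹ (e j)})) (Z := ⊥) (by
        simp only [finrank_bot]; omega)
    have h3 := S.mem_span_iff.mp hv.1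
    have h4 := (card_le_card h3).trans hT.le
    have h5 := (UG_apply_right (S.leU hg) _ _).trans (mem_perp_span.mp hv.2 (g⁻¹ (e i)) (by simp))
    have h6 := (UG_apply_right (S.leU hg) _ _).trans (mem_perp_span.mp hv.2 (g⁻¹ (e j)) (by simp))
    refine ⟨v, hv0, h3, h5, h6, (S.card_supp_eq8 hσ hn hB hg h4 hij h5 h6).trans_le h4, ?_⟩
    by_contra! h7
    exact hv0 (g.map_eq_zero_iff.mp (S.top _ h7))
  obtain ⟨v₁, -, a1, -, -, c1, x, hx⟩ := h1 k l hkl
  obtain ⟨x', hx'⟩ := Fintype.exists_ne_of_one_lt_card (show 1 < Fintype.card ι by omega) x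
  obtain ⟨v₂, -, a2, b2, -, c2, y, hy⟩ := h1 x x' hx'.symm
  obtain ⟨v₃, h0, a3, b3, b3', c3, -⟩ := h1 x y (by rintro rfl; exact hy b2)
  have hI : LinearIndependent F ![v₁, v₂, v₃] := by
    rw [Fintype.linearIndependent_iff]
    intro c hc
    rw [Fin.sum_univ_three] at hc
    have e1 : c 0 = 0 := by simpa [b2, b3, hx] using congrArg (fun z => B (e x) (g z)) hc
    have e2 : c 1 = 0 := by simpa [e1, b3', hy] using congrArg (fun z => B (e y) (g z)) hc
    have e3 : c 2 = 0 := by simpa [e1, e2, h0] using hc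
    intro i
    fin_cases i <;> assumption
  have hv : ∀ r, supp B e (![v₁, v₂, v₃] r) ⊆ {m, k, l} := fun r => by fin_cases r <;> assumption
  have hc : ∀ r, (supp B e (g (![v₁, v₂, v₃] r))).card ≤ 3 := fun r => by fin_cases r <;> assumption
  generalize ![v₁, v₂, v₃] = v at hI hv hc
  have h2 : ∀ z, ∃ r, z ∈ supp B e (g (v r)) := fun z => by
    by_contra! h2
    simp only [mem_supp, not_not] at h2
    have h3 : Submodule.span F (Set.range v) = Submodule.span F (e '' ({m, k, l} : Finset ι)) :=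
      Submodule.eq_of_le_of_finrank_eq (Submodule.span_le.mpr (by
        rintro _ ⟨r, rfl⟩; exact S.mem_span_iff.mpr (hv r)))
        (by rw [finrank_span_eq_card hI, S.finrank_span, hT, Fintype.card_fin])
    have h4 : Submodule.span F (Set.range v) ≤ LinearMap.ker (B (e z) ∘ₗ (g : V →ₗ[F] V)) :=
      Submodule.span_le.mpr (by rintro _ ⟨r, rfl⟩; exact h2 r)
    have h5 : ∀ i ∈ ({m, k, l} : Finset ι), B (e z) (g (e i)) = 0 := fun i hi =>
      h4 (h3.ge (Submodule.subset_span ⟨i, hi, rfl⟩))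
    have h6 := S.card_supp8 hσ hn hB (inv_mem hg) (by simpa using hg') z
    have h7 := card_le_card (show supp B e (g⁻¹ (e z)) ⊆ {m, k, l}ᶜ from fun i hi => by
      refine mem_compl.mpr fun h => mem_supp.mp hi ?_
      rw [← UG_apply_left (S.leU hg)]
      exact S.herm.eq_zero_comm.mp (h5 i h))
    rw [card_compl, hT] at h7
    omega
  have h3 : ∀ r s, r ≠ s → ∀ z, z = a ∨ z = b → z ∈ supp B e (g (v r)) ∪ supp B e (g (v s)) :=
    fun r s hrs z hz => by
      by_contra h3
      obtain ⟨z', h4, h5⟩ := exists_mem_notMem_of_card_lt_card (s := {z})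
        (t := (supp B e (g (v r)) ∪ supp B e (g (v s)))ᶜ) (by
          have := card_union_le (supp B e (g (v r))) (supp B e (g (v s)))
          have := hc r
          have := hc s
          rw [card_compl, card_singleton]; omega)
      simp only [mem_compl, mem_union, mem_supp, not_or, not_not, mem_singleton] at h3 h4 h5
      have h6 : ∀ c d : F, c * B (e m) (v r) + d * B (e m) (v s) = 0 → c = 0 ∧ d = 0 :=
        fun c d h => by
          have h6 : c • v r + d • v s = 0 := hL z hz z' h5 _ (fun i hi => by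
            have h6 := union_subset ((supp_smul e c _).trans (hv r)) ((supp_smul e d _).trans (hv s))
              (supp_add e _ _ hi)
            refine (mem_insert.mp h6).resolve_left ?_
            rintro rfl
            exact mem_supp.mp hi (by simpa using h)) (by simp [h3]) (by simp [h4])
          have h7 := hI.comp ![r, s] (by
            intro i j hij
            fin_cases i <;> fin_cases j <;> simp_all)
          rw [show v ∘ ![r, s] = ![v r, v s] from funext fun i => by fin_cases i <;> rfl] at h7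
          exact LinearIndependent.pair_iff.mp h7 c d h6
      have h7 := h6 (B (e m) (v s)) (-B (e m) (v r)) (by ring)
      simpa using (h6 1 0 (by simpa using h7.2)).1
  have h4 : ∀ z, z = a ∨ z = b → 2 ≤ (univ.filter fun r => z ∈ supp B e (g (v r))).card :=
    fun z hz => by
      obtain ⟨r, hr⟩ := h2 z
      have := h3 (r + 1) (r + 2) (by simp) z hz
      rw [mem_union] at this
      refine one_lt_card.mpr ?_
      rcases this with h | h
      · exact ⟨r, by simpa using hr, r + 1, by simpa using h, by simp⟩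
      · exact ⟨r, by simpa using hr, r + 2, by simpa using h, by fin_cases r <;> simp⟩
  have h5 := sum_card_bipartiteAbove_eq_sum_card_bipartiteBelow (s := (univ : Finset ι))
    (t := (univ : Finset (Fin 3))) fun z r => z ∈ supp B e (g (v r))
  have h6 : ∑ r : Fin 3, (bipartiteBelow (fun z r => z ∈ supp B e (g (v r))) univ r).card ≤ 9 :=
    (sum_le_card_nsmul _ _ 3 fun r _ => by simpa [bipartiteBelow] using hc r).trans (by simp)
  have h7 : ∑ z : ι, (1 + if z ∈ ({a, b} : Finset ι) then 1 else 0) ≤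
      ∑ z, (bipartiteAbove (fun z r => z ∈ supp B e (g (v r))) univ z).card :=
    sum_le_sum fun z _ => by
      split_ifs with h
      · exact h4 z (by simpa using h)
      · obtain ⟨r, hr⟩ := h2 z
        exact card_pos.mpr ⟨r, by simpa [bipartiteAbove] using hr⟩
  rw [sum_add_distrib, sum_ite_mem, univ_inter, sum_const, sum_const, card_pair hab, card_univ] at h7
  have h8 := (h7.trans h5.le).trans h6
  simp only [smul_eq_mul] at h8
  omega

omit hB in
theorem max_frame8 : K ≤ decStab (fun i => F ∙ e i) ∨ SUG B ≤ K := by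
  by_cases hB : ∀ g ∈ K, ∀ i, g (e i) ∈ F ∙ e i → g ∈ decStab fun i => F ∙ e i
  · exact Or.inl (S.le_mono8 hσ hn hB)
  · push Not at hB
    obtain ⟨g, hg, i, h1, h2⟩ := hB
    exact Or.inr (S.SUG_le_of_fix hσ hn hg h2 h1)

end FrameStr

theorem IsBar.isMaximalIn_frame8 (hσ : IsBar q σ) {n t : ℕ} (hn : 8 ≤ n)
    {D : Fin t → Submodule F (Fin n → F)}
    (hD : Geo.IsNondegenerateMDecomposition (hermForm n F q) 1 D) :
    Geo.IsMaximalIn (GU n F q ⊓ Geo.specialLinear (Fin n) F)
      (Geo.decompositionStabilizer D ⊓ (GU n F q ⊓ Geo.specialLinear (Fin n) F)) := by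
  have := hσ.finite
  have h := hσ.isHerm (ι := Fin n)
  have S := hσ.decStr hD
  have h1 := S.finrank_eq hD.decomp.indep
  simp only [finrank_fintype_fun_eq_card, Fintype.card_fin] at h1
  have h2 : ∀ i, ∃ e, D i = F ∙ e ∧ stdForm σ (Fin n) e e = 1 := fun i => by
    obtain ⟨e, he⟩ := (h.restrict (S.nondeg i)).exists_orthonormal 1 (by rw [S.dim])
    have he' : stdForm σ (Fin n) (e 0) (e 0) = 1 := he 0 0
    exact ⟨e 0, (Submodule.eq_of_le_of_finrank_eq
      ((Submodule.span_singleton_le_iff_mem _ _).mpr (e 0).2)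
      (by rw [S.dim, finrank_span_singleton (by rintro h0; simp [h0] at he')])).symm, he'⟩
  choose e he he' using h2
  obtain rfl : D = fun i => F ∙ e i := funext he
  have hon : ∀ i j, stdForm σ (Fin n) (e i) (e j) = if i = j then 1 else 0 := fun i j => by
    split_ifs with hij
    · rw [hij, he']
    · exact S.orth' hij (Submodule.mem_span_singleton_self _) (Submodule.mem_span_singleton_self _)
  have hS : ∀ K, K ≤ SUG (stdForm σ (Fin n)) → decStab (fun i => F ∙ e i) ⊓ SUG _ ≤ K →
      FrameStr (stdForm σ (Fin n)) e K := fun K h1 h2 => ⟨h, hon, fun v hv => h.nondeg_right _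
    fun u => by
      obtain ⟨y, y1, -, rfl⟩ := S.exists_comp h u
      rw [map_sum, LinearMap.sum_apply]
      exact sum_eq_zero fun i _ => by
        obtain ⟨c, hc⟩ := Submodule.mem_span_singleton.mp (y1 i)
        simp [← hc, LinearMap.map_smulₛₗ, hv], h1, h2⟩
  refine hσ.isMaximalIn_of (fun g _ => mem_decompositionStabilizer_iff g) ?_ fun K hH hK =>
    (hS K hK hH).max_frame8 hσ (by simp; omega)
  obtain ⟨θ, hθ⟩ := h.exists_norm_eq (μ := -1) (by simp)
  have hθ0 : θ ≠ 0 := by rintro rfl; simp at hθ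
  let a : Fin t := ⟨0, by omega⟩
  let b : Fin t := ⟨1, by omega⟩
  let c : Fin t := ⟨2, by omega⟩
  have h4 : ∀ j, e a + e b + θ • e c ∉ F ∙ e j := fun j hm => by
    have := (hS _ le_rfl inf_le_right).mem_span_singleton_iff.mp hm
    have h5 := @this a (by simp [hon, a, b, c])
    have h6 := @this b (by simp [hon, a, b, c])
    simp only [mem_singleton] at h5 h6
    simp [a, b, ← h5] at h6
  exact h.not_SUG_le_decStab (by simp; omega) (Submodule.mem_span_singleton_self (e a))
    ((hS _ le_rfl inf_le_right).ne_zero a) (v := e a + e b + θ • e c)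
    (fun h0 => h4 a (h0 ▸ zero_mem _))
    (by simp [LinearMap.map_smulₛₗ, hon, a, b, c, mul_comm (σ θ), hθ]) h4

end Cfsg.Lib.Unitary
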