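import Cfsg.Agent.Lib.Unitary.MaxSubStd

/-!
# Subfield subgroups of `SU_n(q)` in small dimension: the common steps
-/

set_option autoImplicit false

namespace Cfsg.Lib.Unitary

open Module

variable {F V : Type*} [Field F] [AddCommGroup V] [Module F V] {σ : F →+* F}
  {B : V →ₛₗ[σ] V →ₗ[F] F} {q : ℕ}

namespace RatStr

variable {τ : F ≃+* F} {T : AddMonoid.End V} {ζ ε : F} (R : RatStr B τ T ζ ε) [Finite F]
  [FiniteDimensional F V] (h : IsHerm σ B) {K : Subgroup (V ≃ₗ[F] V)}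
include R h

omit [Finite F] [FiniteDimensional F V] h in
theorem inv_perp_one {e : V} (hTe : T e = e) : ∀ w ∈ perp B (F ∙ e), T w ∈ perp B (F ∙ e) :=
  R.inv_perp (R.inv_span (s := {e}) (by simpa using hTe))

omit [Finite F] [FiniteDimensional F V] h in
theorem inv_hypPerp {e f : V} (hTe : T e = e) (hTf : T f = f) :
    ∀ w ∈ hypPerp B e f, T w ∈ hypPerp B e f :=
  R.inv_perp (R.inv_span (s := {e, f}) (by simp [hTe, hTf]))

/-- A rational vector orthogonal to `e` but not to `x`. -/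
theorem exists_perp_ne {e x : V} (hTe : T e = e) (hx : x ∉ F ∙ e) :
    ∃ y, T y = y ∧ B e y = 0 ∧ B x y ≠ 0 := by
  obtain ⟨y, h1, h2, h3⟩ := R.exists_fixed_notMem (R.inv_perp_one hTe) (Z := perp B (F ∙ x))
    fun hle => hx (by
      rw [← h.perp_perp (F ∙ e)]
      exact h.le_perp_comm hle (Submodule.mem_span_singleton_self x))
  exact ⟨y, h2, mem_perp_singleton.1 h1, by rwa [mem_perp_singleton] at h3⟩

theorem exists_form_ne {x : V} (hx : x ≠ 0) : ∃ y, T y = y ∧ B x y ≠ 0 := by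
  obtain ⟨y, h1, -, h2⟩ := R.exists_perp_ne h (map_zero T) (x := x) (by simpa)
  exact ⟨y, h1, h2⟩

/-- A rational isotropic vector orthogonal to `x` but not to `e`. -/
theorem exists_iso_ne {e x : V} (hTe : T e = e) (he : B e e = 0) (hTx : T x = x) (hxe : B x e = 0)
    (hx : e ∉ F ∙ x) : ∃ f, T f = f ∧ B f f = 0 ∧ B x f = 0 ∧ B e f ≠ 0 := by
  obtain ⟨y, h1, h2, h3⟩ := R.exists_perp_ne h hTx hx
  obtain ⟨γ, h4, h5⟩ := R.exists_iso_add h hTe h1 he h3
  exact ⟨_, by rw [map_add, h1, R.fix_smul h4 hTe], h5, by simp [h2, hxe], by simpa [he]⟩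

theorem exists_partner' {e : V} (he0 : e ≠ 0) (hTe : T e = e) (he : B e e = 0) :
    ∃ f, T f = f ∧ B f f = 0 ∧ B e f ≠ 0 := by
  obtain ⟨f, h1, h2, -, h3⟩ := R.exists_iso_ne h hTe he (map_zero T) (by simp) (by simpa)
  exact ⟨f, h1, h2, h3⟩

omit h [FiniteDimensional F V] in
theorem exists_smul_fixed {v : V} (hv0 : v ≠ 0) (hv : T v ∈ F ∙ v) :
    ∃ c : F, c ≠ 0 ∧ T (c • v) = c • v := by
  obtain ⟨u, h1, h2, h3⟩ := R.exists_fixed_notMem (W := F ∙ v) (Z := ⊥)
    (R.inv_span' (by simpa)) (by simpa)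
  obtain ⟨c, rfl⟩ := Submodule.mem_span_singleton.1 h1
  exact ⟨c, by rintro rfl; simp at h3, h2⟩

omit [Finite F] in
theorem exists_map_of {p e e' : V} (hp : T p = p) (he : T e = e) (he' : T e' = e') (h1 : B p p = 0)
    (h2 : B e e = 0) (h3 : B e' e' = 0) (h4 : B p e ≠ 0) (h5 : B p e' ≠ 0) :
    ∃ g ∈ ratStab F T ⊓ SUG B, g e = (B p e / B p e') • e' := by
  have a1 := R.tau_form hp he
  have a2 := R.tau_form hp he'
  have a3 := R.tau_form he' he
  have a4 := R.eps_ne
  have a5 := R.zeta_ne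
  have a6 := R.eps_sq
  have a7 := (map_ne_zero σ).2 h4
  have a8 := (map_ne_zero σ).2 h5
  have a9 := (map_ne_zero σ).2 a5
  have b1 : B p (ζ • ((ζ * B p e')⁻¹ • e' - (ζ * B p e)⁻¹ • e)) = 0 := by
    simp only [map_smul, map_sub, smul_eq_mul]; field_simp; ring
  refine ⟨_, R.eichler_mem h hp (x := (ζ * B p e')⁻¹ • e' - (ζ * B p e)⁻¹ • e)
    (γ := B e' e / (σ (B p e') * B p e)) (by
      rw [map_sub, R.fix_smul (by rw [map_inv₀, R.tau_zeta_form hp he']) he',
        R.fix_smul (by rw [map_inv₀, R.tau_zeta_form hp he]) he]) (by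
      rw [map_div₀, map_mul, R.comm, a1, a2, a3, map_mul, R.map_eps]
      field_simp; linear_combination -a6 * B e' e) (he := h1) (hew := b1)
    (hwe := h.eq_zero_comm.1 b1) (by
      simp only [map_smul, map_sub, smul_eq_mul, LinearMap.map_smulₛₗ, LinearMap.sub_apply,
        LinearMap.smul_apply, h2, h3, map_div₀, map_mul, map_inv₀, h.invol, h.symm e' e]
      field_simp; ring), ?_⟩
  simp only [eichler_apply, map_smul, map_sub, smul_eq_mul, LinearMap.map_smulₛₗ,
    LinearMap.sub_apply, LinearMap.smul_apply, h2, map_mul, map_inv₀]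
  match_scalars <;> field_simp <;> ring

omit [Finite F] [FiniteDimensional F V] h in
theorem tau_div {p e e' : V} (hp : T p = p) (he : T e = e) (he' : T e' = e') :
    τ (B p e / B p e') = B p e / B p e' := by
  rw [map_div₀, R.tau_form hp he, R.tau_form hp he', mul_div_mul_left _ _ R.eps_ne]

omit h [FiniteDimensional F V] in
theorem exists_nonsing (h2 : (2 : F) ≠ 0) (hτ : ∀ a, τ a = σ a) (hε : ε = 1) {W : Submodule F V}
    (hW : ∀ w ∈ W, T w ∈ W) (hW' : ¬ W ≤ perp B W) (h : IsHerm σ B) :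
    ∃ z ∈ W, T z = z ∧ B z z ≠ 0 := by
  obtain ⟨x, a1, a2, a3⟩ := R.exists_fixed_notMem hW hW'
  obtain ⟨y, b1, b2, b3⟩ := R.exists_fixed_notMem hW (Z := perp B (F ∙ x)) fun hle =>
    a3 (h.le_perp_comm hle (Submodule.mem_span_singleton_self x))
  rw [mem_perp_singleton] at b3
  by_contra hcon
  push Not at hcon
  have c1 := hcon (x + y) (add_mem a1 b1) (by rw [map_add, a2, b2])
  have c2 := R.tau_form a2 b2
  rw [hτ, h.symm, hε, one_mul] at c2
  simp only [map_add, LinearMap.add_apply, hcon x a1 a2, hcon y b1 b2, c2] at c1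
  exact b3 (mul_left_cancel₀ h2 (by linear_combination c1))

variable (hn : 3 ≤ finrank F V)
  (hc : (∃ c, c ≠ 0 ∧ c + σ c = 0 ∧ τ c = ε * c) ∨ (2 : F) ≠ 0 ∧ (∀ a, τ a = σ a) ∧ ε = 1)
include hn

omit R [Finite F] in
theorem _root_.Cfsg.Lib.Unitary.IsHerm.not_hypPerp_le {e f : V} (he : B e e = 0)
    (hef : B e f ≠ 0) : ¬ hypPerp B e f ≤ perp B (hypPerp B e f) := fun hle => by
  have h1 : hypPerp B e f = hypPerp B e ((B e f)⁻¹ • f) := by
    ext w; simp only [mem_hypPerp]; simp [LinearMap.map_smulₛₗ, hef]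
  have h2 : B e ((B e f)⁻¹ • f) = 1 := by simp [hef]
  rw [h1] at hle
  have h3 := (h.disjoint_perp_perp (h.disjoint_hypPerp he h2)).eq_bot_of_le hle
  have h4 := h.finrank_hypPerp he h2
  rw [show hypPerp B e _ = ⊥ from h3, finrank_bot] at h4
  omega

include hc in
theorem exists_map {e e' : V} (he0 : e ≠ 0) (he0' : e' ≠ 0) (he : T e = e) (he' : T e' = e')
    (h2 : B e e = 0) (h3 : B e' e' = 0) :
    ∃ g ∈ ratStab F T ⊓ SUG B, ∃ a, a ≠ 0 ∧ τ a = a ∧ g e = a • e' := by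
  suffices ∃ p, T p = p ∧ B p p = 0 ∧ B e p ≠ 0 ∧ B e' p ≠ 0 by
    obtain ⟨p, a1, a2, a3, a4⟩ := this
    have a5 : B p e ≠ 0 := fun h0 => a3 (h.eq_zero_comm.1 h0)
    have a6 : B p e' ≠ 0 := fun h0 => a4 (h.eq_zero_comm.1 h0)
    obtain ⟨g, hg, e1⟩ := R.exists_map_of h a1 he he' a2 h2 h3 a5 a6
    exact ⟨g, hg, _, div_ne_zero a5 a6, R.tau_div a1 he he', e1⟩
  by_cases h4 : B e e' = 0
  · obtain ⟨y, b1, b2, b3⟩ : ∃ y, T y = y ∧ B e y ≠ 0 ∧ B e' y ≠ 0 := by
      obtain ⟨y, a1, a2⟩ := R.exists_form_ne h he0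
      obtain ⟨y', a3, a4⟩ := R.exists_form_ne h he0'
      by_cases c1 : B e' y = 0
      · by_cases c2 : B e y' = 0
        · exact ⟨y + y', by rw [map_add, a1, a3], by simpa [c2], by simpa [c1]⟩
        · exact ⟨y', a3, c2, a4⟩
      · exact ⟨y, a1, a2, c1⟩
    obtain ⟨γ, c1, c2⟩ := R.exists_iso_add h he b1 h2 b2
    exact ⟨_, by rw [map_add, b1, R.fix_smul c1 he], c2, by simpa [h2],
      by simpa [h.eq_zero_comm.1 h4]⟩
  obtain ⟨z, a1, a2, a3, g, hg, γ, a4, a5⟩ : ∃ z, T z = z ∧ B e z = 0 ∧ B e' z = 0 ∧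
      ∃ g ∈ ratStab F T ⊓ SUG B, ∃ γ, γ ≠ 0 ∧ IsEich B e (ζ • z) γ g := by
    rcases hc with ⟨c, c1, c2, c3⟩ | ⟨c1, c2, c3⟩
    · exact ⟨0, map_zero T, by simp, by simp, _, R.eichler_mem h he (map_zero T) c3 (he := h2)
        (hew := by simp) (hwe := by simp) (by simpa using c2), c, c1, isEich_eichler _ _ _ _ _ _⟩
    · obtain ⟨z, d1, d2, d3⟩ := R.exists_nonsing c1 c2 c3 (R.inv_hypPerp he he')
        (h.not_hypPerp_le hn h2 h4) h
      rw [mem_hypPerp] at d1
      obtain ⟨g, hg, γ, -, d4⟩ := R.exists_eichler_mem h he d2 h2 d1.1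
      refine ⟨z, d2, d1.1, d1.2, g, hg, γ, ?_, d4⟩
      rintro rfl
      simpa [LinearMap.map_smulₛₗ, R.zeta_ne, d3] using
        h.gamma_eq_of_isEich h2 he0 (by simp [d1.1]) hg.2.1 d4
  refine ⟨g e', ?_, (hg.2.1 _ _).trans h3, ?_, ?_⟩
  · rw [comm_of_mem_ratStab hg.1 he0 he (by
      rw [a5]; simp [h2, LinearMap.map_smulₛₗ, h.eq_zero_comm.1 a2]), he']
  · rw [a5]; simpa [a2, h2]
  · rw [a5]; simpa [a3, h3, LinearMap.map_smulₛₗ, h.eq_zero_comm.1 a3, a4, h4] using
      fun h0 => h4 (h.eq_zero_comm.1 h0)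

omit h hn [Finite F] [FiniteDimensional F V] in
theorem exists_theta' : ∃ θ, τ θ ≠ θ := by
  by_contra hne
  push Not at hne
  have h1 := R.prime
  rw [show τ = 1 from RingEquiv.ext hne, orderOf_one] at h1
  exact Nat.not_prime_one h1

theorem exists_iso_ne_zero : ∃ e, e ≠ 0 ∧ T e = e ∧ B e e = 0 := by
  obtain ⟨e, -, h1, h2, h3⟩ := R.exists_iso (W := ⊤) (Z := ⊥) (fun _ _ => trivial) (by simpa)
  exact ⟨e, h3, h1, h2⟩

theorem not_SUG_le' : ¬ SUG B ≤ ratStab F T := fun hle => by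
  obtain ⟨e, he0, hTe, he⟩ := R.exists_iso_ne_zero h hn
  obtain ⟨f, a1, a2, a3⟩ := R.exists_partner' h he0 hTe he
  obtain ⟨z, b1, b2, b3⟩ := R.exists_fixed_notMem (R.inv_hypPerp hTe a1) (h.not_hypPerp_le hn he a3)
  rw [mem_hypPerp] at b1
  obtain ⟨θ, hθ⟩ := R.exists_theta'
  obtain ⟨γ, hγ⟩ := h.exists_add_smul_isotropic (v := f + θ • z) he (by simpa [b1.1])
  have c0 : B e (f + θ • z + γ • e) = B e f := by simp [b1.1, he]
  obtain ⟨g, hg, e1⟩ := h.exists_SUG_vec hn he0 (fun h0 => a3 (by rw [← c0, h0, map_zero]))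
    (he.trans hγ.symm)
  obtain ⟨d, -, hd⟩ := hle hg
  have c1 := hd e
  rw [hTe, e1, map_add, map_add, a1, R.smul, R.smul, b2, hTe] at c1
  have c2 : d = 1 := by simpa [b1.1, he, a3, eq_comm] using congrArg (B e) c1
  have c3 : τ γ = γ := by
    simpa [c2, a2, b1.2, show B f e ≠ 0 from fun h0 => a3 (h.eq_zero_comm.1 h0)] using
      congrArg (B f) c1
  rw [c2, c3, one_smul, add_left_inj, add_right_inj] at c1
  exact hθ (smul_left_injective F (by rintro rfl; simp at b3) c1)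

variable (hH : ratStab F T ⊓ SUG B ≤ K) (hK : K ≤ SUG B)
include hH hK

/-- The stabiliser of a rational isotropic point is rational. -/
theorem mem_ratStab_of_stab' {e : V} (hTe : T e = e) (he : B e e = 0) (he0 : e ≠ 0)
    (A1 : ∀ w ∈ h.AE K he, T w - ε • w ∈ F ∙ e)
    (A2 : ∀ c hc, transv B e c he hc ∈ K → τ c = ε * c) {m : V ≃ₗ[F] V} (hm : m ∈ K) {a : F}
    (hme : m e = a • e) : m ∈ ratStab F T := by
  obtain ⟨f₀, b1, b2, b3⟩ := R.exists_partner' h he0 hTe he
  have ha : a ≠ 0 := by rintro rfl; exact he0 (m.injective (by simpa using hme))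
  have ha' : σ a ≠ 0 := (map_ne_zero σ).mpr ha
  have ha'' : τ (σ a) ≠ 0 := (map_ne_zero τ).mpr ha'
  set f := (B e f₀)⁻¹ • f₀ with hfdef
  have hef : B e f = 1 := by simp [hfdef, b3]
  have hf : B f f = 0 := by simp [hfdef, LinearMap.map_smulₛₗ, b2]
  have hTf : T f = ε • f := by
    rw [hfdef, R.smul, b1, map_inv₀, R.tau_form hTe b1, smul_smul, mul_inv,
      inv_eq_of_mul_eq_one_right R.eps_sq]
  have hU : ∀ w ∈ hypPerp B e f, T w ∈ hypPerp B e f := R.inv_perp (R.inv_span' (by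
    simp only [Set.mem_insert_iff, Set.mem_singleton_iff, forall_eq_or_imp, forall_eq, hTe, hTf]
    exact ⟨Submodule.subset_span (by simp), Submodule.smul_mem _ _ (Submodule.subset_span (by simp))⟩))
  have hUe : ∀ w ∈ hypPerp B e f, w ∈ F ∙ e → w = 0 := fun w hw hw' => by
    obtain ⟨t, rfl⟩ := Submodule.mem_span_singleton.mp hw'
    have := (mem_hypPerp.mp hw).2
    rw [map_smul, ← h.symm, hef, map_one, smul_eq_mul, mul_one] at this
    rw [this, zero_smul]
  obtain ⟨y, hy, hyf⟩ := h.exists_QE_mul he hf hef (hK hm).1 hme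
  have hyS := h.QE_le_SUG he0 he hy
  have hl : y * m ∈ SUG B := mul_mem hyS (hK hm)
  have hle : (y * m) e = a • e := by rw [LinearEquiv.mul_apply, hme, map_smul, hy.2.1]
  have hlU : ∀ w ∈ hypPerp B e f, (y * m) w ∈ hypPerp B e f := fun w hw => by
    simpa using smul_apply_mem_hypPerp hl.1 ha (inv_ne_zero ha') hle hyf 1 ⟨w, hw⟩
  set d := σ a / τ (σ a) with hd
  let Z : Submodule F V :=
    { carrier := {v | T ((y * m) v) = d • (y * m) (T v)}
      add_mem' := fun {a b} ha hb => by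
        simp only [Set.mem_ofPred_eq, map_add, smul_add] at ha hb ⊢; rw [ha, hb]
      zero_mem' := by simp
      smul_mem' := fun c a ha => by
        simp only [Set.mem_ofPred_eq, map_smul, R.smul] at ha ⊢; rw [ha, smul_comm] }
  have hZ : hypPerp B e f ≤ Z := by
    by_contra hne
    obtain ⟨u, h1, h2, h3⟩ := R.exists_fixed_notMem hU hne
    refine h3 ?_
    have h4 := A1 _ (h.conj_mem_AE he
      (hK.trans SUG_le_UG) he hm ha hme (R.zeta_smul_mem_AE h hH he hTe h2 (mem_hypPerp.mp h1).1))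
    obtain ⟨t, ht⟩ := hy.2.2 (m u) (by
      have := (hK hm).1 e u
      rw [hme, (mem_hypPerp.mp h1).1] at this
      simpa [LinearMap.map_smulₛₗ, ha] using this)
    have h5 := hUe (T ((y * m) u) - d • (y * m) u) (sub_mem (hU _ (hlU u h1))
      (Submodule.smul_mem _ _ (hlU u h1))) (by
        have e1 : T ((y * m) u) - d • (y * m) u = (τ (σ a) * ε * ζ)⁻¹ •
            (T (σ a • m (ζ • u)) - ε • σ a • m (ζ • u)) + (τ t - d * t) • e := by
          have := R.zeta_ne
          have := R.eps_ne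
          simp only [LinearEquiv.mul_apply, ht, map_add, map_smul, R.smul, hTe, R.zeta, hd]
          match_scalars <;> field_simp
        rw [e1]
        exact add_mem (Submodule.smul_mem _ _ h4)
          (Submodule.smul_mem _ _ (Submodule.mem_span_singleton_self e)))
    change T _ = d • (y * m) (T u)
    rw [h2]
    exact sub_eq_zero.mp h5
  have hdd : d * σ d = 1 := by
    have h1 := h.finrank_hypPerp he hef
    obtain ⟨u, hu0⟩ := @exists_ne (hypPerp B e f)
      (Module.nontrivial_of_finrank_pos (R := F) (by omega)) 0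
    obtain ⟨v, hv⟩ := (h.isHerm_hypPerp he hef).exists_eq_one hu0
    have h2 := R.form ((y * m) u) ((y * m) v)
    rw [hZ u.2, hZ v.2, hl.1 u v] at h2
    simp only [map_smul, LinearMap.map_smulₛₗ, LinearMap.smul_apply, smul_eq_mul] at h2
    rw [hl.1, R.form, show B u v = 1 from hv, map_one, mul_one, ← mul_assoc] at h2
    exact mul_right_cancel₀ R.eps_ne (by rw [h2, one_mul])
  have hda : τ a = d * a := by
    rw [hd, map_div₀, h.invol, ← R.comm, h.invol] at hdd
    have : τ a ≠ 0 := (map_ne_zero τ).mpr ha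
    rw [hd]
    field_simp at hdd ⊢
    linear_combination -hdd
  have hlT : y * m ∈ ratStab F T := by
    refine ⟨d, div_ne_zero ha' ha'', fun v => ?_⟩
    obtain ⟨w, h1, h2, e1⟩ := h.hyp_decomp he hf hef v
    have h3 : e ∈ Z := by
      change T _ = d • (y * m) (T e)
      rw [hTe, hle, R.smul, hTe, hda, smul_smul]
    have h4 : f ∈ Z := by
      change T (y (m f)) = d • (y * m) (T f)
      rw [hTf, map_smul (y * m), LinearEquiv.mul_apply, hyf, R.smul, hTf, map_inv₀, hd]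
      match_scalars
      field_simp
    have : v ∈ Z := e1 ▸ add_mem (add_mem (hZ (mem_hypPerp.mpr ⟨h1, h2⟩)) (Z.smul_mem _ h3))
      (Z.smul_mem _ h4)
    exact this
  have hyK : y ∈ K := by simpa using mul_mem (hH ⟨hlT, hl⟩) (inv_mem hm)
  suffices hyT : y ∈ ratStab F T by simpa using mul_mem (inv_mem hyT) hlT
  obtain ⟨z, γ, hez, hze, hfz, hγ, rfl⟩ := h.exists_eichler_of_mem_QE he hf hef hy
  have hz : z ∈ hypPerp B e f := mem_hypPerp.mpr ⟨hez, hfz⟩
  have h1 := hUe _ (sub_mem (hU z hz) (Submodule.smul_mem _ ε hz))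
    (A1 _ (h.mem_AE_of_eichler he hyK))
  obtain ⟨x, rfl⟩ : ∃ x, z = ζ • x := ⟨ζ⁻¹ • z, by simp [R.zeta_ne]⟩
  have hTx : T x = x := by
    rw [R.smul, R.zeta, smul_smul, ← smul_sub, smul_eq_zero, sub_eq_zero] at h1
    exact h1.resolve_left (mul_ne_zero R.eps_ne R.zeta_ne)
  obtain ⟨g, hg, γ', hγ', e1⟩ := R.exists_eichler_mem h hTe hTx he
    (by simpa [R.zeta_ne] using hez)
  have h2 := h.gamma_eq_of_isEich he he0 hez hg.2.1 e1
  have h3 : transv B e (γ - γ') he (by rw [map_sub]; linear_combination hγ - h2) ∈ K := by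
    convert mul_mem (inv_mem (hH hg)) hyK using 1
    rw [eq_inv_mul_iff_mul_eq, e1.eq he hez hze, ← eichler_zero e _ he _ (by simp) (by simp),
      eichler_mul]
    exact eichler_congr rfl (by simp) (by simp)
  have h4 := A2 _ _ h3
  exact (R.eichler_mem h hTe hTx (by rw [map_sub, hγ'] at h4; linear_combination h4) hγ).1

omit hK in
include hc in
/-- An element of the overgroup sending one rational isotropic point to another is rational. -/
theorem mem_ratStab_of_map (hB : ∀ e, T e = e → B e e = 0 → e ≠ 0 → ∀ m ∈ K, ∀ a : F,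
      m e = a • e → m ∈ ratStab F T) (hK : K ≤ UG B) {e : V} (hTe : T e = e) (he : B e e = 0)
    (he0 : e ≠ 0) {g : V ≃ₗ[F] V} (hg : g ∈ K) (h1 : T (g e) ∈ F ∙ g e) : g ∈ ratStab F T := by
  have h0 : g e ≠ 0 := by simpa
  obtain ⟨c, hc0, h2⟩ := R.exists_smul_fixed h0 h1
  obtain ⟨k, hk, a, -, -, h3⟩ := R.exists_map h hn hc (smul_ne_zero hc0 h0) he0 h2 hTe
    (by simp [LinearMap.map_smulₛₗ, hK hg e e, he]) he
  have := hB e hTe he he0 _ (mul_mem (hH hk) hg) (c⁻¹ * a) (by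
    rw [LinearEquiv.mul_apply, mul_smul, ← h3, map_smul, inv_smul_smul₀ hc0])
  simpa using mul_mem (inv_mem (show k ∈ ratStab F T from hk.1)) this

omit hn hH hK in
/-- A non-rational Eichler direction pairs non-rationally with some rational vector. -/
theorem exists_tau_ne {e w : V} (hTe : T e = e) (hw : T w - ε • w ∉ F ∙ e) :
    ∃ u, T u = u ∧ B e u = 0 ∧ τ (B u w) ≠ B u w := by
  obtain ⟨u, a1, a2, a3⟩ := R.exists_perp_ne h hTe hw
  exact ⟨u, a1, a2, fun h0 => a3 (h.eq_zero_comm.mp (by rw [map_sub, R.form_right a1, h0]; simp))⟩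

omit hn hK [Finite F] in
theorem transv_mem {e : V} (hTe : T e = e) (he : B e e = 0) {c : F} (hc : c + σ c = 0)
    (hτc : τ c = ε * c) : transv B e c he hc ∈ K := by
  have := R.eichler_mem h hTe (map_zero T) hτc (he := he) (hew := by simp) (hwe := by simp)
    (by simpa using hc)
  rw [eichler_congr (he' := he) (hew' := by simp) (hwe' := by simp) rfl (smul_zero ζ) rfl,
    eichler_zero e c he hc] at this
  exact hH this

omit hn hH hK in
/-- An additive subgroup containing all multiples of rational vectors of `W` contains `W`. -/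
theorem mem_of_rat {W : Submodule F V} (hW : ∀ w ∈ W, T w ∈ W) {A : AddSubgroup V}
    (hA : ∀ u ∈ W, T u = u → ∀ t : F, t • u ∈ A) {w : V} (hw : w ∈ W) : w ∈ A := by
  let Z : Submodule F V :=
    { carrier := {w | ∀ t : F, t • w ∈ A}
      add_mem' := fun {a b} ha hb t => by rw [smul_add]; exact add_mem (ha t) (hb t)
      zero_mem' := fun t => by simp
      smul_mem' := fun c a ha t => by rw [smul_smul]; exact ha _ }
  have hZ : W ≤ Z := by
    by_contra hne
    obtain ⟨u, h1, h2, h3⟩ := R.exists_fixed_notMem hW hne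
    exact h3 (hA u h1 h2)
  simpa using hZ hw 1

end RatStr

end Cfsg.Lib.Unitary
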