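import Cfsg.Agent.Lib.Unitary.LowA
import Cfsg.Agent.Lib.Unitary.MaxGeo

/-!
# Subfield subgroups of `SU_n(q)`, `n ≥ 4`: unitary and symplectic type
-/

set_option autoImplicit false

namespace Cfsg.Lib.Unitary

open Module

variable {F V : Type*} [Field F] [AddCommGroup V] [Module F V] {σ : F →+* F}
  {B : V →ₛₗ[σ] V →ₗ[F] F} {q : ℕ}

namespace RatStr

variable {τ : F ≃+* F} {T : AddMonoid.End V} [Finite F] [FiniteDimensional F V]
  {K : Subgroup (V ≃ₗ[F] V)}

section Iso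

variable {ζ ε : F} (R : RatStr B τ T ζ ε) (h : IsHerm σ B) (hn : 4 ≤ finrank F V)
  (hiso : ∀ x y, T x = x → T y = y → ∃ a b, τ a = a ∧ τ b = b ∧ (a ≠ 0 ∨ b ≠ 0) ∧
    B (a • x + b • y) (a • x + b • y) = 0)
include R h

theorem exists_map_perp {e x : V} (he0 : e ≠ 0) (hTe : T e = e) (he : B e e = 0) (hTx : T x = x)
    (hx : B x x = 0) (hex : B e x = 0) (hxe : x ∉ F ∙ e) :
    ∃ g ∈ ratStab F T ⊓ SUG B, g e = x := by
  obtain ⟨p, a1, a2, a3, a4⟩ := R.exists_iso_ne h hTe he (x := e - x) (by rw [map_sub, hTe, hTx])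
    (by simp [he, h.eq_zero_comm.1 hex]) (notMem_span_swap he0 fun hm => hxe (by
      simpa using sub_mem (Submodule.mem_span_singleton_self (R := F) e) hm))
  have a5 : B p e = B p x := sub_eq_zero.1 (by rw [← map_sub]; exact h.eq_zero_comm.1 a3)
  have a6 : B p e ≠ 0 := fun h0 => a4 (h.eq_zero_comm.1 h0)
  obtain ⟨g, hg, e1⟩ := R.exists_map_of h a1 hTe hTx a2 he hx a6 (a5 ▸ a6)
  exact ⟨g, hg, by rw [e1, ← a5, div_self a6, one_smul]⟩

include hn hiso

theorem exists_iso_perp' {e : V} (hTe : T e = e) :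
    ∃ x, T x = x ∧ B x x = 0 ∧ B e x = 0 ∧ x ∉ F ∙ e := by
  have h1 := h.finrank_add_finrank_perp (F ∙ e)
  have h2 := finrank_span_one_le (F := F) e
  have key : ∀ (Z : Submodule F V), finrank F Z ≤ 2 → ∃ u ∈ perp B (F ∙ e), T u = u ∧ u ∉ Z :=
    fun Z hZ => R.exists_fixed_notMem (R.inv_perp_one hTe) fun hle => by
      have := Submodule.finrank_mono hle; omega
  obtain ⟨x, a1, a2, a3⟩ := key (F ∙ e) (by omega)
  obtain ⟨y, b1, b2, b3⟩ := key _ (finrank_span_pair_le e x)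
  obtain ⟨a, b, c1, c2, c3, c4⟩ := hiso x y a2 b2
  rw [mem_perp_singleton] at a1 b1
  refine ⟨_, by rw [map_add, R.fix_smul c1 a2, R.fix_smul c2 b2], c4, by simp [a1, b1], fun hm => ?_⟩
  obtain ⟨s, hs⟩ := Submodule.mem_span_singleton.1 hm
  have hb : b = 0 := by
    by_contra hb
    exact b3 ((Submodule.smul_mem_iff _ hb).1 (Submodule.mem_span_pair.2 ⟨s, -a, by
      rw [hs]; module⟩))
  exact a3 ((Submodule.smul_mem_iff _ (by simpa [hb] using c3)).1 (by simpa [hb] using hm))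

theorem exists_map_vec {c : F} (hc0 : c ≠ 0) (hc : c + σ c = 0) (hτc : τ c = ε * c) {e e' : V}
    (he0 : e ≠ 0) (he0' : e' ≠ 0) (hT : T e = e) (hT' : T e' = e') (he : B e e = 0)
    (he' : B e' e' = 0) : ∃ g ∈ ratStab F T ⊓ SUG B, g e = e' := by
  obtain ⟨g, hg, a, a1, a2, a3⟩ := R.exists_map h (by omega) (.inl ⟨c, hc0, hc, hτc⟩) he0 he0' hT hT'
    he he'
  obtain ⟨x, b1, b2, b3, b4⟩ := R.exists_iso_perp' h hn hiso hT'
  obtain ⟨k, hk, e1⟩ := R.exists_map_perp h (smul_ne_zero a1 he0') (R.fix_smul a2 hT')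
    (by simp [LinearMap.map_smulₛₗ, he']) b1 b2 (by simp [LinearMap.map_smulₛₗ, b3])
    (by rwa [Submodule.span_singleton_smul_eq a1.isUnit])
  obtain ⟨l, hl, e2⟩ := R.exists_map_perp h he0' hT' he' b1 b2 b3 b4
  exact ⟨l⁻¹ * k * g, mul_mem (mul_mem (inv_mem hl) hk) hg, by simp [a3, ← map_smul, e1, ← e2]⟩

theorem mem_of_iso {e : V} (hTe : T e = e) (he : B e e = 0) {A : AddSubgroup V}
    (hA : ∀ y, T y = y → B y y = 0 → B e y = 0 → y ∈ A) {y : V} (hy : T y = y) (hey : B e y = 0) :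
    y ∈ A := by
  obtain ⟨p, a1, a2, a3, a4⟩ := R.exists_iso_perp' h hn hiso hTe
  have key : ∀ y, T y = y → B e y = 0 → B p y ≠ 0 → y ∈ A := fun y h1 h2 h3 => by
    obtain ⟨γ, h4, h5⟩ := R.exists_iso_add h a1 h1 a2 h3
    simpa using sub_mem (hA _ (by rw [map_add, h1, R.fix_smul h4 a1]) h5 (by simp [h2, a3]))
      (hA _ (R.fix_smul h4 a1) (by simp [LinearMap.map_smulₛₗ, a2]) (by simp [a3]))
  by_cases h1 : B p y = 0
  · obtain ⟨p', b1, b2, b3⟩ := R.exists_perp_ne h hTe a4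
    simpa using sub_mem (key (y + p') (by rw [map_add, hy, b1]) (by simp [hey, b2]) (by simpa [h1]))
      (key p' b1 b2 b3)
  · exact key y hy hey h1

end Iso

section Odd

variable (R : RatStr B τ T 1 1) (h : IsHerm σ B) (hn : 4 ≤ finrank F V)
  (hiso : ∀ x y, T x = x → T y = y → ∃ a b, τ a = a ∧ τ b = b ∧ (a ≠ 0 ∨ b ≠ 0) ∧
    B (a • x + b • y) (a • x + b • y) = 0)
  {c₀ : F} (hc0 : c₀ ≠ 0) (hc : c₀ + σ c₀ = 0) (hτc : τ c₀ = 1 * c₀)
  (hH : ratStab F T ⊓ SUG B ≤ K) (hK : K ≤ SUG B)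
include R h hn hiso hc0 hc hτc hH hK

theorem mem_RE_of_transv {v : V} (hv0 : v ≠ 0) (hTv : T v = v) {c : F} {hv hc'}
    (ht : transv B v c hv hc' ∈ K) {e : V} (hTe : T e = e) (he : B e e = 0) :
    c ∈ R.RE h K he := by
  have key : ∀ y, y ≠ 0 → T y = y → ∀ hy : B y y = 0, transv B y c hy hc' ∈ K := fun y h0 h1 hy => by
    obtain ⟨g, hg, rfl⟩ := R.exists_map_vec h hn hiso hc0 hc hτc hv0 h0 hTv h1 hv hy
    rw [← conj_transv hg.2.1 v c hv hc']
    exact mul_mem (mul_mem (hH hg) ht) (inv_mem (hH hg))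
  intro y hy hey
  refine R.mem_of_iso h hn hiso hTe he (A := (h.AE K he).comap (DistribSMul.toAddMonoidHom V (c * 1)))
    (fun y h1 h2 h3 => ?_) hy hey
  change (c * 1) • y ∈ h.AE K he
  by_cases h4 : y ∈ F ∙ e
  · obtain ⟨s, rfl⟩ := Submodule.mem_span_singleton.1 h4
    rw [smul_smul]; exact h.smul_self_mem_AE he _
  rw [mul_one]
  exact h.smul_mem_AE_of_transv he h2 hc' h3 (key y (by rintro rfl; simp at h4) h1 h2)
    (key (y + e) (fun h0 => h4 (by rw [eq_neg_of_add_eq_zero_left h0]; simp))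
      (by rw [map_add, h1, hTe]) (by simp [h2, h3, he, h.eq_zero_comm.1 h3]))

variable {ω : F} (hω : τ ω = ω) (hω' : σ ω ≠ ω)
include hω hω'

theorem QE_le_of_RE' {e : V} (he0 : e ≠ 0) (hTe : T e = e) (he : B e e = 0) {θ : F}
    (hθ : θ ∈ R.RE h K he) (hθ' : τ θ ≠ θ) : QE B e ≤ K := by
  have h1 := R.one_mem_RE h hH hTe he
  have key : ∀ a ∈ R.RE h K he, ∀ b ∈ R.RE h K he, a * σ b ∈ R.RE h K he := fun a ha b hb => by
    obtain ⟨x, a1, -, a3, a4⟩ := R.exists_iso_perp' h hn hiso hTe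
    obtain ⟨y, b1, b2, b3⟩ := R.exists_perp_ne h hTe a4
    have k : ∀ l, τ l = l → a * σ b * l - σ (a * σ b * l) ∈ R.RE h K he := fun l hl =>
      R.mem_RE_of_transv h hn hiso hc0 hc hτc hH hK he0 hTe (h.transv_mem_of_AE he
        (ha ((l / B x y) • y) (R.fix_smul (by rw [map_div₀, hl, R.tau_form a1 b1, one_mul]) b1)
          (by simp [b2])) (hb x a1 a3) (by simp [h.invol]) (by
          have := (map_ne_zero σ).2 b3
          simp only [map_smul, LinearMap.map_smulₛₗ, LinearMap.smul_apply, smul_eq_mul, map_mul,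
            map_one, map_div₀, ← h.symm x y, h.invol]
          field_simp)) hTe he
    have h2 := sub_ne_zero.2 hω'
    convert R.mul_mem_RE h he (sub_mem (R.mul_mem_RE h he (k 1 (map_one τ)) (a := σ ω)
      (by rw [R.comm, hω])) (k ω hω)) (a := (σ ω - ω)⁻¹) (by rw [map_inv₀, map_sub, R.comm, hω])
      using 1
    simp only [map_mul, map_one]
    field_simp; ring
  let S : Subring F :=
    { R.RE h K he with
      one_mem' := h1
      mul_mem' := fun {a b} ha hb => by
        simpa [h.invol] using key a ha _ (key 1 h1 b hb) }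
  have hS := subring_eq_top_of_prime R.prime S
    (fun a ha => show a ∈ R.RE h K he by simpa using R.mul_mem_RE h he h1 ha) hθ hθ'
  exact h.QE_le_of_AE he (by omega) (hK.trans SUG_le_UG) he0 fun w hw =>
    R.mem_of_rat h (R.inv_perp_one hTe) (fun u h2 h3 t => by
      simpa using (show t ∈ S from hS ▸ Subring.mem_top _) u h3 (mem_perp_singleton.mp h2))
      (mem_perp_singleton.mpr hw)

theorem max_odd (hσ : IsBar q σ) (hodd : Odd (orderOf τ)) : K ≤ ratStab F T ∨ SUG B ≤ K := by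
  refine or_iff_not_imp_right.mpr fun hK' g hg => ?_
  have hKU := hK.trans SUG_le_UG
  have A2 : ∀ e, T e = e → ∀ he : B e e = 0, e ≠ 0 → ∀ c hc, transv B e c he hc ∈ K →
      τ c = 1 * c := fun e hTe he he0 c hc' ht => by
    by_contra hne
    obtain ⟨f, b1, b2, b3⟩ := R.exists_partner' h he0 hTe he
    have k := fun e (he0' : e ≠ 0) hTe' he' => R.QE_le_of_RE' h hn hiso hc0 hc hτc hH hK hω hω' he0'
      hTe' he' (R.mem_RE_of_transv h hn hiso hc0 hc hτc hH hK he0 hTe ht hTe' he') (by simpa using hne)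
    exact hK' (h.SUG_le_of_QE_QE he hσ hn hKU b2 b3 (k e he0 hTe he)
      (k f (by rintro rfl; simp at b3) b1 b2))
  have hB : ∀ e, T e = e → B e e = 0 → e ≠ 0 → ∀ m ∈ K, ∀ a : F, m e = a • e → m ∈ ratStab F T :=
    fun e hTe he he0 m hm a => R.mem_ratStab_of_stab' h (by omega) hH hK hTe he he0 (fun w hw => by
      by_contra hne
      obtain ⟨u, a1, a2, a3⟩ := R.exists_tau_ne h hTe hne
      have k : ∀ l, τ l = l → σ l * (τ (B u w) - B u w) = l * σ (τ (B u w) - B u w) := fun l hl => by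
        have := A2 e hTe he he0 (σ l * B u w - l * σ (B u w)) (by simp [h.invol]) (h.transv_mem_of_AE
          he hw (R.zeta_smul_mem_AE h hH he hTe (R.fix_smul hl a1) (by simp [a2])) _ (by
            simp [LinearMap.map_smulₛₗ, h.symm]))
        simp only [map_sub, map_mul, R.comm, hl] at this ⊢
        linear_combination this
      have k1 := k 1 (map_one τ)
      have k2 := k ω hω
      rw [map_one, one_mul, one_mul] at k1
      rw [← k1] at k2
      exact hω' (mul_right_cancel₀ (sub_ne_zero.2 a3) k2)) (A2 e hTe he he0) hm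
  have hM := fun e h1 h2 h3 g hg => R.mem_ratStab_of_map h (by omega) (.inl ⟨c₀, hc0, hc, hτc⟩) hH hB
    hKU (e := e) h1 h2 h3 (g := g) hg
  obtain ⟨e, he0, hTe, he⟩ := R.exists_iso_ne_zero h (by omega)
  refine hM e hTe he he0 g hg ?_
  have hv : B (g e) (g e) = 0 := (hKU hg e e).trans he
  have htv : transv B (g e) c₀ hv hc ∈ K := by
    rw [← conj_transv (hKU hg) e c₀ he hc]
    exact mul_mem (mul_mem hg (R.transv_mem h hH hTe he hc hτc)) (inv_mem hg)
  generalize g e = v at hv htv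
  by_contra hne
  have hno : ∀ e, T e = e → B e e = 0 → e ≠ 0 → B v e ≠ 0 := fun e hTe he he0 hve => by
    have h1 : transv B v c₀ hv hc e = e := by simp [hve]
    exact hne (R.rat_of_transv h hc0 (comm_of_mem_ratStab
      (hB e hTe he he0 _ htv 1 (by rw [h1, one_smul])) he0 hTe h1))
  obtain ⟨e', a1, a2, a3, a4⟩ := R.exists_iso_perp' h hn hiso hTe
  have he0' : e' ≠ 0 := by rintro rfl; simp at a4
  obtain ⟨k, hk, ⟨a, hka⟩, hk'⟩ := h.exists_swap hKU hc0 hc0
    (fun h0 => hno e hTe he he0 (h.eq_zero_comm.mp h0)) (R.transv_mem h hH hTe he hc hτc) htv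
  obtain ⟨l, hl, ⟨b, hlb⟩, hl'⟩ := h.exists_swap hKU hc0 hc0 (hno e' a1 a2 he0') htv
    (R.transv_mem h hH a1 a2 hc hτc)
  have hme : (l * k) e = (a * b) • e' := by
    rw [LinearEquiv.mul_apply, hka, map_smul, hlb, smul_smul]
  set θ := -B v e / B v e'
  have b1 : B v (e + θ • e') = 0 := by simp [θ, hno e' a1 a2 he0']
  have hfix : (l * k) (e + θ • e') = (1 : F) • (e + θ • e') := by
    rw [LinearEquiv.mul_apply, hk' _ (by simp [he, a3]) b1,
      hl' _ b1 (by simp [a2, h.eq_zero_comm.1 a3]), one_smul]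
  obtain ⟨d, hd0, hd⟩ := hM e hTe he he0 _ (mul_mem hl hk) (by
    rw [hme, R.smul, a1, Submodule.span_singleton_smul_eq (left_ne_zero_of_smul
      (hme ▸ (by simpa : (l * k) e ≠ 0))).isUnit]
    exact Submodule.smul_mem _ _ (Submodule.mem_span_singleton_self _))
  have hA : a * b ≠ 0 := left_ne_zero_of_smul (hme ▸ (by simpa : (l * k) e ≠ 0))
  generalize l * k = m at hme hfix hd
  generalize a * b = A at hme hA
  have step : ∀ t s : F, m (e + t • e') = s • (e + t • e') →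
      m (e + τ t • e') = (τ s / d) • (e + τ t • e') := fun t s h1 => by
    have := hd (e + t • e')
    rw [h1, R.smul, map_add, R.smul, hTe, a1] at this
    rw [div_eq_inv_mul, mul_smul, this, inv_smul_smul₀ hd0]
  have indep : ∀ s t : F, s • e = t • e' → s = 0 ∧ t = 0 := fun s t h1 => by
    have ht : t = 0 := by
      by_contra ht
      exact a4 ((Submodule.smul_mem_iff _ ht).1 (h1 ▸ Submodule.smul_mem _ _
        (Submodule.mem_span_singleton_self e)))
    exact ⟨by simpa [ht, he0] using h1, ht⟩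
  have hθ : τ θ ≠ θ := fun h0 => hno _ (by rw [map_add, hTe, R.fix_smul h0 a1])
    (by simp [LinearMap.map_smulₛₗ, he, a2, a3, h.eq_zero_comm.1 a3])
    (fun h1 => one_ne_zero (indep 1 (-θ) (by linear_combination (norm := module) h1)).1) b1
  have hθ0 : θ ≠ 0 := by rintro h0; simp [h0] at hθ
  have hθ2 : τ (τ θ) ≠ θ := fun h0 => by
    obtain ⟨j, hj⟩ := hodd
    have : ∀ i : ℕ, (τ ^ (2 * i)) θ = θ := fun i => by
      induction i with
      | zero => rfl
      | succ i ih => rw [mul_add, pow_add, RingAut.mul_apply, mul_one, sq, RingAut.mul_apply, h0, ih]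
    apply hθ
    conv_lhs => rw [← this j, ← RingAut.mul_apply, ← pow_succ', ← hj, pow_orderOf_eq_one]
    rfl
  have c1 := step _ _ hfix
  have quad : ∀ t s : F, m (e + t • e') = s • (e + t • e') → t ≠ θ → t = -A := fun t s h1 ht => by
    rw [map_add, map_smul, hme] at h1 hfix
    obtain ⟨h2, h3⟩ := indep (t - θ * s) (θ * s * t - θ * A - t * θ + t * A)
      (by linear_combination (norm := module) θ • h1 - t • hfix)
    exact mul_left_cancel₀ (sub_ne_zero.2 ht) (by linear_combination h3 + t * h2)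
  exact hθ (τ.injective ((quad _ _ (step _ _ c1) hθ2).trans (quad _ _ c1 hθ).symm))

end Odd

/-- The symplectic type. -/
theorem max_symp {ζ : F} (R : RatStr B τ T ζ (-1)) (h : IsHerm σ B) (hn : 4 ≤ finrank F V)
    (hσ : IsBar q σ) (h2 : orderOf τ = 2) (hτ : ∀ a, τ a = σ a) (h0 : ∀ x, T x = x → B x x = 0)
    (hH : ratStab F T ⊓ SUG B ≤ K) (hK : K ≤ SUG B) : K ≤ ratStab F T ∨ SUG B ≤ K := by
  refine or_iff_not_imp_right.mpr fun hK' g hg => ?_
  have hKU := hK.trans SUG_le_UG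
  have hζ : σ ζ = -ζ := by rw [← hτ, R.zeta, neg_one_mul]
  have hc : ζ + σ ζ = 0 := by rw [hζ, add_neg_cancel]
  have hsk : ∀ c, c + σ c = 0 → τ c = -1 * c := fun c hc => by rw [hτ]; linear_combination hc
  have hB : ∀ e, T e = e → B e e = 0 → e ≠ 0 → ∀ m ∈ K, ∀ a : F, m e = a • e → m ∈ ratStab F T :=
    fun e hTe he he0 m hm a => R.mem_ratStab_of_stab' h (by omega) hH hK hTe he he0 (fun w hw => by
      have key : ∀ w ∈ h.AE K he, ∀ u, T u = u → B e u = 0 → σ (B u w) ≠ B u w → ∀ t : F,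
          t • u ∈ h.AE K he := fun w hw u a1 a2 a3 t => by
        obtain ⟨a, b, c1, c2, c3⟩ := exists_fixed_add_mul h.invol a3 (t / ζ)
        have c4 : ζ * b + σ (ζ * b) = 0 := by rw [map_mul, c2, hζ]; ring
        convert add_mem (R.zeta_smul_mem_AE h hH he hTe (R.fix_smul ((hτ a).trans c1) a1)
          (by simp [a2])) (h.sub_mem_AE he hKU (R.transv_mem h hH a1 (h0 u a1) c4 (hsk _ c4))
          (by simp [h.eq_zero_comm.1 a2]) hw) using 1
        rw [(div_eq_iff R.zeta_ne).1 c3, transv_apply]; module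
      have key2 : ∀ u u', (∀ t : F, t • u ∈ h.AE K he) → T u' = u' → B e u' = 0 → B u' u ≠ 0 →
          ∀ t : F, t • u' ∈ h.AE K he := fun u u' a1 a2 a3 a4 => by
        obtain ⟨ω, hω⟩ := hσ.exists_ne
        exact key _ (a1 (ω / B u' u)) u' a2 a3 (by simpa [a4])
      by_contra hne
      obtain ⟨u, a1, a2, a3⟩ := R.exists_tau_ne h hTe hne
      have a4 := key w hw u a1 a2 (by rwa [← hτ])
      have a5 : u ∉ F ∙ e := fun hm => by
        obtain ⟨s, rfl⟩ := Submodule.mem_span_singleton.1 hm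
        simp [LinearMap.map_smulₛₗ, hw.1] at a3
      obtain ⟨f, b1, b2, b3⟩ := R.exists_partner' h he0 hTe he
      refine hK' (h.SUG_le_of_AE hσ hn hKU he b3 R.zeta_ne (R.transv_mem h hH b1 b2 hc R.zeta)
        fun w hw => R.mem_of_rat h (R.inv_perp_one hTe) (fun y c1 c2 => ?_) (mem_perp_singleton.2 hw))
      rw [mem_perp_singleton] at c1
      by_cases c3 : B y u = 0
      swap
      · exact key2 u y a4 c2 c1 c3
      obtain ⟨x, d1, d2, d3⟩ := R.exists_perp_ne h hTe a5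
      have d4 : B x u ≠ 0 := fun h0 => d3 (h.eq_zero_comm.1 h0)
      intro t
      simpa using sub_mem (key2 u (y + x) a4 (by rw [map_add, c2, d1]) (by simp [c1, d2])
        (by simpa [c3]) t) (key2 u x a4 d1 d2 d4 t)) (fun c hc _ => hsk c hc) hm
  have hTT : ∀ v, T (T v) = v := fun v => by
    have := R.pow
    rw [h2, sq] at this
    exact DFunLike.congr_fun this v
  obtain ⟨e, he0, hTe, he⟩ := R.exists_iso_ne_zero h (by omega)
  refine R.mem_ratStab_of_map h (by omega) (.inl ⟨ζ, R.zeta_ne, hc, R.zeta⟩) hH hB hKU hTe he he0 hg ?_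
  have hv : B (g e) (g e) = 0 := (hKU hg e e).trans he
  have htv : transv B (g e) ζ hv hc ∈ K := by
    rw [← conj_transv (hKU hg) e ζ he hc]
    exact mul_mem (mul_mem hg (R.transv_mem h hH hTe he hc R.zeta)) (inv_mem hg)
  generalize g e = v at hv htv
  have h3 := h.finrank_add_finrank_perp (Submodule.span F {v, T v})
  have h4 := finrank_span_pair_le (F := F) v (T v)
  obtain ⟨x, a1, a2, a3⟩ := R.exists_fixed_notMem (Z := ⊥) (R.inv_perp (R.inv_span'
    (s := {v, T v}) (by simp [hTT, Submodule.mem_span_of_mem]))) fun hle => by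
      have := Submodule.finrank_mono hle; rw [finrank_bot] at this; omega
  have h1 : transv B v ζ hv hc x = x := by simp [(mem_hypPerp.1 a1).1]
  exact R.rat_of_transv h R.zeta_ne (comm_of_mem_ratStab
    (hB x a2 (h0 x a2) a3 _ htv 1 (by rw [h1, one_smul])) a3 a2 h1)


end RatStr

end Cfsg.Lib.Unitary
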