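import Cfsg.Agent.Lib.Unitary.LowB

/-!
# Subfield subgroups of `SU_n(q)`, `n ≥ 4`: orthogonal type
-/

set_option autoImplicit false

namespace Cfsg.Lib.Unitary

open Module

variable {F V : Type*} [Field F] [AddCommGroup V] [Module F V] {σ : F →+* F}
  {B : V →ₛₗ[σ] V →ₗ[F] F} {q : ℕ} {K : Subgroup (V ≃ₗ[F] V)}

/-- `K` contains all transvections with centre `u`. -/
def FullT (B : V →ₛₗ[σ] V →ₗ[F] F) (K : Subgroup (V ≃ₗ[F] V)) (u : V) : Prop :=
  ∀ c hu hc, transv B u c hu hc ∈ K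

theorem FullT.apply {u : V} (hu : FullT B K u) (hK : K ≤ UG B) {g : V ≃ₗ[F] V} (hg : g ∈ K) :
    FullT B K (g u) := fun c h1 hc => by
  rw [← conj_transv (hK hg) u c ((hK hg u u).symm.trans h1) hc]
  exact mul_mem (mul_mem hg (hu _ _ _)) (inv_mem hg)

theorem FullT.smul (h : IsHerm σ B) {u : V} (hu : FullT B K u) (h0 : B u u = 0) (a : F) :
    FullT B K (a • u) := fun c h1 hc => by
  rw [transv_smul u a c h1 hc h0 (by
    simp only [map_mul, h.invol]; linear_combination a * σ a * hc)]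
  exact hu _ _ _

theorem IsHerm.exists_neg (h : IsHerm σ B) {e f : V} (he : B e e = 0) (hf : B f f = 0)
    (hef : B e f = 1) (h1 : FullT B K e) (h2 : FullT B K f) :
    ∃ s ∈ K, ∀ x, s x = x - (2 * B f x) • e - (2 * B e x) • f := by
  obtain ⟨δ, h0, hδ⟩ := h.exists_skew
  have hfe : B f e = 1 := by rw [← h.symm, hef, map_one]
  have a1 := h1 δ he (by simp [hδ])
  have a2 := h2 (-δ⁻¹) hf (by simp [hδ, inv_neg])
  have a3 := mul_mem (mul_mem a1 a2) a1
  refine ⟨_, mul_mem a3 a3, fun x => ?_⟩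
  simp only [LinearEquiv.mul_apply, transv_apply, map_add, map_smul, he, hf, hef, hfe, smul_eq_mul]
  match_scalars <;> field_simp <;> ring

theorem IsHerm.two_smul_mem_AE (h : IsHerm σ B) {e f z : V} {γ : F} (he : B e e = 0)
    (hf : B f f = 0) (hef : B e f = 1) (hez : B e z = 0)
    (hp : B (f + z + γ • e) (f + z + γ • e) = 0) (h1 : FullT B K e) (h2 : FullT B K f)
    (h3 : FullT B K (f + z + γ • e)) : (2 : F) • z ∈ h.AE K he := by
  obtain ⟨s, hs, e1⟩ := h.exists_neg he hf hef h1 h2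
  obtain ⟨s', hs', e2⟩ := h.exists_neg he hp (by simp [hef, hez, he]) h1 h3
  have hfe : B f e = 1 := by rw [← h.symm, hef, map_one]
  refine ⟨by simp [hez], _, mul_mem hs' hs, 2 * γ + 2 * σ γ + 4 * B z f, fun x => ?_⟩
  simp only [LinearEquiv.mul_apply, e1, e2, map_add, map_sub, map_smul, he, hf, hef, hfe,
    smul_eq_mul, LinearMap.map_smulₛₗ, LinearMap.add_apply, LinearMap.smul_apply,
    h.eq_zero_comm.1 hez, map_ofNat]
  (module)

namespace RatStr

variable {τ : F ≃+* F} {T : AddMonoid.End V} [Finite F] [FiniteDimensional F V]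

omit [Finite F] in
theorem tor_mem {ζ : F} (R : RatStr B τ T ζ 1) (h : IsHerm σ B) {e f : V} (hTe : T e = e)
    (hTf : T f = f) (he : B e e = 0) (hf : B f f = 0) (hef : B e f = 1) {a : F} (ha : a ≠ 0)
    (h1 : τ a = a) (h2 : σ a = a) : ∃ t ∈ ratStab F T ⊓ SUG B,
      ∀ x, t x = x + ((a - 1) * B f x) • e + ((a⁻¹ - 1) * B e x) • f := by
  have hfe : B f e = 1 := by rw [← h.symm, hef, map_one]
  have e1 := tor_apply hef hfe hf (Units.mk0 a ha) (Units.mk0 a ha)⁻¹
  refine ⟨_, ⟨mem_ratStab_of_comm fun v => ?_, mem_SUG.2 ⟨h.tor_mem_UG hef hfe he hf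
    (a := Units.mk0 a ha) (b := (Units.mk0 a ha)⁻¹) (by simp [h2, ha]), by simp [det_tor]⟩⟩, by simpa using e1⟩
  simp [e1, R.smul, hTe, hTf, h1, R.form_right hTe, R.form_right hTf]

theorem pow_eq_one {ζ ε : F} (R : RatStr B τ T ζ ε) {g : V ≃ₗ[F] V} (hg : g ∈ SUG B) {d : F}
    (hd : ∀ v, T (g v) = d • g (T v)) : d ^ finrank F V = 1 := by
  classical
  obtain ⟨b, hb⟩ := exists_fixed_basis R.smul R.pow (n := finrank F V) rfl
  have h1 := (mem_SUG'.1 hg).2
  rw [← LinearMap.det_toMatrix b] at h1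
  have h2 : (LinearMap.toMatrix b b (g : V →ₗ[F] V)).map τ = d • LinearMap.toMatrix b b g := by
    ext i j
    have h3 := hd (b j)
    rw [hb, ← b.sum_repr (g (b j)), map_sum] at h3
    simp only [R.smul, hb] at h3
    simpa [LinearMap.toMatrix_apply, Finsupp.single_apply] using congrArg (b.repr · i) h3
  have h3 := RingHom.map_det (τ : F →+* F) (LinearMap.toMatrix b b (g : V →ₗ[F] V))
  rw [h1, map_one, RingHom.mapMatrix_apply, RingHom.coe_coe, h2, Matrix.det_smul, h1] at h3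
  simpa using h3.symm

variable (R : RatStr B τ T 1 1) (h : IsHerm σ B) (h2 : (2 : F) ≠ 0) (hτ : ∀ a, τ a = σ a)
include R h h2 hτ

omit [Finite F] h2 hτ in
theorem exists_partner_one [Finite F] {e : V} (he0 : e ≠ 0) (hTe : T e = e) (he : B e e = 0) :
    ∃ f, T f = f ∧ B f f = 0 ∧ B e f = 1 := by
  obtain ⟨f, a1, a2, a3⟩ := R.exists_partner' h he0 hTe he
  exact ⟨(B e f)⁻¹ • f, R.fix_smul (by rw [map_inv₀, R.tau_form hTe a1, one_mul]) a1,
    by simp [LinearMap.map_smulₛₗ, a2], by simp [a3]⟩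

omit h2 hτ in
theorem exists_refl {z : V} (hTz : T z = z) (hz : B z z ≠ 0) : ∃ r ∈ UG B,
    (∀ v, T (r v) = r (T v)) ∧ LinearMap.det (r : V →ₗ[F] V) = -1 ∧
      ∀ v, r v = v - (2 * B z v / B z z) • z := by
  obtain ⟨r, a1, a2, -, -, a3⟩ := h.exists_quasiReflection hz (l := -1) (by simp)
  have a4 : ∀ v, r v = v - (2 * B z v / B z z) • z := fun v => by
    rw [a3]; match_scalars <;> ring
  refine ⟨r, a1, fun v => ?_, a2, a4⟩
  simp [a4, R.smul, hTz, R.form_right hTz, R.tau_form hTz hTz, map_ofNat]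

theorem witt_one {a a' : V} (ha : T a = a) (ha' : T a' = a') (h0 : B a a ≠ 0) (h1 : B a' a' = B a a) :
    ∃ r ∈ UG B, (∀ v, T (r v) = r (T v)) ∧ LinearMap.det (r : V →ₗ[F] V) ^ 2 = 1 ∧ r a = a' ∧
      ∀ v, B a v = 0 → B a' v = 0 → r v = v := by
  have h3 : B a' a = B a a' := by rw [← h.symm, ← hτ, R.tau_form ha ha', one_mul]
  by_cases h4 : B a a = B a a'
  · have h5 : B (a + a') (a + a') = 2 * 2 * B a a := by simp [h1, h3, ← h4]; ring
    obtain ⟨r, a1, a2, a3, a4⟩ := R.exists_refl h (z := a + a') (by rw [map_add, ha, ha'])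
      (by rw [h5]; simp [h2, h0])
    obtain ⟨r', b1, b2, b3, b4⟩ := R.exists_refl h ha' (h1 ▸ h0)
    refine ⟨r' * r, mul_mem b1 a1, fun v => by simp [a2, b2], by
      simp [LinearEquiv.coe_toLinearMap_mul, a3, b3], ?_, fun v c1 c2 => by simp [a4, b4, c1, c2]⟩
    rw [LinearEquiv.mul_apply, a4, b4, h5]
    simp only [map_add, map_sub, map_smul, LinearMap.add_apply, h1, h3, ← h4, smul_eq_mul]
    match_scalars <;> field_simp <;> ring
  · have h5 : B (a - a') (a - a') = 2 * (B a a - B a a') := by simp [h1, h3]; ring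
    have h6 := sub_ne_zero.2 h4
    obtain ⟨r, a1, a2, a3, a4⟩ := R.exists_refl h (z := a - a') (by rw [map_sub, ha, ha'])
      (by rw [h5]; simp [h2, h6])
    refine ⟨r, a1, a2, by simp [a3], ?_, fun v c1 c2 => by simp [a4, c1, c2]⟩
    rw [a4, h5]
    simp only [map_sub, LinearMap.sub_apply, h3]
    match_scalars <;> field_simp <;> ring

variable (hT : ∀ v, T (T v) = v)
include hT

omit [Finite F] [FiniteDimensional F V] h h2 in
theorem form_left (u v : V) : B (T u) v = σ (B u (T v)) := by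
  conv_lhs => rw [← hT v, R.form, one_mul, hτ]

theorem witt_two (hn : 3 ≤ finrank F V) {v v' : V} (hv : B v v = 0) (hv' : B v' v' = 0)
    (h0 : B (T v) v ≠ 0) (h1 : B (T v') v' = B (T v) v) :
    ∃ k ∈ ratStab F T ⊓ SUG B, k v = v' := by
  have key : ∀ v : V, B v v = 0 → ∀ l m : F, T (l • v + σ l • T v) = l • v + σ l • T v ∧
      B (l • v + σ l • T v) (m • v + σ m • T v) = l * m * B (T v) v + σ (l * m * B (T v) v) :=
    fun v hv l m => ⟨by simp [R.smul, hτ, hT, h.invol, add_comm], by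
      simp [LinearMap.map_smulₛₗ, hv, h.invol, R.form, h.symm]; ring⟩
  set β := B (T v) v
  obtain ⟨l, hl⟩ : ∃ l : F, l * l * β + σ (l * l * β) ≠ 0 := by
    by_contra hcon
    push Not at hcon
    have c1 := hcon 1
    have c2 := hcon β⁻¹
    have c3 := hcon (1 + β⁻¹)
    have c4 := (map_ne_zero σ).2 h0
    simp only [map_mul, map_add, map_one, map_inv₀] at c1 c2 c3
    refine mul_ne_zero h2 h2 ?_
    have c5 : β⁻¹ * β = 1 := inv_mul_cancel₀ h0
    have c6 : (σ β)⁻¹ * σ β = 1 := inv_mul_cancel₀ c4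
    linear_combination c3 - c1 - c2 - 2 * c5 - 2 * c6
  have hl0 : l ≠ 0 := by rintro rfl; simp at hl
  obtain ⟨δ, hδ0, hδ⟩ := h.exists_skew
  set m := δ / (l * β) with hm
  have b0 := (map_ne_zero σ).2 h0
  have b1 := (map_ne_zero σ).2 hl0
  have b2 : l * m * β + σ (l * m * β) = 0 := by
    rw [show l * m * β = δ by rw [hm]; field_simp, hδ, add_neg_cancel]
  have b3 : m * m * β + σ (m * m * β) ≠ 0 := fun h3 => hl (by
    simp only [hm, map_mul, map_div₀, hδ] at h3 ⊢
    field_simp at h3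
    exact mul_left_cancel₀ (pow_ne_zero 2 hδ0) (by linear_combination h3))
  have b4 : l * σ m - m * σ l ≠ 0 := fun h3 => hl (by
    simp only [hm, map_mul, map_div₀, hδ] at h3 ⊢
    field_simp at h3
    exact mul_left_cancel₀ hδ0 (by linear_combination -h3))
  obtain ⟨r, a1, a2, a3, a4, -⟩ := R.witt_one h h2 hτ (key v hv l l).1 (key v' hv' l l).1
    (by rwa [(key v hv l l).2]) (by rw [(key v hv l l).2, (key v' hv' l l).2, h1])
  obtain ⟨r', c1, c2, c3, c4, c5⟩ := R.witt_one h h2 hτ (a := r (m • v + σ m • T v))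
    (by rw [a2, (key v hv m m).1]) (key v' hv' m m).1 (by rwa [a1, (key v hv m m).2])
    (by rw [a1, (key v hv m m).2, (key v' hv' m m).2, h1])
  have c6 := c5 (l • v' + σ l • T v') (by rw [← a4, a1, (key v hv m l).2, mul_comm m, b2])
    (by rw [(key v' hv' m l).2, h1, mul_comm m, b2])
  have c7 : r' (r v) = v' := smul_right_injective V b4 (by
    rw [← a4] at c6
    simp only [map_add, map_smul] at c4 c6 a4
    linear_combination (norm := module) σ m • c6 - σ l • c4 + σ m • a4)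
  have c8 : B v' (T v') ≠ 0 := fun h3 => h0 (h1.symm.trans (h.eq_zero_comm.1 h3))
  rcases sq_eq_one_iff.1 (show LinearMap.det ((r' * r : V ≃ₗ[F] V) : V →ₗ[F] V) ^ 2 = 1 by
    simp [LinearEquiv.coe_toLinearMap_mul, mul_pow, a3, c3]) with h3 | h3
  · exact ⟨r' * r, ⟨mem_ratStab_of_comm fun v => by simp [a2, c2], mem_SUG'.2 ⟨mul_mem c1 a1, h3⟩⟩, c7⟩
  obtain ⟨z, d1, d2, d3⟩ := R.exists_nonsing h2 hτ rfl (R.inv_perp (R.inv_span'
    (s := {v', T v'}) (by simp [hT, Submodule.mem_span_of_mem]))) (h.not_hypPerp_le hn hv' c8) h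
  obtain ⟨s, e1, e2, e3, e4⟩ := R.exists_refl h d2 d3
  exact ⟨s * (r' * r), ⟨mem_ratStab_of_comm fun v => by simp [a2, c2, e2], mem_SUG'.2
    ⟨mul_mem e1 (mul_mem c1 a1), by rw [LinearEquiv.coe_toLinearMap_mul, map_mul, e3, h3]; simp⟩⟩, by
    simp [c7, e4, h.eq_zero_comm.1 (mem_hypPerp.1 d1).1]⟩

omit [Finite F] in
/-- A non-split torus fixing a non-rational point of a rational totally isotropic line. -/
theorem exists_torus {v : V} (hv : B v v = 0) (h0 : B (T v) v = 0) (h1 : T v ∉ F ∙ v) {η : F}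
    (hη : η ≠ 0) : ∃ t ∈ ratStab F T ⊓ SUG B, t v = η • v := by
  have hv0 : v ≠ 0 := by rintro rfl; simp at h1
  obtain ⟨w₀, hw⟩ := h.exists_apply_eq (x := ![v, T v]) ((LinearIndependent.pair_iff' hv0).2
    fun a ha => h1 (ha ▸ Submodule.smul_mem _ _ (Submodule.mem_span_singleton_self v))) ![1, 0]
  have a1 : B v w₀ = 1 := hw 0
  have a2 : B (T v) w₀ = 0 := hw 1
  obtain ⟨α, hα⟩ := h.exists_trace_eq (s := -B w₀ w₀) (by simp [h.self_fixed])
  have a3 := h.eq_zero_comm.1 h0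
  have a4 : B (T v) (T v) = 0 := by simp [R.form, hv]
  have a5 : B w₀ v = 1 := by rw [← h.symm, a1, map_one]
  obtain ⟨w, b1, b2, b3, b4⟩ : ∃ w, B v w = 1 ∧ B (T v) w = 0 ∧ B w w = 0 ∧ B (T w) w = 0 := by
    refine ⟨w₀ + α • v + (-B (T w₀) w₀ / 2) • T v, by simp [a1, hv, a3], by simp [a2, h0, a4], ?_, ?_⟩
    · simp [LinearMap.map_smulₛₗ, a1, a2, a3, a4, a5, hv, h0, h.eq_zero_comm.1 a2]
      linear_combination hα
    · have a6 : B (T w₀) v = 0 := by rw [R.form_left hτ hT, h.eq_zero_comm.1 a2, map_zero]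
      have a7 : B (T w₀) (T v) = 1 := by simp [R.form, a5]
      simp only [map_add, R.smul, hT, hτ, LinearMap.map_smulₛₗ, h.invol, LinearMap.add_apply,
        LinearMap.smul_apply, map_smul, smul_eq_mul, a1, a2, a3, a4, a6, a7, hv, h0]
      field_simp; ring
  have c1 : B w v = 1 := by rw [← h.symm, b1, map_one]
  have c2 : B (T v) (T w) = 1 := by simp [R.form, b1]
  have c3 : B (T w) (T v) = 1 := by simp [R.form, c1]
  have c4 : B (T w) (T w) = 0 := by simp [R.form, b3]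
  have c5 : B v (T w) = 0 := by simpa [hT, b2] using R.form (T v) w
  have hη' := (map_ne_zero σ).2 hη
  have e1 := tor_apply b1 c1 b3 (Units.mk0 η hη) (Units.mk0 _ hη')⁻¹
  have e2 := tor_apply c2 c3 c4 (Units.mk0 _ hη') (Units.mk0 η hη)⁻¹
  refine ⟨_ * _, ⟨mem_ratStab_of_comm fun x => ?_, mem_SUG.2 ⟨mul_mem
    (h.tor_mem_UG b1 c1 hv b3 (a := Units.mk0 η hη) (b := (Units.mk0 _ hη')⁻¹) (by simp [hη']))
    (h.tor_mem_UG c2 c3 a4 c4 (a := Units.mk0 _ hη') (b := (Units.mk0 η hη)⁻¹)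
      (by simp [hη, h.invol])), by simp [det_tor]⟩⟩, ?_⟩
  · have d1 := R.form_left hτ hT v x
    have d2 := R.form_left hτ hT w x
    have d3 := R.form v x
    have d4 := R.form w x
    simp only [LinearEquiv.mul_apply, e1, e2, map_add, map_smul, R.smul, hT, hτ, a3, c5,
      h.eq_zero_comm.1 b2, h.eq_zero_comm.1 b4, smul_eq_mul, d1, d2, d3, d4, map_mul, map_sub,
      map_one, h.invol, Units.val_mk0, Units.val_inv_eq_inv_val, map_inv₀, map_zero]
    (module)
  · simp only [LinearEquiv.mul_apply, e1, e2, h0, h.eq_zero_comm.1 c5, hv, c1, Units.val_mk0]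
    simp only [mul_zero, zero_smul, add_zero, hv, c1]
    (module)

variable (hn : 4 ≤ finrank F V) (hσ : IsBar q σ) (hH : ratStab F T ⊓ SUG B ≤ K) (hK : K ≤ SUG B)
  (hK' : ¬ SUG B ≤ K)
include hn hσ hH hK hK'

omit hT hn hσ hK' in
theorem fullT_of {e : V} (he0 : e ≠ 0) (hTe : T e = e) {c : F} (hc0 : c ≠ 0) {he hc}
    (ht : transv B e c he hc ∈ K) : FullT B K e := fun c' _ hc' => by
  obtain ⟨f, a1, a2, a3⟩ := R.exists_partner_one h he0 hTe he
  have key : ∀ a, σ a = a → ∀ h1, transv B e (c * (a * a)) he h1 ∈ K := fun a ha h1 => by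
    by_cases h0 : a = 0
    · simp only [h0, mul_zero]
      rw [transv_zero]; exact one_mem _
    obtain ⟨t, b1, b2⟩ := R.tor_mem h hTe a1 he a2 a3 h0 ((hτ a).trans ha) ha
    have b3 : t e = a • e := by
      rw [b2, he, ← h.symm, a3, map_one]; module
    have := mul_mem (mul_mem (hH b1) ht) (inv_mem (hH b1))
    rw [conj_transv b1.2.1] at this
    convert this using 1
    ext x
    simp only [transv_apply, b3, LinearMap.map_smulₛₗ, ha, LinearMap.smul_apply, smul_eq_mul]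
    (module)
  have b1 : σ c = -c := by linear_combination hc
  have b2 : σ c' = -c' := by linear_combination hc'
  have b3 : ∀ s : F, σ s = s → σ ((c' / c + s) / 2) = (c' / c + s) / 2 := fun s hs => by
    simp [b1, b2, hs, map_ofNat]
  have b4 : ∀ a : F, σ a = a → c * (a * a) + σ (c * (a * a)) = 0 := fun a ha => by simp [ha, b1]
  convert mul_mem (key _ (b3 1 (map_one σ)) (b4 _ (b3 1 (map_one σ))))
    (inv_mem (key _ (b3 (-1) (by simp)) (b4 _ (b3 (-1) (by simp))))) using 1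
  rw [transv_inv, transv_mul]
  congr 1
  field_simp; ring

omit hT in
theorem eq_zero_of_transv {e : V} (he0 : e ≠ 0) (hTe : T e = e) {c : F} {he hc}
    (ht : transv B e c he hc ∈ K) : c = 0 := by
  by_contra hc0
  have hKU := hK.trans SUG_le_UG
  have key : ∀ p, p ≠ 0 → T p = p → B p p = 0 → FullT B K p := fun p h0 h1 h3 => by
    obtain ⟨g, hg, a, a1, a2, a3⟩ := R.exists_map h (by omega) (.inr ⟨h2, hτ, rfl⟩) he0 h0 hTe h1 he h3
    simpa [a3, a1] using ((R.fullT_of h h2 hτ hH hK he0 hTe hc0 ht).apply hKU (hH hg)).smul h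
      ((hg.2.1 e e).trans he) a⁻¹
  obtain ⟨f, a1, a2, a3⟩ := R.exists_partner_one h he0 hTe he
  have a4 : B f e = 1 := by rw [← h.symm, a3, map_one]
  have hf0 : f ≠ 0 := by rintro rfl; simp at a3
  have hsm : ∀ w ∈ h.AE K he, ∀ a, σ a = a → a • w ∈ h.AE K he := fun w hw a ha => by
    by_cases h0 : a = 0
    · simp [h0]
    obtain ⟨t, b1, b2⟩ := R.tor_mem h hTe a1 he a2 a3 h0 ((hτ a).trans ha) ha
    convert sub_mem (h.conj_mem_AE he hKU he (hH b1) h0 (by rw [b2, he, a4]; module) hw)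
      (h.smul_self_mem_AE he (a * ((a - 1) * B f w))) using 1
    rw [b2, hw.1, ha]; module
  have main : ∀ z ∈ hypPerp B e f, T z = z → B z z ≠ 0 → ∀ t : F, t • z ∈ h.AE K he := by
    intro z hz h1 h3 t
    obtain ⟨b1, b2⟩ := mem_hypPerp.1 hz
    obtain ⟨γ, c1, c2⟩ := R.exists_iso_add h hTe (f := f + z) (by rw [map_add, a1, h1]) he
      (by simp [a3, b1])
    have c3 : σ γ = γ := (hτ γ).symm.trans c1
    have c4 : γ ≠ 0 := by
      rintro rfl
      simp [a2, b2, h.eq_zero_comm.1 b2, h3] at c2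
    have c5 : σ (1 + c * γ) ≠ 1 + c * γ := fun h0 => mul_ne_zero h2 (mul_ne_zero hc0 c4) (by
      simp only [map_add, map_one, map_mul, c3] at h0
      linear_combination γ * hc - h0)
    have c6 : 1 + c * γ ≠ 0 := fun h0 => c5 (by simp [h0])
    have c7 := ((key _ (fun h0 => by simpa [a3, b1, he] using congrArg (B e) h0)
      (by rw [map_add, map_add, a1, h1, R.fix_smul c1 hTe]) c2).apply hKU
      (key f hf0 a1 a2 c a2 hc)).smul h ((h.transv_mem_SUG f c a2 hc).1 _ _ |>.trans c2) (1 + c * γ)⁻¹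
    have c8 : (1 + c * γ)⁻¹ • transv B f c a2 hc (f + z + γ • e) =
        f + (1 + c * γ)⁻¹ • z + ((1 + c * γ)⁻¹ * γ) • e := by
      simp only [transv_apply, map_add, map_smul, a2, b2, a4, smul_eq_mul]
      match_scalars <;> field_simp <;> ring
    have c9 := h.two_smul_mem_AE he a2 a3 (by simp [b1]) (by
      rw [← c8]; simp only [LinearMap.map_smulₛₗ, map_smul, LinearMap.smul_apply]
      rw [(h.transv_mem_SUG f c a2 hc).1, c2]; simp) (key e he0 hTe he) (key f hf0 a1 a2) (c8 ▸ c7)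
    obtain ⟨a, b, d1, d2, d3⟩ := exists_fixed_add_mul h.invol (s := (1 + c * γ)⁻¹)
      (by rwa [map_inv₀, Ne, inv_inj]) t
    convert add_mem (R.zeta_smul_mem_AE h hH he hTe (R.fix_smul ((hτ a).trans d1) h1) (by simp [b1]))
      (hsm _ c9 (b / 2) (by simp [d2, map_ofNat])) using 1
    rw [d3]; match_scalars; field_simp
  refine hK' (h.SUG_le_of_AE hσ hn hKU he (a3.trans_ne one_ne_zero) hc0 (key f hf0 a1 a2 c a2 hc)
    fun w hw => ?_)
  obtain ⟨u, b1, b2, b3⟩ := h.hyp_decomp he a2 a3 w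
  rw [b3, hw, zero_smul, add_zero]
  refine add_mem (R.mem_of_rat h (R.inv_hypPerp hTe a1) (fun z c1 c2 t => ?_)
    (mem_hypPerp.2 ⟨b1, b2⟩)) (h.smul_self_mem_AE he _)
  by_cases c3 : B z z = 0
  swap
  · exact main z c1 c2 c3 t
  obtain ⟨y, d1, d2, d3⟩ := R.exists_nonsing h2 hτ rfl (R.inv_hypPerp hTe a1)
    (h.not_hypPerp_le (by omega) he (a3.trans_ne one_ne_zero)) h
  by_cases c4 : B (z + y) (z + y) = 0
  · simpa [smul_sub] using add_mem (main (z - y) (sub_mem c1 d1) (by rw [map_sub, c2, d2])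
      (fun h0 => mul_ne_zero h2 d3 (by
        simp only [map_add, map_sub, LinearMap.add_apply, LinearMap.sub_apply, c3] at c4 h0
        linear_combination c4 + h0)) t) (main y d1 d2 d3 t)
  · simpa using sub_mem (main (z + y) (add_mem c1 d1) (by rw [map_add, c2, d2]) c4 t)
      (main y d1 d2 d3 t)

omit hT in
theorem mem_of_stab_orth (e : V) (hTe : T e = e) (he : B e e = 0) (he0 : e ≠ 0) (m : V ≃ₗ[F] V)
    (hm : m ∈ K) (a : F) (hme : m e = a • e) : m ∈ ratStab F T := by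
  have A2 := fun c hc (ht : transv B e c he hc ∈ K) =>
    R.eq_zero_of_transv h h2 hτ hn hσ hH hK hK' he0 hTe ht
  refine R.mem_ratStab_of_stab' h (by omega) hH hK hTe he he0 (fun w hw => ?_)
    (fun c hc ht => by simp [A2 c hc ht]) hm hme
  by_contra hne
  obtain ⟨u, a1, a2, a3⟩ := R.exists_tau_ne h hTe hne
  have := A2 (B u w - σ (B u w)) (by simp [h.invol]) (h.transv_mem_of_AE
    he hw (R.zeta_smul_mem_AE h hH he hTe a1 a2) _ (by simp [h.symm]))
  exact a3 (by rw [hτ]; linear_combination -this)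

end RatStr

end Cfsg.Lib.Unitary
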