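import Cfsg.Agent.Lib.Unitary.LowC
import Cfsg.Agent.Lib.Unitary.MaxPair

/-!
# Maximality of subfield subgroups of `SU_n(q)`, `n ≥ 4`
-/

set_option autoImplicit false

namespace Cfsg.Lib.Unitary

open Module

variable {F V : Type*} [Field F] [AddCommGroup V] [Module F V] {σ : F →+* F}
  {B : V →ₛₗ[σ] V →ₗ[F] F} {q : ℕ} {K : Subgroup (V ≃ₗ[F] V)}

theorem IsBar.exists_norm_one_pow_ne (hσ : IsBar q σ) {k : ℕ} (hk : 0 < k) (hq : k < q + 1) :
    ∃ l : F, l * σ l = 1 ∧ l ^ k ≠ 1 := by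
  obtain ⟨l, hl⟩ := hσ.exists_primitive_norm_one
  exact ⟨l, by rw [hσ.norm_eq, hl.pow_eq_one], hl.pow_ne_one_of_pos_of_lt hk.ne' hq⟩

theorem IsBar.exists_fixed_sq_ne (hσ : IsBar q σ) (hq : 4 ≤ q) :
    ∃ a : F, σ a = a ∧ a ≠ 0 ∧ a * a ≠ 1 := by
  classical
  have := hσ.finite
  have := Fintype.ofFinite F
  by_contra hcon
  push Not at hcon
  have h1 := Nat.card_le_card_of_injective (fun x : {x : F // σ x = x} =>
    (⟨x.1, by
      by_cases h0 : x.1 = 0
      · simp [h0]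
      · rcases mul_self_eq_one_iff.1 (hcon _ x.2 h0) with h | h <;> simp [h]⟩ :
      ({0, 1, -1} : Finset F))) fun x y e => Subtype.ext (congrArg Subtype.val e :)
  rw [hσ.card_fixed, Nat.card_eq_finsetCard] at h1
  have := h1.trans Finset.card_le_three
  omega

theorem iso_smul {x : V} (hx : B x x = 0) (c : F) : B (c • x) (c • x) = 0 := by
  simp [LinearMap.map_smulₛₗ, hx]

namespace RatStr

variable {τ : F ≃+* F} {T : AddMonoid.End V} [Finite F] [FiniteDimensional F V]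
  (R : RatStr B τ T 1 1) (h : IsHerm σ B) (h2 : (2 : F) ≠ 0) (hτ : ∀ a, τ a = σ a)
  (ho : orderOf τ = 2) (hσ : IsBar q σ) (hH : ratStab F T ⊓ SUG B ≤ K) (hK : K ≤ SUG B)
include R h h2 hτ ho hσ hH hK

theorem max_orth_four (hn : finrank F V = 4) (hq : 4 ≤ q) : K ≤ ratStab F T ∨ SUG B ≤ K := by
  refine or_iff_not_imp_right.mpr fun hK' => ?_
  have hKU := hK.trans SUG_le_UG
  have hT : ∀ v, T (T v) = v := fun v => by
    have := R.pow
    rw [ho, sq] at this
    exact DFunLike.congr_fun this v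
  have hB := R.mem_of_stab_orth h h2 hτ hn.ge hσ hH hK hK'
  have hM := fun e h1 h3 h4 g hg => R.mem_ratStab_of_map h (by omega) (.inr ⟨h2, hτ, rfl⟩) hH hB
    hKU (e := e) h1 h3 h4 (g := g) hg
  obtain ⟨e, he0, hTe, he⟩ := R.exists_iso_ne_zero h (by omega)
  have C0 : ∀ g ∈ K, g ∉ ratStab F T → B (T (g e)) (g e) ≠ 0 := fun g hg hg' h0 => by
    obtain ⟨l, a1, a2⟩ := hσ.exists_norm_one_pow_ne (k := 4) (by omega) (by omega)
    obtain ⟨η, a3, a4⟩ := hσ.exists_div_eq a1
    obtain ⟨t, b1, b2⟩ := R.exists_torus h h2 hτ hT ((hKU hg e e).trans he) h0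
      (fun hm => hg' (hM e hTe he he0 g hg hm)) a3
    have b3 : (g⁻¹ * t * g) e = η • e := by simp [b2]
    have b4 := mul_mem (mul_mem (inv_mem hg) (hH b1)) hg
    obtain ⟨d, -, hd⟩ := hB e hTe he he0 _ b4 η b3
    have b5 := hd e
    rw [hTe, b3, R.smul, hTe, smul_smul, hτ, a4] at b5
    have b6 := R.pow_eq_one (hK b4) hd
    rw [hn, ← mul_right_cancel₀ a3 (smul_left_injective F he0 b5)] at b6
    exact a2 b6
  have C1 : ∀ g ∈ K, B e (g e) = 0 → g ∈ ratStab F T := fun g hg h0 => by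
    by_contra hg'
    have a0 := C0 g hg hg'
    have a1 : B (g e) (g e) = 0 := (hKU hg e e).trans he
    have a2 : e ∈ hypPerp B (g e) (T (g e)) := mem_hypPerp.2 ⟨h.eq_zero_comm.1 h0, by
      rw [R.form_left hτ hT, hTe, h.eq_zero_comm.1 h0, map_zero]⟩
    obtain ⟨y, b1, b2, b3⟩ := R.exists_fixed_notMem (R.inv_perp (R.inv_span'
      (s := {g e, T (g e)}) (by simp [hT, Submodule.mem_span_of_mem]))) (Z := perp B (F ∙ e))
      fun hle => by
        have c1 := h.le_perp_comm hle (Submodule.mem_span_singleton_self e)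
        rw [h.perp_perp] at c1
        obtain ⟨s, t, c2⟩ := Submodule.mem_span_pair.1 c1
        obtain ⟨c3, c4⟩ := mem_hypPerp.1 (show s • g e + t • T (g e) ∈ _ by rw [c2]; exact a2)
        have c5 : B (T (g e)) (T (g e)) = 0 := by simp [R.form, a1]
        have c6 : B (g e) (T (g e)) ≠ 0 := fun h0 => a0 (h.eq_zero_comm.1 h0)
        simp [a1, a0, c5, c6] at c3 c4
        simp [c3, c4, he0.symm] at c2
    rw [mem_perp_singleton] at b3
    obtain ⟨γ, c1, c2⟩ := R.exists_iso_add h hTe b2 he b3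
    obtain ⟨a, d1, d2, d3⟩ := hσ.exists_fixed_sq_ne hq
    obtain ⟨t, e1, e2⟩ := R.tor_mem h hTe (f := (B e y)⁻¹ • (y + γ • e))
      (R.fix_smul (by rw [map_inv₀, R.tau_form hTe b2, one_mul])
        (by rw [map_add, b2, R.fix_smul c1 hTe])) he (iso_smul c2 _) (by simp [he, b3]) d2
      ((hτ a).trans d1) d1
    generalize hf : (B e y)⁻¹ • (y + γ • e) = f at e2
    have f1 : B e f = 1 := by simp [← hf, he, b3]
    have f2 : B f (g e) = 0 := by
      simp [← hf, LinearMap.map_smulₛₗ, h0, h.eq_zero_comm.1 (mem_hypPerp.1 b1).1]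
    have f3 : (g⁻¹ * t * g) e = e := by simp [e2, f2, h0]
    have f4 := comm_of_mem_ratStab (hB e hTe he he0 _ (mul_mem (mul_mem (inv_mem hg) (hH e1)) hg) 1
      (by rw [f3, one_smul])) he0 hTe f3 (g⁻¹ e)
    have f5 : t e = a • e := by rw [e2, he, ← h.symm, f1, map_one]; module
    simp only [LinearEquiv.mul_apply, LinearEquiv.coe_inv, LinearEquiv.apply_symm_apply, f5,
      map_smul, R.smul, hτ, d1] at f4
    have f6 : t (g (T (g.symm e))) = a • g (T (g.symm e)) := by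
      rw [← map_smul, f4, LinearEquiv.apply_symm_apply]
    have f7 : T (g⁻¹ e) ∈ F ∙ g⁻¹ e := by
      change T (g.symm e) ∈ F ∙ g.symm e
      generalize hx : g (T (g.symm e)) = x at f6
      rw [e2] at f6
      have f8 : B e x = 0 := by
        have := congrArg (B e) f6
        simp only [map_add, map_smul, he, f1, smul_eq_mul] at this
        field_simp at this
        exact mul_left_cancel₀ (sub_ne_zero.2 d3) (by linear_combination -this)
      have f9 : a - 1 ≠ 0 := fun h0 => d3 (by rw [sub_eq_zero.1 h0, one_mul])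
      rw [← g.symm_apply_apply (T _), hx, show x = B f x • e from smul_right_injective V f9 (by
        rw [f8] at f6; linear_combination (norm := module) -f6), map_smul]
      exact Submodule.smul_mem _ _ (Submodule.mem_span_singleton_self _)
    exact hg' (by simpa using inv_mem (hM e hTe he he0 _ (inv_mem hg) f7))
  intro g hg
  by_contra hg'
  have a0 := C0 g hg hg'
  have hgU := hKU hg
  have a1 : B (g e) (g e) = 0 := (hgU e e).trans he
  have key : ∀ u, B e u = 0 → B (g⁻¹ (T (g e))) u = 0 → B u u = 0 → B (T u) u = 0 := by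
    intro u b1 b2 b3
    rw [← hgU] at b1 b3
    rw [← UG_apply_right hgU] at b2
    obtain ⟨α, c, hc, c1⟩ : ∃ α c : F, c ≠ 0 ∧
        c * c = α * α + B (T (g u)) (g u) / B (T (g e)) (g e) := by
      generalize B (T (g u)) (g u) / B (T (g e)) (g e) = κ
      obtain ⟨r, -, d2, d3⟩ := hσ.exists_fixed_sq_ne hq
      obtain ⟨r, d2, d3⟩ : ∃ r : F, r ≠ 0 ∧ κ * r * r + 1 ≠ 0 := by
        by_cases h0 : κ + 1 = 0
        · exact ⟨r, d2, fun h1 => d3 (by linear_combination r * r * h0 - h1)⟩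
        · exact ⟨1, one_ne_zero, by simpa⟩
      exact ⟨(1 - κ * r * r) / (2 * r), (κ * r * r + 1) / (2 * r), by simp [h2, d2, d3], by
        field_simp; ring⟩
    have b4 : B (T (g u)) (g e) = 0 := by rw [R.form_left hτ hT, h.eq_zero_comm.1 b2, map_zero]
    obtain ⟨k, d1, d2⟩ := R.witt_two h h2 hτ hT (by omega) a1 (v' := c⁻¹ • (α • g e + g u))
      (by simp [LinearMap.map_smulₛₗ, a1, b1, b3, h.eq_zero_comm.1 b1]) a0 (by
        simp only [R.smul, map_add, map_smul, LinearMap.map_smulₛₗ, hτ, h.invol, b2, b4,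
          LinearMap.add_apply, LinearMap.smul_apply, smul_eq_mul]
        field_simp at c1 ⊢
        linear_combination -c1)
    have d3 : (g⁻¹ * k * g) e = c⁻¹ • (α • e + u) := by simp [d2]
    rw [hgU] at b1 b3
    obtain ⟨d, -, hd⟩ := C1 _ (mul_mem (mul_mem (inv_mem hg) (hH d1)) hg) (by simp [d3, he, b1])
    have d4 := congrArg (B · (α • e + u)) (hd e)
    have d5 : B (T u) e = 0 := by rw [R.form_left hτ hT, hTe, h.eq_zero_comm.1 b1, map_zero]
    simpa [hTe, d3, R.smul, LinearMap.map_smulₛₗ, he, b1, b3, h.eq_zero_comm.1 b1, d5, hc] using d4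
  have a2 : B e (g⁻¹ (T (g e))) ≠ 0 := fun h0 => a0 (h.eq_zero_comm.1 ((UG_apply_left hgU _ _).trans h0))
  have a3 : B (g⁻¹ (T (g e))) (g⁻¹ (T (g e))) = 0 := by
    rw [inv_mem hgU, R.form, a1, map_zero, mul_zero]
  obtain ⟨f, b1, b2, b3⟩ : ∃ f, B f f = 0 ∧ B e f = 1 ∧ ∀ u, B f u = 0 → B (g⁻¹ (T (g e))) u = 0 :=
    ⟨(B e (g⁻¹ (T (g e))))⁻¹ • g⁻¹ (T (g e)), iso_smul a3 _,
      by rw [map_smul, smul_eq_mul, inv_mul_cancel₀ a2], fun u hu => by
      rw [LinearMap.map_smulₛₗ, LinearMap.smul_apply, smul_eq_mul, mul_eq_zero] at hu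
      exact hu.resolve_left ((map_ne_zero σ).2 (inv_ne_zero a2))⟩
  have b4 := h.finrank_hypPerp he b2
  have b5 : Disjoint (hypPerp B e f) (perp B (hypPerp B e f)) :=
    h.disjoint_perp_perp (h.disjoint_hypPerp he b2)
  obtain ⟨⟨p, c1⟩, c2, c3⟩ := (h.isHerm_hypPerp he b2).exists_isotropic (by omega)
  replace c3 : B p p = 0 := c3
  have key' : ∀ u ∈ hypPerp B e f, B u u = 0 → B (T u) u = 0 := fun u hu =>
    key u (mem_hypPerp.1 hu).1 (b3 u (mem_hypPerp.1 hu).2)
  have c4 := h.le_of_isotropic b5 (by omega) (Z := perp B (F ∙ T p)) fun u hu c5 => by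
    obtain ⟨δ, d1, d2⟩ := h.exists_skew
    obtain ⟨s, d3, d4⟩ : ∃ s : F, s ≠ 0 ∧ B (p + s • u) (p + s • u) = 0 := by
      by_cases h0 : B p u = 0
      · exact ⟨1, one_ne_zero, by simp [c3, c5, h0, h.eq_zero_comm.1 h0]⟩
      · exact ⟨δ / B p u, div_ne_zero d1 h0, by
          simp [LinearMap.map_smulₛₗ, c3, c5, h0, ← h.symm p u, d2]⟩
    have d5 := key' _ (add_mem c1 (Submodule.smul_mem _ s hu)) d4
    have d6 : B (T u) p = B (T p) u := by rw [R.form_left hτ hT u, h.symm]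
    simp only [map_add, R.smul, hτ, LinearMap.map_smulₛₗ, h.invol, LinearMap.add_apply, map_smul,
      LinearMap.smul_apply, smul_eq_mul, key' p c1 c3, key' u hu c5, d6] at d5
    exact mem_perp_singleton.2 (mul_left_cancel₀ (mul_ne_zero h2 d3) (by linear_combination d5))
  have c5 : T p ∈ F ∙ e := by
    rw [← h.perp_perp (F ∙ e)]
    intro x hx
    obtain ⟨w, d1, d2, d3⟩ := h.hyp_decomp he b1 b2 x
    refine h.eq_zero_comm.1 ?_
    rw [d3, mem_perp_singleton.1 hx]
    simp [mem_perp_singleton.1 (c4 (mem_hypPerp.2 ⟨d1, d2⟩)), R.form_left hτ hT p e, hTe,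
      h.eq_zero_comm.1 (mem_hypPerp.1 c1).1]
  obtain ⟨s, hs⟩ := Submodule.mem_span_singleton.1 c5
  have c6 : p = σ s • e := by rw [← hT p, ← hs, R.smul, hTe, hτ]
  have c7 := (mem_hypPerp.1 c1).2
  rw [c6, map_smul, ← h.symm, b2, map_one, smul_eq_mul, mul_one] at c7
  exact c2 (Subtype.ext (by simp [c6, c7]))

theorem max_orth_six (hn : 6 ≤ finrank F V) : K ≤ ratStab F T ∨ SUG B ≤ K := by
  refine or_iff_not_imp_right.mpr fun hK' g hg => ?_
  have hKU := hK.trans SUG_le_UG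
  have hT : ∀ v, T (T v) = v := fun v => by
    have := R.pow
    rw [ho, sq] at this
    exact DFunLike.congr_fun this v
  have hB := R.mem_of_stab_orth h h2 hτ (by omega) hσ hH hK hK'
  obtain ⟨e, he0, hTe, he⟩ := R.exists_iso_ne_zero h (by omega)
  refine R.mem_ratStab_of_map h (by omega) (.inr ⟨h2, hτ, rfl⟩) hH hB hKU hTe he he0 hg ?_
  have hgU := hKU hg
  have a1 := h.finrank_add_finrank_perp (Submodule.span F {g e, T (g e)})
  have a2 := finrank_span_pair_le (F := F) (g e) (T (g e))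
  obtain ⟨x, b1, b2, b3, b4⟩ := R.exists_iso (Z := ⊥) (R.inv_perp (R.inv_span'
    (s := {g e, T (g e)}) (by simp [hT, Submodule.mem_span_of_mem]))) (by simp; omega)
  replace b1 := (mem_hypPerp.1 b1).1
  have a3 := h.finrank_add_finrank_perp (Submodule.span F {e, g⁻¹ x, T (g⁻¹ x)})
  have a4 := finrank_span_three_le (F := F) e (g⁻¹ x) (T (g⁻¹ x))
  have key : ∀ Z : Submodule F V, finrank F Z ≤ 2 → e ∈ Z → ∃ z ∉ Z,
      T (g e) ∈ Submodule.span F {g e, g z} := fun Z hZ heZ => by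
    obtain ⟨z, c1, c2, c3⟩ := R.exists_fixed_notMem (Z := Z) (R.inv_perp (R.inv_span'
      (s := {e, g⁻¹ x, T (g⁻¹ x)}) (by simp [hT, hTe, Submodule.mem_span_of_mem]))) fun hle => by
        have := Submodule.finrank_mono hle; omega
    rw [mem_perp_span] at c1
    obtain ⟨y, d1, γ, -, d2⟩ := R.exists_eichler_mem h hTe c2 he (c1 e (by simp))
    have d3 : ∀ v, (g * y * g⁻¹) v = v + B (g e) v • g z - B (g z) v • g e +
        (γ * B (g e) v) • g e := fun v => by
      rw [LinearEquiv.mul_apply, LinearEquiv.mul_apply, d2, ← UG_apply_left hgU,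
        one_smul, ← UG_apply_left hgU]
      simp
    have d4 : (g * y * g⁻¹) x = x := by
      rw [d3, b1, UG_apply_left hgU z, h.eq_zero_comm.1 (c1 (g⁻¹ x) (by simp))]; simp
    have d5 := comm_of_mem_ratStab (hB x b2 b3 b4 _ (mul_mem (mul_mem hg (hH d1)) (inv_mem hg)) 1
      (by rw [d4, one_smul])) b4 b2 d4
    obtain ⟨w, -, e1, e2⟩ := R.exists_perp_ne h hTe (x := z) fun hm =>
      c3 ((Submodule.span_singleton_le_iff_mem e Z).2 heZ hm)
    have d6 := d5 (g w)
    rw [d3, d3, hgU, hgU, e1] at d6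
    simp only [zero_smul, add_zero, mul_zero, map_sub, R.smul] at d6
    exact ⟨z, c3, (Submodule.smul_mem_iff _ ((map_ne_zero τ).mpr e2)).mp (Submodule.mem_span_pair.mpr
      ⟨B (g z) (T (g w)) - γ * B (g e) (T (g w)), -B (g e) (T (g w)), by
        linear_combination (norm := module) d6⟩)⟩
  obtain ⟨z, c1, c2⟩ := key (F ∙ e) ((finrank_span_one_le e).trans one_le_two)
    (Submodule.mem_span_singleton_self e)
  obtain ⟨z', c3, c4⟩ := key _ (finrank_span_pair_le e z) (Submodule.subset_span (by simp))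
  refine mem_span_of_mem_pairs (fun hm => c3 ?_) c2 c4
  obtain ⟨s, t, d1⟩ := Submodule.mem_span_pair.1 hm
  exact Submodule.mem_span_pair.2 ⟨s, t, g.injective (by simpa using d1)⟩

end RatStr

open Matrix

variable {n : ℕ} {τ : F ≃+* F} {P : GL (Fin n) F} {F₀ : Subfield F} (hσ : IsBar q σ) (hn : 4 ≤ n)
  (hτ : ∀ a, τ a = a ↔ a ∈ F₀)
include hσ hn hτ

theorem IsBar.isMaximalIn_subfield_odd' (hr : (orderOf τ).Prime) (hodd : Odd (orderOf τ))
    (hP : Geo.IsFormRationalStructure (hermForm n F q) F₀ 1 P) :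
    Geo.IsMaximalIn (GU n F q ⊓ Geo.specialLinear (Fin n) F)
      (Geo.subfieldSubgroup F₀ P ⊓ (GU n F q ⊓ Geo.specialLinear (Fin n) F)) := by
  have := hσ.finite
  have h := hσ.isHerm (ι := Fin n)
  have hf := hσ.ratT_form_std hτ (ε := 1) one_ne_zero (by simp) (by simp) hP
  have hf' : ∀ x y, ratT τ P x = x → ratT τ P y = y →
      τ (stdForm σ (Fin n) x y) = stdForm σ (Fin n) x y := fun x y hx hy => by
    conv_rhs => rw [← hx, ← hy, hf, one_mul]
  obtain ⟨a, a1, a2⟩ := hσ.exists_fixed_trace_ne hodd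
  have hiso : ∀ x y, ratT τ P x = x → ratT τ P y = y → ∃ a b, τ a = a ∧ τ b = b ∧ (a ≠ 0 ∨ b ≠ 0) ∧
      stdForm σ (Fin n) (a • x + b • y) (a • x + b • y) = 0 := fun x y hx hy => by
    generalize stdForm σ (Fin n) = B at h hf'
    by_cases h0 : B x x = 0
    · exact ⟨1, 0, by simp, by simp, by simp, by simpa⟩
    obtain ⟨t, h1, h2⟩ := hσ.exists_fixed_norm_eq hodd
      (μ := (B x y * B y x - B x x * B y y) / (B x x * B x x))
      (by simp [h.symm, mul_comm]) (by simp [hf', hx, hy])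
    refine ⟨t - B x y / B x x, 1, by simp [hf', hx, hy, h1], by simp, by simp, ?_⟩
    simp only [one_smul, map_add, map_smul, LinearMap.map_smulₛₗ,
      LinearMap.add_apply, LinearMap.smul_apply, smul_eq_mul, map_sub, map_div₀, h.symm]
    field_simp at h2 ⊢
    linear_combination h2
  have R : RatStr (stdForm σ (Fin n)) τ (ratT τ P) 1 1 :=
    ⟨ratT_smul, ratT_pow, hf, hσ.comm τ, Or.inl rfl, one_ne_zero, by simp, fun x hx => by
      have h3 : σ a + a ≠ 0 := by rwa [add_comm]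
      refine ⟨-stdForm σ (Fin n) x x * a / (a + σ a), by simp [hf' x x hx hx, a1, hσ.comm τ], ?_⟩
      simp only [map_div₀, map_mul, map_neg, map_add, h.self_fixed, h.invol]
      field_simp
      ring, fun x y z hx hy hz => by
      obtain ⟨a, b, h1, h2, h3, h4⟩ := hiso x y hx hy
      exact ⟨a, b, 0, h1, h2, by simp, by tauto, by simpa using h4⟩, hr⟩
  obtain ⟨c, c1, c2, c3⟩ : ∃ c, c ≠ 0 ∧ c + σ c = 0 ∧ τ c = 1 * c := by
    obtain ⟨δ, h0, h1⟩ := hσ.exists_skew
    refine ⟨∏ i ∈ Finset.range (orderOf τ), (τ ^ i) δ, Finset.prod_ne_zero_iff.mpr fun i _ =>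
      (map_ne_zero _).mpr h0, ?_, by rw [apply_prod_pow τ (pow_orderOf_eq_one τ), one_mul]⟩
    simp only [map_prod, ← hσ.comm, h1, map_neg]
    rw [Finset.prod_neg, Finset.card_range, hodd.neg_one_pow]
    ring
  obtain ⟨ω, d1, d2⟩ : ∃ ω, τ ω = ω ∧ σ ω ≠ ω := by
    by_cases h0 : σ a = a
    · exact ⟨c, by rw [c3, one_mul], fun h1 => mul_ne_zero c1 a2 (by
        rw [h1] at c2; rw [h0]; linear_combination a * c2)⟩
    · exact ⟨a, a1, h0⟩
  exact hσ.isMaximalIn_of (fun g _ => mem_subfieldSubgroup_iff_ratStab hτ g)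
    (R.not_SUG_le' h (by simp; omega)) fun K hH hK =>
    R.max_odd h (by simpa) hiso c1 c2 c3 hH hK d1 d2 hσ hodd

variable (h2 : orderOf τ = 2) (hτσ : ∀ a, τ a = σ a)
include h2 hτσ

theorem IsBar.isMaximalIn_subfield_orth' (hodd : Odd q) (hq : n = 4 ∧ 4 ≤ q ∨ 6 ≤ n)
    (hP : Geo.IsFormRationalStructure (hermForm n F q) F₀ 1 P) :
    Geo.IsMaximalIn (GU n F q ⊓ Geo.specialLinear (Fin n) F)
      (Geo.subfieldSubgroup F₀ P ⊓ (GU n F q ⊓ Geo.specialLinear (Fin n) F)) := by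
  have := hσ.finite
  have h := hσ.isHerm (ι := Fin n)
  have hf := hσ.ratT_form_std hτ (ε := 1) one_ne_zero (by simp) (by simp) hP
  have hf' : ∀ x y, ratT τ P x = x → ratT τ P y = y →
      τ (stdForm σ (Fin n) x y) = stdForm σ (Fin n) x y := fun x y hx hy => by
    conv_rhs => rw [← hx, ← hy, hf, one_mul]
  have h3 : (2 : F) ≠ 0 := fun h0 => by
    obtain ⟨k, rfl⟩ := hodd
    simpa [h0] using hσ.cast_q
  have R : RatStr (stdForm σ (Fin n)) τ (ratT τ P) 1 1 := by
    refine ⟨ratT_smul, ratT_pow, hf, hσ.comm τ, Or.inl rfl, one_ne_zero, by simp, fun x hx => ?_,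
      fun x y z hx hy hz => ?_, h2 ▸ Nat.prime_two⟩
    · refine ⟨-stdForm σ (Fin n) x x / 2, by simp [hf' x x hx hx, map_ofNat], ?_⟩
      simp only [map_div₀, map_neg, h.self_fixed, map_ofNat]
      field_simp
      ring
    · generalize stdForm σ (Fin n) = B at h hf'
      have h3 : ∀ i, ratT τ P (![x, y, z] i) = ![x, y, z] i := fun i => by
        fin_cases i <;> simpa
      obtain ⟨v, hv0, hv⟩ := Orth.exists_singular (Matrix.toQuadraticForm'
        (Matrix.of fun i j : Fin 3 => (⟨B (![x, y, z] i) (![x, y, z] j),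
          (hτ _).mp (hf' _ _ (h3 i) (h3 j))⟩ : F₀))) (by simp)
      have h4 : ∀ i, τ (v i) = v i := fun i => (hτ _).mpr (v i).2
      refine ⟨v 0, v 1, v 2, h4 0, h4 1, h4 2, ?_, ?_⟩
      · by_contra hcon
        push Not at hcon
        exact hv0 (funext fun i => Subtype.ext (by fin_cases i <;> simp [hcon]))
      · have h5 := congrArg (Subtype.val) hv
        simp [Matrix.toQuadraticForm', Matrix.toLinearMap₂'_apply, Fin.sum_univ_three] at h5
        simp only [map_add, map_smul, LinearMap.map_smulₛₗ, LinearMap.add_apply,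
          LinearMap.smul_apply, smul_eq_mul, ← hτσ, h4]
        linear_combination h5
  refine hσ.isMaximalIn_of (fun g _ => mem_subfieldSubgroup_iff_ratStab hτ g)
    (R.not_SUG_le' h (by simp; omega)) fun K hH hK => ?_
  rcases hq with ⟨rfl, hq⟩ | hq
  · exact R.max_orth_four h h3 hτσ h2 hσ hH hK (by simp) hq
  · exact R.max_orth_six h h3 hτσ h2 hσ hH hK (by simpa)

theorem IsBar.isMaximalIn_subfield_symp' {ζ : F} (hζ0 : ζ ≠ 0) (hζ : ζ + σ ζ = 0)
    (hP : Geo.IsFormRationalStructure (hermForm n F q) F₀ ζ P)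
    (halt : ∀ u : Fin n → F, (∀ i, u i ∈ F₀) →
      hermForm n F q ((P : Matrix _ _ F) *ᵥ u) ((P : Matrix _ _ F) *ᵥ u) = 0) :
    Geo.IsMaximalIn (GU n F q ⊓ Geo.specialLinear (Fin n) F)
      (Geo.subfieldSubgroup F₀ P ⊓ (GU n F q ⊓ Geo.specialLinear (Fin n) F)) := by
  have := hσ.finite
  have h := hσ.isHerm (ι := Fin n)
  have hζ' : τ ζ = -1 * ζ := by rw [hτσ]; linear_combination hζ
  have h0 : ∀ x, ratT τ P x = x → stdForm σ (Fin n) x x = 0 := fun x hx => by
    obtain ⟨u, hu, rfl⟩ := exists_of_ratT_fixed hx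
    rw [← hσ.hermForm_eq, halt u fun i => (hτ _).mp (hu i)]
  have R : RatStr (stdForm σ (Fin n)) τ (ratT τ P) ζ (-1) :=
    ⟨ratT_smul, ratT_pow, hσ.ratT_form_std hτ hζ0 hζ' (by simp) hP, hσ.comm τ, Or.inr rfl, hζ0,
      hζ', fun x hx => ⟨0, by simp, by simp [h0 x hx]⟩,
      fun x y z hx hy hz => ⟨1, 0, 0, by simp, by simp, by simp, by simp, by simp [h0 x hx]⟩,
      h2 ▸ Nat.prime_two⟩
  exact hσ.isMaximalIn_of (fun g _ => mem_subfieldSubgroup_iff_ratStab hτ g)
    (R.not_SUG_le' h (by simp; omega)) fun K hH hK =>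
    R.max_symp h (by simpa) hσ h2 hτσ h0 hH hK

end Cfsg.Lib.Unitary
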