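import Cfsg.Agent.Lib.Unitary.MaxDec

/-!
# Overgroups of the monomial group in `SU`: basic tools and the case of a large point stabiliser
-/

set_option autoImplicit false

namespace Cfsg.Lib.Unitary

open Module Finset

variable {F V : Type*} [Field F] [AddCommGroup V] [Module F V] {σ : F →+* F}
  {B : V →ₛₗ[σ] V →ₗ[F] F} {q : ℕ}

theorem IsBar.exists_pair_norm_add (hσ : IsBar q σ) {a b c d : F} (ha : a ≠ 0) (hb : b ≠ 0)
    (hc : c ≠ 0) (hd : d ≠ 0) : ∃ α β : F, α * σ α = 1 ∧ β * σ β = 1 ∧ a - α * b ≠ 0 ∧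
      (a - α * b) * σ (a - α * b) + (c - β * d) * σ (c - β * d) = 0 := by
  classical
  have := hσ.finite
  have := Fintype.ofFinite F
  let N := univ.filter fun μ : F => μ * σ μ = 1
  let I := fun a b : F => (N.erase (a / b)).image fun μ => (a - μ * b) * σ (a - μ * b)
  have hN : N.card = q + 1 := by
    rw [← hσ.card_norm_one, Nat.card_eq_fintype_card, Fintype.card_subtype]
  have h1 : ∀ a b, a ≠ 0 → b ≠ 0 → q ≤ 2 * (I a b).card := fun a b ha hb => by
    have := card_le_mul_card_image (f := fun μ => (a - μ * b) * σ (a - μ * b)) (N.erase (a / b)) 2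
      (by
      intro x hx
      obtain ⟨μ, hμ, rfl⟩ := mem_image.mp hx
      refine (card_le_card (t := {μ, σ μ * a * σ b / (σ a * b)}) fun ν hν => ?_).trans card_le_two
      simp only [N, mem_filter, mem_erase, mem_univ, true_and, map_sub, map_mul] at hμ hν
      have h2 := (map_ne_zero σ).mpr ha
      have : (ν - μ) * (ν * (σ a * b) - σ μ * a * σ b) = 0 := by
        linear_combination (a * σ b - ν * b * σ b) * hμ.2 - (a * σ b - ν * b * σ b) * hν.1.2 -
          ν * hν.2
      rcases mul_eq_zero.mp this with h | h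
      · simp [sub_eq_zero.mp h]
      · exact mem_insert_of_mem (mem_singleton.mpr (by field_simp; linear_combination h)))
    exact (show q ≤ _ by have := pred_card_le_card_erase (s := N) (a := a / b); omega).trans this
  have hI : ∀ a b, b ≠ 0 → ∀ x ∈ I a b, ∃ μ, μ * σ μ = 1 ∧ a - μ * b ≠ 0 ∧
      x = (a - μ * b) * σ (a - μ * b) := fun a b hb x hx => by
    obtain ⟨μ, hμ, rfl⟩ := mem_image.mp hx
    exact ⟨μ, (mem_filter.mp (mem_erase.mp hμ).2).2, fun h0 => (mem_erase.mp hμ).1 (by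
      field_simp; linear_combination -h0), rfl⟩
  have h0 : ∀ a b, b ≠ 0 → ∀ x ∈ I a b, x ≠ 0 ∧ σ x = x := fun a b hb x hx => by
    obtain ⟨μ, -, h, rfl⟩ := hI a b hb x hx
    exact ⟨mul_ne_zero h ((map_ne_zero σ).mpr h), by rw [map_mul, hσ.invol, mul_comm]⟩
  by_contra hcon
  push Not at hcon
  have h2 : Disjoint (I a b) (insert 0 ((I c d).image (-·))) := by
    rw [disjoint_left]
    intro z h1 h2
    rcases mem_insert.mp h2 with h2 | h2
    · exact (h0 a b hb z h1).1 h2
    obtain ⟨y, hy, e⟩ := mem_image.mp h2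
    obtain ⟨μ, h3, h4, rfl⟩ := hI a b hb z h1
    obtain ⟨ν, h5, -, rfl⟩ := hI c d hd y hy
    exact hcon μ ν h3 h5 h4 (by linear_combination -e)
  have h3 := card_le_card (s := I a b ∪ insert 0 ((I c d).image (-·)))
    (t := univ.filter fun x : F => σ x = x) (by
      intro z hz
      rcases mem_union.mp hz with hz | hz
      · simp [(h0 a b hb z hz).2]
      rcases mem_insert.mp hz with rfl | hz
      · simp
      obtain ⟨x, hx, rfl⟩ := mem_image.mp hz
      simp [(h0 c d hd x hx).2])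
  rw [card_union_of_disjoint h2, card_insert_of_notMem (by
    simpa using fun h => (h0 c d hd 0 h).1 rfl), card_image_of_injective _ neg_injective,
    ← Fintype.card_subtype, ← Nat.card_eq_fintype_card, hσ.card_fixed] at h3
  have := h1 a b ha hb
  have := h1 c d hc hd
  omega

theorem IsBar.exists_norm_one_sq_ne (hσ : IsBar q σ) : ∃ l : F, l * σ l = 1 ∧ σ l ≠ l := by
  obtain ⟨l, h1, h2⟩ := hσ.exists_norm_eq_not_fixed one_ne_zero (map_one σ)
  exact ⟨l, h1, h2⟩

/-- `x` is the product of the homologies with centres `a, b` and eigenvalues `l, l⁻¹`. -/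
def IsBi (B : V →ₛₗ[σ] V →ₗ[F] F) (a b : V) (l : F) (x : V ≃ₗ[F] V) : Prop :=
  ∀ v, x v = v + ((l - 1) * B a v) • a + ((σ l - 1) * B b v) • b

theorem IsBi.conj {a b : V} {l : F} {x g : V ≃ₗ[F] V} (hx : IsBi B a b l x) (hg : g ∈ UG B) :
    IsBi B (g a) (g b) l (g * x * g⁻¹) := fun v => by
  rw [LinearEquiv.mul_apply, LinearEquiv.mul_apply, hx, ← UG_apply_left hg, ← UG_apply_left hg]
  simp

theorem IsBi.symm (h : IsHerm σ B) {a b : V} {l : F} {x : V ≃ₗ[F] V} (hx : IsBi B a b l x) :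
    IsBi B b a (σ l) x := fun v => by rw [hx, h.invol]; abel

variable {ι : Type*} [Fintype ι] [DecidableEq ι]

open Classical in
/-- The support of a vector with respect to an orthonormal basis. -/
noncomputable def supp (B : V →ₛₗ[σ] V →ₗ[F] F) (e : ι → V) (v : V) : Finset ι :=
  univ.filter fun i => B (e i) v ≠ 0

omit [DecidableEq ι] in
@[simp] theorem mem_supp {e : ι → V} {v : V} {i : ι} : i ∈ supp B e v ↔ B (e i) v ≠ 0 := by
  simp [supp]

/-- An orthonormal basis and a subgroup of `SU` containing its monomial group. -/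
structure FrameStr (B : V →ₛₗ[σ] V →ₗ[F] F) (e : ι → V) (K : Subgroup (V ≃ₗ[F] V)) : Prop where
  herm : IsHerm σ B
  on : ∀ i j, B (e i) (e j) = if i = j then 1 else 0
  top : ∀ v, (∀ i, B (e i) v = 0) → v = 0
  le : K ≤ SUG B
  mono : decStab (fun i => F ∙ e i) ⊓ SUG B ≤ K

namespace FrameStr

variable {e : ι → V} {K : Subgroup (V ≃ₗ[F] V)} (S : FrameStr B e K)
include S

omit [Fintype ι] in
theorem ext {u v : V} (h : ∀ i, B (e i) u = B (e i) v) : u = v :=
  sub_eq_zero.mp (S.top _ fun i => by rw [map_sub, h, sub_self])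

omit [Fintype ι] in
theorem self (i : ι) : B (e i) (e i) = 1 := by simp [S.on]

omit [Fintype ι] in
theorem ne_zero (i : ι) : e i ≠ 0 := fun h => by simpa [h] using S.self i

omit [Fintype ι] in
theorem leU : K ≤ UG B := S.le.trans SUG_le_UG

theorem sum_eq (v : V) : ∑ i, B (e i) v • e i = v := S.ext fun i => by simp [S.on]

theorem form_eq (u v : V) : B u v = ∑ i, σ (B (e i) u) * B (e i) v := by
  conv_lhs => rw [← S.sum_eq v]
  simp [S.herm.symm, mul_comm]

theorem mem_of_supp {v : V} {Z : AddSubgroup V} (h : ∀ i ∈ supp B e v, ∀ t : F, t • e i ∈ Z) :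
    v ∈ Z := S.sum_eq v ▸ sum_mem fun i _ => by
  by_cases hi : i ∈ supp B e v
  · exact h i hi _
  · simp [not_not.mp (mem_supp.not.mp hi)]

theorem mem_span_iff {v : V} {T : Finset ι} :
    v ∈ Submodule.span F (e '' T) ↔ supp B e v ⊆ T := by
  refine ⟨fun hv i hi => by_contra fun hT => mem_supp.mp hi (mem_perp_singleton.mp
    (Submodule.span_le.mpr ?_ hv)),
    fun h => S.mem_of_supp (Z := (Submodule.span F (e '' T)).toAddSubgroup) fun i hi t =>
      Submodule.smul_mem _ _ (Submodule.subset_span ⟨i, h hi, rfl⟩)⟩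
  rintro _ ⟨j, hj, rfl⟩
  exact mem_perp_singleton.mpr (by rw [S.on, if_neg (by rintro rfl; exact hT hj)])

theorem mem_span_singleton_iff {v : V} {i : ι} : v ∈ F ∙ e i ↔ supp B e v ⊆ {i} := by
  simpa using S.mem_span_iff (v := v) (T := {i})

theorem finrank_span (T : Finset ι) : finrank F (Submodule.span F (e '' T)) = T.card := by
  have := finrank_span_eq_card ((linearIndependent_of_orthonormal S.on).comp
    (Subtype.val : T → ι) Subtype.val_injective)
  rwa [Set.range_comp, Subtype.range_coe_subtype, Fintype.card_coe] at this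

theorem decStr : DecStr B (fun i => F ∙ e i) 1 :=
  ⟨fun i => IsHerm.disjoint_perp_singleton (by simp [S.on]), fun i j hij =>
    (Submodule.span_singleton_le_iff_mem _ _).mpr (mem_perp_singleton.mpr (by simp [S.on, hij])),
    eq_top_iff.mpr fun v _ => S.sum_eq v ▸ sum_mem fun i _ => Submodule.smul_mem _ _
      (Submodule.mem_iSup_of_mem i (Submodule.mem_span_singleton_self _)),
    fun i => finrank_span_singleton (S.ne_zero i)⟩

omit [Fintype ι] in
theorem exists_perm_of_mem {g : V ≃ₗ[F] V} (hg : g ∈ decStab fun i => F ∙ e i) :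
    ∃ π : Equiv.Perm ι, ∀ i, ∃ c : F, c ≠ 0 ∧ g (e i) = c • e (π i) := by
  obtain ⟨π, hπ⟩ := hg
  refine ⟨π, fun i => ?_⟩
  obtain ⟨c, hc⟩ := Submodule.mem_span_singleton.mp
    ((hπ i).le (Submodule.mem_map_of_mem (Submodule.mem_span_singleton_self _)))
  exact ⟨c, fun h0 => S.ne_zero i (by simpa [h0] using hc.symm), hc.symm⟩

variable [FiniteDimensional F V]

theorem finrank_eq : finrank F V = Fintype.card ι := by
  rw [← card_univ, ← S.finrank_span univ, show Submodule.span F (e '' (univ : Finset ι)) = ⊤ from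
    eq_top_iff.mpr fun v _ => S.mem_span_iff.mpr (subset_univ _), finrank_top]

theorem mem_mono {g : V ≃ₗ[F] V} (hg : g ∈ UG B) (h : ∀ i, ∃ j, g (e i) ∈ F ∙ e j) :
    g ∈ decStab fun i => F ∙ e i := by
  choose f hf using h
  have : Function.Injective f := fun i j hij => by
    by_contra hne
    obtain ⟨c, hc⟩ := Submodule.mem_span_singleton.mp (hf i)
    obtain ⟨d, hd⟩ := Submodule.mem_span_singleton.mp (hf j)
    have h1 := hg (e i) (e j)
    rw [← hc, ← hd, hij] at h1
    simp [LinearMap.map_smulₛₗ, S.on, hne] at h1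
    rcases h1 with rfl | rfl
    · exact S.ne_zero j (by simpa using hd.symm)
    · exact S.ne_zero i (by simpa using hc.symm)
  exact mem_decStab_of_perm S.decStr.dim (Equiv.ofBijective f (Finite.injective_iff_bijective.mp
    this)) fun i => (Submodule.span_singleton_le_iff_mem _ ((F ∙ e (f i)).comap g.toLinearMap)).mpr
      (hf i)

theorem exists_diag (t : ι → F) (ht : ∀ i, t i * σ (t i) = 1) (hp : ∏ i, t i = 1) :
    ∃ s ∈ K, ∀ i v, B (e i) (s v) = t i * B (e i) v := by
  have h0 : ∀ i, t i ≠ 0 := fun i => left_ne_zero_of_mul_eq_one (ht i)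
  have h1 : ∀ i j, B (t i • e i) (t j • e j) = if i = j then 1 else 0 := fun i j => by
    by_cases h : i = j <;> simp [LinearMap.map_smulₛₗ, S.on, h, ht]
  obtain ⟨s, hs, e1⟩ := S.herm.witt_family (linearIndependent_of_orthonormal S.on)
    (linearIndependent_of_orthonormal h1) fun i j => (S.on i j).trans (h1 i j).symm
  refine ⟨s, S.mono ⟨S.mem_mono hs fun i => ⟨i, e1 i ▸ Submodule.smul_mem _ _
    (Submodule.mem_span_singleton_self _)⟩, mem_SUG'.mpr ⟨hs, ?_⟩⟩, fun i v => ?_⟩
  · let b := Basis.mk (linearIndependent_of_orthonormal S.on) fun v _ => by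
      simpa using S.mem_span_iff.mpr (subset_univ (supp B e v))
    rw [← LinearMap.det_toMatrix b, show LinearMap.toMatrix b b s = Matrix.diagonal t by
      ext i j
      rw [LinearMap.toMatrix_apply, show (s : V →ₗ[F] V) (b j) = t j • b j by simp [b, e1]]
      by_cases h : i = j <;> simp [h, Matrix.diagonal], Matrix.det_diagonal, hp]
  · conv_lhs => rw [← S.sum_eq v]
    simp [e1, S.on, mul_comm]

theorem exists_diag_two {i j : ι} (hij : i ≠ j) {l : F} (hl : l * σ l = 1) :
    ∃ s ∈ K, IsBi B (e i) (e j) l s := by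
  obtain ⟨s, hs, e1⟩ := S.exists_diag (Pi.mulSingle i l * Pi.mulSingle j (σ l)) (fun k => by
    by_cases h1 : k = i
    · simp [h1, hij, hl]
    · by_cases h2 : k = j <;> simp [h1, h2, hij.symm, hl, S.herm.invol, mul_comm])
    (by simp [prod_mul_distrib, hl])
  refine ⟨s, hs, fun v => S.ext fun k => ?_⟩
  rw [e1]
  by_cases h1 : k = i
  · simp [h1, hij, S.on]; ring
  · by_cases h2 : k = j <;> simp [h1, h2, hij.symm, S.on]
    ring

theorem exists_perm [Finite F] (π : Equiv.Perm ι) (k : ι) : ∃ m ∈ K, (∀ i, m (e i) ∈ F ∙ e (π i)) ∧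
    ∀ v, (∀ i ∈ supp B e v, π i = i ∧ i ≠ k) → m v = v := by
  obtain ⟨g, hg, g1, g2⟩ := S.decStr.exists_perm S.herm π
  obtain ⟨r, r1, r2, r3⟩ := S.decStr.exists_corr S.herm S.mono hg
    (mem_decStab_of_perm S.decStr.dim _ g1) (Submodule.mem_span_singleton_self (e k))
    (by simp [S.on])
  refine ⟨_, r1, fun i => g1 i _ (r3 i _ (Submodule.mem_span_singleton_self _)), fun v hv => ?_⟩
  rw [LinearEquiv.mul_apply, r2 v (by_contra fun h => (hv k (mem_supp.mpr h)).2 rfl)]
  exact S.mem_of_supp (Z := (LinearMap.eqLocus g.toLinearMap LinearMap.id).toAddSubgroup)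
    fun i hi t => g2 i (hv i hi).1 _ (Submodule.smul_mem _ _ (Submodule.mem_span_singleton_self _))

omit [FiniteDimensional F V] in
theorem mem_supp_apply {m : V ≃ₗ[F] V} (hm : m ∈ UG B) {i j : ι} (h : m (e i) ∈ F ∙ e j) (v : V) :
    j ∈ supp B e (m v) ↔ i ∈ supp B e v := by
  obtain ⟨c, hc⟩ := Submodule.mem_span_singleton.mp h
  have : c ≠ 0 := fun h0 => S.ne_zero i (by simpa [h0] using hc.symm)
  simp [← hm (e i) v, ← hc, LinearMap.map_smulₛₗ, this]

theorem smul_mem_AE_of_perm [Finite F] {u : V} (hu : B u u = 0) {k k' : ι} (hk : B (e k) u = 0)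
    (hk' : B (e k') u = 0) (h : ∀ t : F, t • e k ∈ S.herm.AE K hu) (t : F) :
    t • e k' ∈ S.herm.AE K hu := by
  obtain ⟨m, hm, m1, m2⟩ := S.exists_perm (Equiv.swap k k') k
  obtain ⟨c, hc⟩ := Submodule.mem_span_singleton.mp (m1 k)
  have hc0 : c ≠ 0 := fun h0 => S.ne_zero k (by simpa [h0] using hc.symm)
  have := S.herm.apply_mem_AE hu S.leU hm (m2 u fun i hi => by
    have h1 : i ≠ k := by rintro rfl; exact mem_supp.mp hi hk
    exact ⟨Equiv.swap_apply_of_ne_of_ne h1 (by rintro rfl; exact mem_supp.mp hi hk'), h1⟩) (h (t / c))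
  rwa [map_smul, ← hc, Equiv.swap_apply_left, smul_smul, div_mul_cancel₀ _ hc0] at this

variable (hσ : IsBar q σ) (hn : 8 ≤ Fintype.card ι)
include hσ hn

/-- An Eichler map with a short centre forces `K = SU`. -/
theorem SUG_le_of_short {u w : V} (hu : B u u = 0) (hu0 : u ≠ 0) (hu4 : (supp B e u).card ≤ 4)
    (hw : w ∈ S.herm.AE K hu) {k k₀ : ι} (hk : k ≠ k₀) (h1 : B (e k) u = 0) (h2 : B (e k₀) u = 0)
    (h3 : B (e k) w ≠ 0) (h4 : B (e k₀) w = 0) : SUG B ≤ K := by
  have := hσ.finite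
  have h := S.herm
  obtain ⟨μ, hμ, hμ'⟩ := hσ.exists_norm_one_ne_one
  have h5 : ∀ l, l * σ l = 1 → ∀ w ∈ h.AE K hu, B (e k₀) w = 0 →
      ((l - 1) * B (e k) w) • e k ∈ h.AE K hu := fun l hl w hw h4 => by
    obtain ⟨s, hs, e1⟩ := S.exists_diag_two hk hl
    simpa [e1 w, h4] using h.sub_mem_AE hu S.leU hs (by simp [e1 u, h1, h2]) hw
  have h6 := hσ.smul_mem_of_norm_one (fun a l hl ha => by
    simpa [S.on, ← add_smul, sub_mul] using add_mem (h5 l hl _ ha (by simp [S.on, hk.symm])) ha)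
    (mul_ne_zero (sub_ne_zero.mpr hμ') h3) (h5 μ hμ w hw h4)
  have h7 := fun k' hk' => S.smul_mem_AE_of_perm hu h1 (k' := k') hk' h6
  obtain ⟨i, hi⟩ : ∃ i, B (e i) u ≠ 0 := by
    by_contra hcon
    push Not at hcon
    exact hu0 (S.top u hcon)
  have hik : i ≠ k := by rintro rfl; exact hi h1
  obtain ⟨s, hs, e1⟩ := S.exists_diag_two hik hμ
  have hf : B (s u) (s u) = 0 := (S.leU hs u u).trans hu
  have huf : B u (s u) ≠ 0 := by
    simpa [e1 u, hu, h1, sub_ne_zero.mpr hμ', hi] using fun h0 => hi (h.eq_zero_comm.mp h0)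
  have hfu : B (s u) u ≠ 0 := fun h0 => huf (h.eq_zero_comm.mp h0)
  have h8 : ∀ k', B (e k') u = 0 → ∀ t : F, t • e k' ∈ h.AE K hf := fun k' hk' =>
    S.smul_mem_AE_of_perm hf (k := k₀) (by
      simp [e1 u, h1, h2, S.on, show k₀ ≠ i by rintro rfl; exact hi h2])
      (by simp [e1 u, h1, hk', S.on, show k' ≠ i by rintro rfl; exact hi hk']) fun t => by
      simpa [e1 (e k₀), S.on, hk, show i ≠ k₀ by rintro rfl; exact hi h2] using
        h.conj_mem_AE hu S.leU hf hs one_ne_zero (one_smul _ _).symm (h7 k₀ h2 t)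
  let T := (supp B e u)ᶜ
  have hT : 4 ≤ T.card := by rw [card_compl]; omega
  have hTu : ∀ k, k ∈ T ↔ B (e k) u = 0 := by simp [T]
  let W := Submodule.span F (e '' T)
  have hWu : ∀ x ∈ W, B u x = 0 ∧ B (s u) x = 0 := fun x hx => by
    have h9 : ∀ j, B (e j) u ≠ 0 → B (e j) x = 0 := fun j hj => by_contra fun h0 =>
      hj ((hTu j).mp (S.mem_span_iff.mp hx (mem_supp.mpr h0)))
    have h10 : B u x = 0 := by
      rw [S.form_eq]
      exact sum_eq_zero fun j _ => by by_cases hj : B (e j) u = 0 <;> simp [hj, h9]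
    exact ⟨h10, by simp [e1 u, h10, h1, LinearMap.map_smulₛₗ, h9 i hi]⟩
  have hY' : ∀ x ∈ Submodule.span F {u, s u} ⊔ W, ∃ a b : F, ∃ w ∈ W, x = a • u + b • s u + w :=
    fun x hx => by
      obtain ⟨y, hy, w, hw, rfl⟩ := Submodule.mem_sup.mp hx
      obtain ⟨a, b, rfl⟩ := Submodule.mem_span_pair.mp hy
      exact ⟨a, b, w, hw, rfl⟩
  have hW : ∀ k ∈ T, e k ∈ Submodule.span F {u, s u} ⊔ W := fun k hk =>
    Submodule.mem_sup_right (Submodule.subset_span ⟨k, hk, rfl⟩)
  have hY : Disjoint (Submodule.span F {u, s u} ⊔ W) (perp B (Submodule.span F {u, s u} ⊔ W)) :=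
    Submodule.disjoint_def.mpr fun x hx hx' => by
      obtain ⟨a, b, w, hw, rfl⟩ := hY' x hx
      have k1 := mem_perp.mp hx' u (Submodule.mem_sup_left (Submodule.subset_span (by simp)))
      have k2 := mem_perp.mp hx' (s u) (Submodule.mem_sup_left (Submodule.subset_span (by simp)))
      simp [hu, hf, huf, hfu, hWu w hw] at k1 k2
      subst k1 k2
      simp only [zero_smul, zero_add] at hx' ⊢
      exact S.top w fun j => by_contra fun h0 =>
        h0 (hx' _ (hW j (S.mem_span_iff.mp hw (mem_supp.mpr h0))))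
  have hS := h.SU_le_of_AE hY hσ ((hT.trans (S.finrank_span T).ge).trans
    (Submodule.finrank_mono le_sup_right)) S.leU
    (Submodule.mem_sup_left (Submodule.subset_span (by simp)))
    (Submodule.mem_sup_left (Submodule.subset_span (by simp))) hu hf huf
    (fun x hx hx' => by
      obtain ⟨a, b, w, hw, rfl⟩ := hY' x hx
      simp [hu, huf, hWu w hw] at hx'
      simpa [hx'] using add_mem (h.smul_self_mem_AE hu a) (S.mem_of_supp fun j hj =>
        h7 j ((hTu j).mp (S.mem_span_iff.mp hw hj))))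
    (fun x hx hx' => by
      obtain ⟨a, b, w, hw, rfl⟩ := hY' x hx
      simp [hf, hfu, hWu w hw] at hx'
      simpa [hx'] using add_mem (h.smul_self_mem_AE hf b) (S.mem_of_supp fun j hj =>
        h8 j ((hTu j).mp (S.mem_span_iff.mp hw hj))))
  obtain ⟨k₁, a1, k₂, a2, k₃, a3, a4, a5, a6⟩ := two_lt_card.mp (show 2 < T.card by omega)
  obtain ⟨θ, hθ⟩ := h.exists_norm_eq (μ := -1) (by simp)
  have hx : B (e k₁ + θ • e k₂) (e k₁ + θ • e k₂) = 0 := by
    simp [LinearMap.map_smulₛₗ, S.on, a4, a4.symm, hθ, mul_comm (σ θ)]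
  have hxY := add_mem (hW k₁ a1) (Submodule.smul_mem _ θ (hW k₂ a2))
  have hx0 : e k₁ + θ • e k₂ ≠ 0 := fun h0 => by simpa [S.on, a4] using congrArg (B (e k₁)) h0
  obtain ⟨f, hfY, hf, hef⟩ := h.exists_hyperbolic_mem hY hxY hx0 hx
  obtain ⟨δ, hδ0, hδ⟩ := h.exists_skew
  refine h.SUG_le_of_AE hσ (by rw [S.finrank_eq]; omega) S.leU hx (hef ▸ one_ne_zero) hδ0
    (h.transv_mem_of_SU hS hfY δ hf (by simp [hδ])) fun y hy => ?_
  have h9 : y - B (e k₁) y • e k₁ - B (e k₂) y • e k₂ ∈ h.AE K hx := S.mem_of_supp fun j hj => by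
    have b1 : j ≠ k₁ := by rintro rfl; simp [S.on, a4] at hj
    have b2 : j ≠ k₂ := by rintro rfl; simp [S.on, a4.symm] at hj
    exact S.smul_mem_AE_of_perm hx (k := k₃) (by simp [S.on, a5.symm, a6.symm])
      (by simp [S.on, b1, b2]) fun t => h.mem_AE_of_SU hS hxY (Submodule.smul_mem _ _ (hW k₃ a3)) hx
        (by simp [LinearMap.map_smulₛₗ, S.on, a5, a6])
  simpa using add_mem h9 (h.mem_AE_of_SU hS hxY (add_mem
    (Submodule.smul_mem _ (B (e k₁) y) (hW k₁ a1)) (Submodule.smul_mem _ (B (e k₂) y) (hW k₂ a2))) hx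
    (by simpa [LinearMap.map_smulₛₗ, S.on, a4, a4.symm, mul_comm] using hy))

end FrameStr

end Cfsg.Lib.Unitary
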