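import Cfsg.Agent.Lib.Unitary.MaxFrameA

/-!
# Overgroups of the monomial group in `SU`: homologies, and monomial bi-homologies
-/

set_option autoImplicit false

namespace Cfsg.Lib.Unitary

open Module Finset

variable {F V : Type*} [Field F] [AddCommGroup V] [Module F V] {σ : F →+* F}
  {B : V →ₛₗ[σ] V →ₗ[F] F} {q : ℕ}

/-- The centres `a ⊥ e₀` of homologies in `K` (compensated at `e₀`). -/
def HomCtr (B : V →ₛₗ[σ] V →ₗ[F] F) (K : Subgroup (V ≃ₗ[F] V)) (e₀ a : V) : Prop :=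
  B a a = 1 ∧ B e₀ a = 0 ∧ ∀ l, l * σ l = 1 → ∃ x ∈ K, IsBi B a e₀ l x

theorem IsHerm.one_add_ne (h : IsHerm σ B) {l n : F} (hl : σ l ≠ l) (hn : σ n = n) :
    1 + (l - 1) * n ≠ 0 := fun h0 => by
  have h1 := congrArg σ h0
  simp only [map_add, map_one, map_mul, map_sub, hn, map_zero] at h1
  have : (σ l - l) * n = 0 := by linear_combination h1 - h0
  simp [(mul_eq_zero.mp this).resolve_left (sub_ne_zero.mpr hl)] at h0

variable {ι : Type*} [Fintype ι] [DecidableEq ι]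

namespace FrameStr

variable {e : ι → V} {K : Subgroup (V ≃ₗ[F] V)} (S : FrameStr B e K)
include S

omit [Fintype ι] in
theorem homCtr_apply {i₀ : ι} {a : V} (ha : HomCtr B K (e i₀) a) {k : V ≃ₗ[F] V} (hk : k ∈ K)
    (hk' : k (e i₀) ∈ F ∙ e i₀) : HomCtr B K (e i₀) (k a) := by
  obtain ⟨c, hc⟩ := Submodule.mem_span_singleton.mp hk'
  have h1 := S.leU hk (e i₀) (e i₀)
  have h2 := S.leU hk (e i₀) a
  rw [← hc] at h1 h2
  simp only [LinearMap.map_smulₛₗ, LinearMap.smul_apply, smul_eq_mul, S.self, mul_one,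
    RingHom.id_apply, ha.2.1] at h1 h2
  refine ⟨(S.leU hk a a).trans ha.1, (mul_eq_zero.mp h2).resolve_left
    (right_ne_zero_of_mul_eq_one h1), fun l hl => ?_⟩
  obtain ⟨x, hx, e1⟩ := ha.2.2 l hl
  refine ⟨_, mul_mem (mul_mem hk hx) (inv_mem hk), fun v => ?_⟩
  rw [e1.conj (S.leU hk) v, ← hc]
  simp only [LinearMap.map_smulₛₗ, LinearMap.smul_apply, smul_eq_mul]
  linear_combination (norm := module) ((σ l - 1) * B (e i₀) v * h1) • e i₀

variable [FiniteDimensional F V]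

theorem exists_refl {i j : ι} (hij : i ≠ j) {α : F} (hα : α * σ α = 1) :
    ∃ r ∈ UG B ⊓ decStab (fun i => F ∙ e i), LinearMap.det (r : V →ₗ[F] V) = -1 ∧
      ∀ v, r v = v - (B (e i) v - α * B (e j) v) • (e i - σ α • e j) := by
  have h1 : B (e i - σ α • e j) (e i - σ α • e j) = 2 := by
    simp [LinearMap.map_smulₛₗ, S.on, hij, hij.symm, S.herm.invol, hα]; ring
  have h2 := S.herm.elem_mem_UG (e i - σ α • e j) (-1) (by rw [h1]; simp; ring)
  have h3 : ∀ v, elem B (e i - σ α • e j) (-1) (by rw [h1]; norm_num) v =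
      v - (B (e i) v - α * B (e j) v) • (e i - σ α • e j) := fun v => by
    simp only [elem_apply, map_sub, LinearMap.map_smulₛₗ, S.herm.invol, LinearMap.sub_apply,
      LinearMap.smul_apply, smul_eq_mul]
    (module)
  refine ⟨_, ⟨h2, S.mem_mono h2 fun k => ?_⟩, by rw [det_elem, h1]; ring, h3⟩
  rw [h3]
  by_cases h4 : k = i
  · exact ⟨j, Submodule.mem_span_singleton.mpr ⟨σ α, by simp [h4, S.on, hij.symm]⟩⟩
  by_cases h5 : k = j
  · exact ⟨i, Submodule.mem_span_singleton.mpr ⟨α, by simp [h5, S.on, hij, smul_sub, smul_smul, hα]⟩⟩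
  · exact ⟨k, by simp [S.on, Ne.symm h4, Ne.symm h5]⟩

variable (hσ : IsBar q σ) (hn : 8 ≤ Fintype.card ι)
include hσ hn

theorem homCtr_grow {i₀ : ι} {a : V} (ha : HomCtr B K (e i₀) a) (h1 : 2 ≤ (supp B e a).card)
    (h2 : (supp B e a).card ≤ 4) :
    ∃ a', HomCtr B K (e i₀) a' ∧ (supp B e a').card + 1 = 2 * (supp B e a).card := by
  have := hσ.finite
  obtain ⟨i, hi⟩ := card_pos.mp (show 0 < (supp B e a).card by omega)
  obtain ⟨T, hT, hTc⟩ := exists_subset_card_eq (s := (supp B e a)ᶜ.erase i₀)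
    (n := (supp B e a).card - 1) (by
      have := pred_card_le_card_erase (s := (supp B e a)ᶜ) (a := i₀)
      rw [card_compl] at this
      omega)
  have hT1 : ∀ j ∈ T, B (e j) a = 0 := fun j hj => by simpa using (mem_erase.mp (hT hj)).2
  have hiT : i ∉ T := fun h => mem_supp.mp hi (hT1 i h)
  have h0 : i₀ ∉ insert i T := by
    simp only [mem_insert, not_or]
    exact ⟨by rintro rfl; exact mem_supp.mp hi ha.2.1, fun h => (mem_erase.mp (hT h)).1 rfl⟩
  obtain ⟨π, hπ⟩ := Equiv.Perm.exists_map_finset_eq (s := supp B e a) (t := insert i T)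
    (by rw [card_insert_of_notMem hiT]; omega)
  have h3 : ∀ j, π j ∈ insert i T ↔ j ∈ supp B e a := fun j => by rw [← hπ]; simp
  obtain ⟨m, hm, m1, -⟩ := S.exists_perm (π.trans (Equiv.swap (π i₀) i₀)) i₀
  have h4 : supp B e (m a) = insert i T := by
    ext j
    obtain ⟨j, rfl⟩ := (π.trans (Equiv.swap (π i₀) i₀)).surjective j
    rw [S.mem_supp_apply (S.leU hm) (m1 j), ← h3, Equiv.trans_apply, Equiv.swap_apply_def]
    have : π i₀ ∉ insert i T := by simp [h3, ha.2.1]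
    split_ifs with h5 h6
    · simp [h5, this, h0]
    · simp [h6, this, h0]
    · rfl
  have h5 := S.homCtr_apply ha hm (by simpa using m1 i₀)
  generalize m a = b at h4 h5
  obtain ⟨l, hl, hl'⟩ := hσ.exists_norm_one_sq_ne
  obtain ⟨x, hx, e1⟩ := h5.2.2 l hl
  have h6 : ∀ j, B (e j) b ≠ 0 ↔ j = i ∨ j ∈ T := fun j => by rw [← mem_supp, h4, mem_insert]
  have h7 : B b a = σ (B (e i) b) * B (e i) a := by
    rw [S.form_eq, sum_eq_single i _ (by simp)]
    intro j _ hj
    by_cases h : B (e j) b = 0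
    · simp [h]
    · simp [hT1 j (((h6 j).mp h).resolve_left hj)]
  refine ⟨x a, S.homCtr_apply ha hx (Submodule.mem_span_singleton.mpr ⟨σ l, by
    simp [e1 (e i₀), S.herm.eq_zero_comm.mp h5.2.1, S.on, sub_smul]⟩), ?_⟩
  rw [show supp B e (x a) = supp B e a ∪ T from ?_, card_union_of_disjoint
    (disjoint_left.mpr fun j h h' => mem_supp.mp h (hT1 j h'))]
  · omega
  ext j
  simp only [mem_supp, e1 a, ha.2.1, h7, mem_union, map_add, map_smul, smul_eq_mul, mul_zero,
    zero_smul, add_zero]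
  by_cases hj : j = i
  · subst hj
    refine iff_of_true (fun h0 => mul_ne_zero (mem_supp.mp hi) (S.herm.one_add_ne hl'
      (n := B (e j) b * σ (B (e j) b)) (by simp [S.herm.invol, mul_comm])) ?_) (Or.inl (mem_supp.mp hi))
    linear_combination h0
  by_cases hj' : j ∈ T
  · have : l - 1 ≠ 0 := fun h0 => hl' (by simp [sub_eq_zero.mp h0])
    simp [hj', hT1 j hj', this, (h6 i).mpr (Or.inl rfl), mem_supp.mp hi, (h6 j).mpr (Or.inr hj')]
  · simp [hj', not_not.mp ((h6 j).not.mpr (by simp [hj, hj']))]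

theorem SUG_le_of_homCtr {i₀ : ι} {a : V} (ha : HomCtr B K (e i₀) a) (h1 : 5 ≤ (supp B e a).card) :
    SUG B ≤ K := by
  have h := S.herm
  obtain ⟨k, hk⟩ := card_pos.mp (show 0 < (supp B e a).card by omega)
  obtain ⟨i, a1, j, a2, i', a3, j', a4, b1, b2, b3, b4, b5, b6⟩ := three_lt_card.mp
    (show 3 < ((supp B e a).erase k).card by rw [card_erase_of_mem hk]; omega)
  simp only [mem_erase, mem_supp] at a1 a2 a3 a4 hk
  obtain ⟨α, β, hα, hβ, c1, c2⟩ := hσ.exists_pair_norm_add a1.2 a2.2 a3.2 a4.2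
  obtain ⟨r, r1, r2, r3⟩ := S.exists_refl b1 hα
  obtain ⟨r', r1', r2', r3'⟩ := S.exists_refl b6 hβ
  have hr : r * r' ∈ K := S.mono ⟨mul_mem r1.2 r1'.2, mem_SUG'.mpr ⟨mul_mem r1.1 r1'.1, by
    rw [LinearEquiv.coe_toLinearMap_mul, map_mul, r2, r2']; ring⟩⟩
  have h0 : ∀ j, B (e j) a ≠ 0 → j ≠ i₀ := by rintro j hj rfl; exact hj ha.2.1
  obtain ⟨u, hu⟩ : ∃ u, u = -(B (e i) a - α * B (e j) a) • (e i - σ α • e j) -
    (B (e i') a - β * B (e j') a) • (e i' - σ β • e j') := ⟨_, rfl⟩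
  have h2 : (r * r') a = a + u := by
    simp only [LinearEquiv.mul_apply, r3, r3', hu, map_sub, map_smul, S.on, b2, b3, b4, b5,
      if_false]
    (module)
  have h3 := S.homCtr_apply ha hr (by
    simp [r3, r3', S.on, h0 _ a1.2, h0 _ a2.2, h0 _ a3.2, h0 _ a4.2])
  rw [h2] at h3
  have hau : B a u = 0 := by
    simp only [hu, map_sub, map_smul, ← h.symm (e _) a, smul_eq_mul]
    simp only [map_sub, map_mul] at c2
    linear_combination -c2
  have hua := h.eq_zero_comm.mp hau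
  have huu : B u u = 0 := by simpa [hau, hua, ha.1] using h3.1
  have h4 : ∀ k, k ≠ i → k ≠ j → k ≠ i' → k ≠ j' → B (e k) u = 0 := fun k h1 h2 h3 h4 => by
    simp [hu, S.on, h1, h2, h3, h4]
  have h5 := h4 i₀ (h0 _ a1.2).symm (h0 _ a2.2).symm (h0 _ a3.2).symm (h0 _ a4.2).symm
  obtain ⟨l, hl, hl'⟩ := hσ.exists_norm_one_ne_one
  obtain ⟨x, hx, e1⟩ := ha.2.2 (σ l) (by rw [h.invol, mul_comm, hl])
  obtain ⟨y, hy, e2⟩ := h3.2.2 l hl
  refine S.SUG_le_of_short hσ hn huu (fun h0 => c1 (by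
      have := congrArg (B (e i)) h0
      simp [hu, S.on, b1, b2, b3] at this
      linear_combination -this))
    ((card_le_card (t := {i, j, i', j'}) fun k hk => by_contra fun hk' => ?_).trans card_le_four)
    (w := (l - 1) • a) ⟨by simp [hua], y * x, mul_mem hy hx, l - 1, fun v => ?_⟩ (h0 k hk)
    (h4 k a1.1.symm a2.1.symm a3.1.symm a4.1.symm) h5 (by simp [sub_ne_zero.mpr hl', hk])
    (by simp [ha.2.1])
  · simp only [mem_insert, mem_singleton, not_or] at hk'
    exact mem_supp.mp hk (h4 k hk'.1 hk'.2.1 hk'.2.2.1 hk'.2.2.2)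
  · rw [LinearEquiv.mul_apply, e2, e1]
    simp only [map_add, map_smul, LinearMap.add_apply, ha.1, ha.2.1, hua, h.eq_zero_comm.mp h5,
      h.eq_zero_comm.mp ha.2.1, S.self, h.invol, LinearMap.map_smulₛₗ, LinearMap.smul_apply,
      smul_eq_mul, map_sub, map_one]
    linear_combination (norm := module) (B a v * hl) • (a + u) + (B (e i₀) v * hl) • e i₀

/-- If a non-monomial element fixes a point of the frame, then `K = SU`. -/
theorem SUG_le_of_fix {g : V ≃ₗ[F] V} (hg : g ∈ K) (hg' : g ∉ decStab fun i => F ∙ e i) {i₀ : ι}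
    (h0 : g (e i₀) ∈ F ∙ e i₀) : SUG B ≤ K := by
  obtain ⟨j, hj⟩ : ∃ j, ∀ i, g (e j) ∉ F ∙ e i := by
    by_contra hcon
    push Not at hcon
    exact hg' (S.mem_mono (S.leU hg) hcon)
  have h1 : j ≠ i₀ := by rintro rfl; exact hj _ h0
  have h2 := S.homCtr_apply (a := e j) ⟨S.self j, by simp [S.on, h1.symm],
    fun l hl => S.exists_diag_two h1 hl⟩ hg h0
  have h3 : 2 ≤ (supp B e (g (e j))).card := by
    by_contra hlt
    have : Nonempty ι := ⟨i₀⟩
    obtain ⟨i, hi⟩ := card_le_one_iff_subset_singleton.mp (show (supp B e (g (e j))).card ≤ 1 by omega)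
    exact hj i (S.mem_span_singleton_iff.mpr hi)
  by_cases h4 : (supp B e (g (e j))).card ≤ 4
  swap
  · exact S.SUG_le_of_homCtr hσ hn h2 (by omega)
  obtain ⟨a, a1, a2⟩ := S.homCtr_grow hσ hn h2 h3 h4
  by_cases h5 : (supp B e a).card ≤ 4
  swap
  · exact S.SUG_le_of_homCtr hσ hn a1 (by omega)
  obtain ⟨b, b1, b2⟩ := S.homCtr_grow hσ hn a1 (by omega) h5
  exact S.SUG_le_of_homCtr hσ hn b1 (by omega)

omit hσ hn [FiniteDimensional F V]

theorem supp_subset_of_isBi {a b : V} {l : F} {x : V ≃ₗ[F] V} (hx : IsBi B a b l x) (hl : σ l ≠ l)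
    (hM : x ∈ decStab fun i => F ∙ e i) (ha : ∀ i, a ∉ F ∙ e i) : supp B e a ⊆ supp B e b := by
  intro i hi
  obtain ⟨π, hπ⟩ := S.exists_perm_of_mem hM
  obtain ⟨c, -, hc⟩ := hπ i
  rw [mem_supp] at hi ⊢
  intro h0
  rw [hx, S.herm.eq_zero_comm.mp h0, mul_zero, zero_smul, add_zero] at hc
  by_cases h1 : π i = i
  · refine ha i ((Submodule.smul_mem_iff _ (mul_ne_zero (fun h0 : l - 1 = 0 => hl (by simp [sub_eq_zero.mp h0]))
      fun h0 => hi (S.herm.eq_zero_comm.mp h0))).mp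
      (Submodule.mem_span_singleton.mpr ⟨c - 1, ?_⟩))
    rw [h1] at hc
    linear_combination (norm := module) -hc
  · have := congrArg (B (e i)) hc
    simp only [map_add, map_smul, S.on, Ne.symm h1, if_true, if_false, smul_eq_mul] at this
    exact S.herm.one_add_ne hl (n := B a (e i) * B (e i) a)
      (by rw [map_mul, S.herm.symm, S.herm.symm, mul_comm])
      (by linear_combination this)

theorem card_supp_of_isBi {a b : V} {l : F} {x : V ≃ₗ[F] V} (hx : IsBi B a b l x) (hl : σ l ≠ l)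
    (hl1 : l * σ l = 1) (hM : x ∈ decStab fun i => F ∙ e i) : (supp B e a).card ≤ 3 := by
  obtain ⟨π, hπ⟩ := S.exists_perm_of_mem hM
  by_contra hlt
  obtain ⟨i, hi⟩ := card_pos.mp (show 0 < (supp B e a).card by omega)
  obtain ⟨k, hk, hk'⟩ := exists_mem_notMem_of_card_lt_card (s := {i, π i, π.symm i})
    (t := supp B e a) (by have := card_le_three (a := i) (b := π i) (c := π.symm i); omega)
  simp only [mem_insert, mem_singleton, not_or] at hk'
  obtain ⟨c, -, hc⟩ := hπ i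
  obtain ⟨d, -, hd⟩ := hπ k
  have h1 := congrArg (B (e k)) hc
  have h2 := congrArg (fun v => B v (e i)) hd
  have h3 : π k ≠ i := fun h => hk'.2.2 (by simp [← h])
  simp only [hx (e _), map_add, map_smul, S.on, hk'.1, hk'.2.1, h3, if_false, smul_eq_mul,
    LinearMap.map_smulₛₗ, LinearMap.add_apply, LinearMap.smul_apply, map_mul, map_sub, map_one,
    S.herm.invol, S.herm.symm] at h1 h2
  have h4 : (l - σ l) * ((l - 1) ^ 2 * (B a (e i) * B (e k) a)) = 0 := by
    linear_combination l * (l - 1) * h1 - l * (σ l - 1) * h2 -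
      (l - σ l) * B a (e i) * B (e k) a * hl1
  have h5 : l - 1 ≠ 0 := fun h0 => hl (by simp [sub_eq_zero.mp h0])
  exact mul_ne_zero (sub_ne_zero.mpr hl.symm) (mul_ne_zero (pow_ne_zero 2 h5) (mul_ne_zero
    (fun h0 => mem_supp.mp hi (S.herm.eq_zero_comm.mp h0)) (mem_supp.mp hk))) h4

end FrameStr

end Cfsg.Lib.Unitary
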