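import Cfsg.Agent.Lib.Unitary.MaxPair

/-!
# Pairs of complementary totally isotropic subspaces of dimension at least three
-/

set_option autoImplicit false

namespace Cfsg.Lib.Unitary

open Module

variable {F V : Type*} [Field F] [AddCommGroup V] [Module F V] {σ : F →+* F}
  {B : V →ₛₗ[σ] V →ₗ[F] F} {q : ℕ}

/-- A pair of complementary totally isotropic subspaces and a subgroup containing its
stabiliser. -/
structure Pair3 (B : V →ₛₗ[σ] V →ₗ[F] F) (W₁ W₂ : Submodule F V) (K : Subgroup (V ≃ₗ[F] V)) :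
    Prop where
  compl : IsCompl W₁ W₂
  iso₁ : W₁ ≤ perp B W₁
  iso₂ : W₂ ≤ perp B W₂
  dim₁ : 3 ≤ finrank F W₁
  dim₂ : 3 ≤ finrank F W₂
  le : K ≤ SUG B
  mem : ∀ g ∈ SUG B, (∀ v ∈ W₁, g v ∈ W₁) → (∀ v ∈ W₂, g v ∈ W₂) → g ∈ K
  swap : ∃ s ∈ K, (∀ v ∈ W₁, s v ∈ W₂) ∧ ∀ v ∈ W₂, s v ∈ W₁

namespace Pair3

variable {W₁ W₂ : Submodule F V} {K : Subgroup (V ≃ₗ[F] V)} (S : Pair3 B W₁ W₂ K)
include S

theorem symm : Pair3 B W₂ W₁ K :=
  ⟨S.compl.symm, S.iso₂, S.iso₁, S.dim₂, S.dim₁, S.le, fun g h1 h2 h3 => S.mem g h1 h3 h2,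
    by obtain ⟨s, h1, h2, h3⟩ := S.swap; exact ⟨s, h1, h3, h2⟩⟩

theorem orth₁ {u v : V} (hu : u ∈ W₁) (hv : v ∈ W₁) : B u v = 0 := S.iso₁ hv u hu

theorem orth₂ {u v : V} (hu : u ∈ W₂) (hv : v ∈ W₂) : B u v = 0 := S.iso₂ hv u hu

variable [FiniteDimensional F V] (h : IsHerm σ B)
include h

theorem exists_eich {a b : V} (ha : a ∈ W₁) (hb : b ∈ W₂) (hab : B a b = 0) :
    ∃ g ∈ K, IsEich B a b 0 g := by
  refine ⟨eichler B a b 0 (S.orth₁ ha ha) hab (h.eq_zero_comm.mp hab), S.mem _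
    (h.eichler_mem_SUG _ _ _ (by simp [S.orth₂ hb hb])) (fun v hv => ?_) fun v hv => ?_,
    isEich_eichler _ _ _ _ _ _⟩
  · simpa [eichler_apply, S.orth₁ ha hv] using sub_mem hv (W₁.smul_mem _ ha)
  · simpa [eichler_apply, S.orth₂ hb hv] using add_mem hv (W₂.smul_mem _ hb)

theorem mem_AE {e b : V} (he : e ∈ W₁) (hb : b ∈ W₂) (heb : B e b = 0) :
    b ∈ h.AE K (S.orth₁ he he) := by
  obtain ⟨g, hg, e1⟩ := S.exists_eich h he hb heb
  exact ⟨heb, g, hg, 0, e1⟩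

variable (hσ : IsBar q σ) (hK : ¬ SUG B ≤ K)
include hσ hK

theorem mem_sup_of_mem_AE {e w : V} (he : e ∈ W₁) (he0 : e ≠ 0)
    (hw : w ∈ h.AE K (S.orth₁ he he)) : w ∈ W₂ ⊔ F ∙ e := by
  have hKU := S.le.trans SUG_le_UG
  obtain ⟨⟨w₁, h1⟩, ⟨w₂, h2⟩, rfl⟩ := exists_add_of_isCompl S.compl w
  by_contra hne
  have h3 : w₁ ∉ F ∙ e := fun hm => hne (add_mem (Submodule.mem_sup_right hm)
    (Submodule.mem_sup_left h2))
  have h4 : w₁ ∈ h.AE K (S.orth₁ he he) := by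
    simpa using sub_mem hw (S.mem_AE h he h2 (by simpa [S.orth₁ he h1] using hw.1))
  have key : ∀ a ∈ W₁, a ∉ Submodule.span F {e, w₁} → a ∈ h.AE K (S.orth₁ he he) := by
    intro a ha h5
    obtain ⟨b, hb, h6, h7⟩ := h.exists_dual S.compl S.iso₁ (Z := Submodule.span F {e, a})
      (Submodule.span_le.mpr (by simp [Set.insert_subset_iff, he, ha])) h1 fun hm => by
        obtain ⟨s, t, rfl⟩ := Submodule.mem_span_pair.mp hm
        by_cases ht : t = 0
        · exact h3 (by simpa [ht] using Submodule.smul_mem _ s (Submodule.mem_span_singleton_self e))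
        · exact h5 (Submodule.mem_span_pair.mpr ⟨-(s / t), t⁻¹, by
            match_scalars <;> field_simp <;> ring⟩)
    rw [mem_perp_span] at h6
    obtain ⟨g, hg, e1⟩ := S.exists_eich h ha hb (h6 a (by simp))
    have := h.sub_mem_AE _ hKU hg (by
      rw [e1, S.orth₁ ha he, h.eq_zero_comm.mp (h6 e (by simp))]; simp) h4
    rw [e1, S.orth₁ ha h1, ← h.symm, h7] at this
    simpa using this
  have h5 : ∀ a ∈ W₁, a ∈ h.AE K (S.orth₁ he he) := fun a ha => by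
    by_cases h6 : a ∈ Submodule.span F {e, w₁}
    swap
    · exact key a ha h6
    obtain ⟨a', h7, h8⟩ := exists_notMem_of_lt (W := W₁) (Z := Submodule.span F {e, w₁})
      (by have := finrank_span_pair_le (F := F) e w₁; have := S.dim₁; omega)
    simpa using sub_mem (key (a + a') (add_mem ha h7)
      (by rwa [Submodule.add_mem_iff_right _ h6])) (key a' h7 h8)
  have hn : 4 ≤ finrank F V := by
    have := Submodule.finrank_add_eq_of_isCompl S.compl
    have := S.dim₁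
    have := S.dim₂
    omega
  have hQ := h.QE_le_of_AE (S.orth₁ he he) (by omega) hKU he0 fun w hw => by
    obtain ⟨⟨w₁, h1⟩, ⟨w₂, h2⟩, rfl⟩ := exists_add_of_isCompl S.compl w
    exact add_mem (h5 _ h1) (S.mem_AE h he h2 (by simpa [S.orth₁ he h1] using hw))
  obtain ⟨s, hs, hs1, -⟩ := S.swap
  by_cases h6 : B e (s e) = 0
  swap
  · exact hK (h.SUG_le_of_QE (S.orth₁ he he) hσ hn hKU hQ hs h6)
  obtain ⟨b, hb, -, h7⟩ := h.exists_dual S.compl S.iso₁ (Z := ⊥) bot_le he (by simpa)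
  obtain ⟨a, ha, h8, h9⟩ := h.exists_dual S.compl.symm S.iso₂ (Z := F ∙ b)
    ((Submodule.span_singleton_le_iff_mem _ _).mpr hb) (hs1 e he) fun hm => by
      obtain ⟨t, ht⟩ := Submodule.mem_span_singleton.mp hm
      rw [← ht, map_smul, h7, smul_eq_mul, mul_one] at h6
      exact he0 (by simpa [h6] using ht.symm)
  obtain ⟨g, hg, e1⟩ := S.exists_eich h ha hb (h.eq_zero_comm.mp (mem_perp_singleton.mp h8))
  refine hK (h.SUG_le_of_QE (S.orth₁ he he) hσ hn hKU hQ (mul_mem hg hs) ?_)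
  rw [LinearEquiv.mul_apply, e1, ← h.symm (s e) a, h9]
  simp [h6, h7, S.orth₁ he ha]

theorem eq_zero_of_transv {a : V} (ha : a ∈ W₁) (ha0 : a ≠ 0) {c : F} {g : V ≃ₗ[F] V}
    (hg : g ∈ K) (e1 : ∀ x, g x = x + (c * B a x) • a) : c = 0 := by
  have hKU := S.le.trans SUG_le_UG
  have haa := S.orth₁ ha ha
  have hc : c + σ c = 0 := by
    simpa using h.gamma_eq_of_isEich haa ha0 (w := 0) (γ := c) (map_zero _) (hKU hg)
      fun x => by simp [e1]
  obtain rfl : g = transv B a c haa hc := LinearEquiv.ext fun x => by rw [e1, transv_apply]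
  obtain ⟨a', h1, h2⟩ := exists_notMem_of_lt (W := W₁) (Z := F ∙ a)
    (by have := finrank_span_singleton_le (F := F) a; have := S.dim₁; omega)
  have h3 : a ∉ F ∙ a' := fun hm => by
    obtain ⟨t, rfl⟩ := Submodule.mem_span_singleton.mp hm
    exact h2 ((Submodule.span_singleton_smul_eq (Ne.isUnit fun h0 : t = 0 => ha0 (by simp [h0])) a').symm ▸
      Submodule.mem_span_singleton_self a')
  obtain ⟨b, hb, h4, h5⟩ := h.exists_dual S.compl S.iso₁ (Z := F ∙ a')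
    ((Submodule.span_singleton_le_iff_mem _ _).mpr h1) ha h3
  obtain ⟨y, hy, e2⟩ := S.exists_eich h h1 (neg_mem hb) (by simpa using mem_perp_singleton.mp h4)
  have h6 : y a = a + a' := by
    rw [e2, S.orth₁ h1 ha, map_neg, LinearMap.neg_apply, ← h.symm a b, h5]; simp
  have h7 := S.mem_sup_of_mem_AE h hσ hK h1 (by rintro rfl; simp at h2)
    (h.smul_mem_AE_of_transv (S.orth₁ h1 h1) haa hc (S.orth₁ h1 ha)
      (hv' := S.orth₁ (add_mem ha h1) (add_mem ha h1)) hg (by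
        convert mul_mem (mul_mem hy hg) (inv_mem hy) using 1
        ext x
        rw [LinearEquiv.mul_apply, LinearEquiv.mul_apply, transv_apply, transv_apply,
          ← UG_apply_left (hKU hy), ← h6]
        simp))
  obtain ⟨x, hx, z, hz, e3⟩ := Submodule.mem_sup.mp h7
  have h8 : x = 0 := Submodule.disjoint_def.mp S.compl.disjoint _
    (eq_sub_of_add_eq e3 ▸ sub_mem (W₁.smul_mem _ ha)
      ((Submodule.span_singleton_le_iff_mem _ _).mpr h1 hz)) hx
  by_contra h0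
  exact h3 ((Submodule.smul_mem_iff _ h0).mp (by simpa [← e3, h8] using hz))

theorem apply_mem₂ {y : V ≃ₗ[F] V} (hy : y ∈ K) {e b : V} (he : e ∈ W₁) (he0 : e ≠ 0)
    (hye : y e = e) (hb : b ∈ W₂) (heb : B e b = 0) : y b ∈ W₂ := by
  have hKU := S.le.trans SUG_le_UG
  obtain ⟨b', hb', _, hz, e1⟩ := Submodule.mem_sup.mp (S.mem_sup_of_mem_AE h hσ hK he he0
    (h.apply_mem_AE _ hKU hy hye (S.mem_AE h he hb heb)))
  obtain ⟨t, rfl⟩ := Submodule.mem_span_singleton.mp hz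
  have hee := S.orth₁ he he
  have h1 : B e b' = 0 := by
    have := congrArg (B e) e1
    rw [← hye, hKU hy, hye] at this
    simpa [hee, heb] using this
  have key : ∀ l : F, l * t - σ (l * t) = 0 := fun l => by
    obtain ⟨x, hx, e2⟩ := S.exists_eich h he (W₂.smul_mem l hb) (by simp [heb])
    obtain ⟨x', hx', e3⟩ := S.exists_eich h he (W₂.smul_mem (-l) hb') (by simp [h1])
    refine S.eq_zero_of_transv h hσ hK he he0 (mul_mem hx' (mul_mem (mul_mem hy hx) (inv_mem hy)))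
      fun v => ?_
    have : (y * x * y⁻¹) v = v + B e v • l • y b - B (l • y b) v • e := by
      rw [LinearEquiv.mul_apply, LinearEquiv.mul_apply, e2, ← UG_apply_left (hKU hy),
        ← UG_apply_left (hKU hy), hye]
      simp [hye]
    rw [LinearEquiv.mul_apply, this, e3, ← e1]
    simp only [map_add, map_sub, map_smul, LinearMap.map_smulₛₗ, LinearMap.smul_apply,
      LinearMap.add_apply, smul_eq_mul, hee, h1, h.eq_zero_comm.mp h1, S.orth₂ hb' hb', map_neg,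
      map_mul]
    (module)
  obtain ⟨l, hl⟩ := hσ.exists_ne
  have h2 : t = 0 := by
    have k1 := key 1
    have k2 := key l
    rw [one_mul] at k1
    rw [map_mul] at k2
    exact (mul_eq_zero.mp (show (σ l - l) * t = 0 by linear_combination σ l * k1 - k2)).resolve_left
      (sub_ne_zero.mpr hl)
  simpa [← e1, h2] using hb'

theorem eq_zero_of_eich {u₁ u₂ z : V} (h1 : u₁ ∈ W₁) (h2 : u₂ ∈ W₂) (h0 : u₁ ≠ 0) (hz : z ∈ W₁)
    (huz : B u₂ z = 0) (H : ∀ l : F, ∃ y ∈ K, IsEich B (u₁ + u₂) (l • z) 0 y) : z = 0 := by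
  by_contra hz0
  obtain ⟨y, hy, e1⟩ := H 1
  have h3 : -(u₁ + u₂) ∈ h.AE K (S.orth₁ hz hz) := ⟨by
    simp [S.orth₁ hz h1, h.eq_zero_comm.mp huz], y, hy, 0, fun x => by
      rw [e1]; simp only [one_smul, map_neg, LinearMap.neg_apply]; (module)⟩
  obtain ⟨b, hb, _, hz', e2⟩ := Submodule.mem_sup.mp (S.mem_sup_of_mem_AE h hσ hK hz hz0 h3)
  obtain ⟨t, rfl⟩ := Submodule.mem_span_singleton.mp hz'
  have h4 : u₁ = (-t) • z := by
    have := Submodule.disjoint_def.mp S.compl.disjoint (u₁ + t • z)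
      (add_mem h1 (W₁.smul_mem _ hz)) (by
        rw [show u₁ + t • z = -b - u₂ by linear_combination (norm := module) e2]
        exact sub_mem (neg_mem hb) h2)
    linear_combination (norm := module) this
  have h5 : B u₂ u₁ = 0 := by simp [h4, huz]
  have h6 := h.eq_zero_comm.mp h5
  obtain ⟨l, hl⟩ := hσ.exists_ne
  obtain ⟨x, hx, e3⟩ := H (l * -t)
  rw [mul_smul, ← h4] at e3
  obtain ⟨x', hx', e4⟩ := S.exists_eich h h1 (W₂.smul_mem (σ l) h2) (by simp [h6])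
  refine hl (sub_eq_zero.mp (S.eq_zero_of_transv h hσ hK h1 h0 (c := l - σ l) (mul_mem hx' hx)
    fun v => ?_)).symm
  rw [LinearEquiv.mul_apply, e3, e4]
  simp only [map_add, map_sub, map_smul, LinearMap.map_smulₛₗ, LinearMap.smul_apply,
    LinearMap.add_apply, smul_eq_mul, h5, h6, S.orth₁ h1 h1, S.orth₂ h2 h2, h.invol]
  (module)

omit hσ hK in
theorem mem_span_of_orth {u w : V} (hu : u ∈ W₁) (hw : w ∈ W₁)
    (H : ∀ b ∈ W₂, B u b = 0 → B w b = 0) : w ∈ F ∙ u := by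
  by_contra hm
  obtain ⟨b, hb, h1, h2⟩ := h.exists_dual S.compl S.iso₁
    ((Submodule.span_singleton_le_iff_mem _ _).mpr hu) hw hm
  simpa [h2] using H b hb (mem_perp_singleton.mp h1)

omit hσ hK in
theorem exists_orth (u v : V) : ∃ a ∈ W₁, a ≠ 0 ∧ B u a = 0 ∧ B v a = 0 := by
  have h1 := finrank_le_finrank_inf_perp h W₁ (Submodule.span F {u, v})
  have h2 := finrank_span_pair_le (F := F) u v
  have := S.dim₁
  obtain ⟨e, he, he0⟩ := exists_notMem_of_lt (W := W₁ ⊓ perp B (Submodule.span F {u, v}))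
    (Z := ⊥) (by simp only [finrank_bot]; omega)
  exact ⟨e, he.1, he0, mem_perp_span.mp he.2 u (by simp), mem_perp_span.mp he.2 v (by simp)⟩

theorem apply_mem_or {g : V ≃ₗ[F] V} (hg : g ∈ K) {e : V} (he : e ∈ W₁) :
    g e ∈ W₁ ∨ g e ∈ W₂ := by
  have hKU := S.le.trans SUG_le_UG
  have hgU := hKU hg
  obtain ⟨⟨u₁, h1⟩, ⟨u₂, h2⟩, e0⟩ := exists_add_of_isCompl S.compl (g e)
  dsimp only at e0
  by_contra hcon
  have h10 : u₁ ≠ 0 := fun h0 => hcon (.inr (by simpa [e0, h0] using h2))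
  have h20 : u₂ ≠ 0 := fun h0 => hcon (.inl (by simpa [e0, h0] using h1))
  have he0 : e ≠ 0 := fun h0 => hcon (.inl (by simp [h0]))
  set N := (W₂ ⊓ perp B (F ∙ e)).map (g : V →ₗ[F] V)
  have hN : ∀ w ∈ N, B (u₁ + u₂) w = 0 ∧ ∀ l : F, ∃ y ∈ K, IsEich B (u₁ + u₂) (l • w) 0 y := by
    rintro _ ⟨b, ⟨hb, hb'⟩, rfl⟩
    have h3 := mem_perp_singleton.mp hb'
    refine ⟨by rw [← e0]; exact (hgU e b).trans h3, fun l => ?_⟩
    obtain ⟨x, hx, e1⟩ := S.exists_eich h he (W₂.smul_mem l hb) (by simp [h3])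
    refine ⟨_, mul_mem (mul_mem hg hx) (inv_mem hg), fun v => ?_⟩
    rw [LinearEquiv.mul_apply, LinearEquiv.mul_apply, e1, ← UG_apply_left hgU,
      ← UG_apply_left hgU, ← e0]
    simp
  have hN1 : ∀ w ∈ N, w ∈ W₁ → w = 0 := fun w hw hw1 =>
    S.eq_zero_of_eich h hσ hK h1 h2 h10 hw1 (by simpa [S.orth₁ h1 hw1] using (hN w hw).1) (hN w hw).2
  have hN2 : ∀ w ∈ N, w ∈ W₂ → w = 0 := fun w hw hw2 =>
    S.symm.eq_zero_of_eich h hσ hK h2 h1 h20 hw2 (by simpa [S.orth₂ h2 hw2] using (hN w hw).1)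
      (add_comm u₁ u₂ ▸ (hN w hw).2)
  have hinv : ∀ w ∈ N, ∀ a ∈ W₁, ∀ b ∈ W₂, B u₂ a = 0 → B u₁ b = 0 → B a b = 0 →
      B a w • b - B b w • a ∈ N := by
    rintro _ ⟨b₀, ⟨hb, hb'⟩, rfl⟩ a ha b hb2 k1 k2 k3
    obtain ⟨y, hy, e1⟩ := S.exists_eich h ha hb2 k3
    have k4 : y (g e) = g e := by
      rw [e1, e0]
      simp [S.orth₁ ha h1, S.orth₂ hb2 h2, h.eq_zero_comm.mp k1, h.eq_zero_comm.mp k2]
    have k5 : (g⁻¹ * y * g) e = e := by simp [k4]
    have hy' := mul_mem (mul_mem (inv_mem hg) hy) hg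
    have k6 := S.apply_mem₂ h hσ hK hy' he he0 k5 hb (mem_perp_singleton.mp hb')
    refine ⟨(g⁻¹ * y * g) b₀ - b₀, sub_mem ⟨k6, mem_perp_singleton.mpr ?_⟩ ⟨hb, hb'⟩, ?_⟩
    · rw [← k5, hKU hy']; exact mem_perp_singleton.mp hb'
    · simp [e1 (g b₀)]; abel
  obtain ⟨l, hl⟩ := hσ.exists_ne
  have hz : ∀ w ∈ N, ∀ a ∈ W₁, ∀ b ∈ W₂, B u₂ a = 0 → B u₁ b = 0 → B a b = 0 →
      B b w • a = 0 ∧ B a w • b = 0 := fun w hw a ha b hb k1 k2 k3 => by
    have k4 := hinv w hw a ha b hb k1 k2 k3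
    have k5 := hinv w hw (l • a) (W₁.smul_mem _ ha) b hb (by simp [k1]) k2 (by simp [k3])
    have k6 : B b w • a ∈ N := by
      refine (Submodule.smul_mem_iff _ (sub_ne_zero.mpr hl)).mp ?_
      convert sub_mem k5 (N.smul_mem (σ l) k4) using 1
      simp only [LinearMap.map_smulₛₗ, LinearMap.smul_apply, smul_eq_mul]
      (module)
    exact ⟨hN1 _ k6 (W₁.smul_mem _ ha), hN2 _ (by simpa using add_mem k4 k6) (W₂.smul_mem _ hb)⟩
  have hsp : ∀ w ∈ N, ∃ s t : F, w = s • u₁ + t • u₂ := fun w hw => by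
    obtain ⟨⟨w₁, k1⟩, ⟨w₂, k2⟩, rfl⟩ := exists_add_of_isCompl S.compl w
    obtain ⟨s, hs⟩ := Submodule.mem_span_singleton.mp (S.mem_span_of_orth h h1 k1 fun b hb k3 => by
      obtain ⟨a, ha, ha0, k4, k5⟩ := S.exists_orth h u₂ b
      have := (smul_eq_zero.mp (hz _ hw a ha b hb k4 k3 (h.eq_zero_comm.mp k5)).1).resolve_right ha0
      exact h.eq_zero_comm.mp (by simpa [S.orth₂ hb k2] using this))
    obtain ⟨t, ht⟩ := Submodule.mem_span_singleton.mp (S.symm.mem_span_of_orth h h2 k2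
      fun a ha k3 => by
      obtain ⟨b, hb, hb0, k4, k5⟩ := S.symm.exists_orth h u₁ a
      have := (smul_eq_zero.mp (hz _ hw a ha b hb k3 k4 k5).2).resolve_right hb0
      exact h.eq_zero_comm.mp (by simpa [S.orth₁ ha k1] using this))
    exact ⟨s, t, by rw [hs, ht]⟩
  have h3 := finrank_le_finrank_inf_perp h W₂ (F ∙ e)
  have h4 := finrank_span_singleton_le (F := F) e
  have h5 : finrank F N = _ := LinearEquiv.finrank_map_eq g _
  have := S.dim₂
  obtain ⟨w, hw, hw0⟩ := exists_notMem_of_lt (W := N) (Z := ⊥) (by simp only [finrank_bot]; omega)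
  obtain ⟨w', hw', hw0'⟩ := exists_notMem_of_lt (W := N) (Z := F ∙ w)
    (by have := finrank_span_singleton_le (F := F) w; omega)
  obtain ⟨s, t, rfl⟩ := hsp w hw
  obtain ⟨s', t', rfl⟩ := hsp w' hw'
  have ht : t ≠ 0 := fun h0 => hw0 (hN1 _ hw (by simpa [h0] using W₁.smul_mem _ h1))
  have := hN1 _ (sub_mem hw' (N.smul_mem (t' / t) hw)) (by
    convert W₁.smul_mem (s' - t' / t * s) h1 using 1
    match_scalars <;> field_simp <;> ring)
  exact hw0' (sub_eq_zero.mp this ▸ Submodule.smul_mem _ _ (Submodule.mem_span_singleton_self _))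

theorem le_or_le {g : V ≃ₗ[F] V} (hg : g ∈ K) :
    (∀ a ∈ W₁, g a ∈ W₁) ∨ ∀ a ∈ W₁, g a ∈ W₂ := by
  by_contra hcon
  push Not at hcon
  obtain ⟨⟨a, h1, h2⟩, b, h3, h4⟩ := hcon
  have h5 := (S.apply_mem_or h hσ hK hg h1).resolve_left h2
  have h6 := (S.apply_mem_or h hσ hK hg h3).resolve_right h4
  rcases S.apply_mem_or h hσ hK hg (add_mem h1 h3) with h7 | h7 <;> rw [map_add] at h7
  · exact h2 ((Submodule.add_mem_iff_left _ h6).mp h7)
  · exact h4 ((Submodule.add_mem_iff_right _ h5).mp h7)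

end Pair3

theorem IsBar.isMaximalIn_pair' (hσ : IsBar q σ) {n k : ℕ} (hk : 3 ≤ k)
    {D : Fin 2 → Submodule F (Fin n → F)} (hD : Geo.IsMDecomposition k D)
    (hts : ∀ i, Geo.IsTotallySingularFor (hermForm n F q) (D i)) :
    Geo.IsMaximalIn (GU n F q ⊓ Geo.specialLinear (Fin n) F)
      (Geo.decompositionStabilizer D ⊓ (GU n F q ⊓ Geo.specialLinear (Fin n) F)) := by
  have := hσ.finite
  have h := hσ.isHerm (ι := Fin n)
  have h1 := fun i => hσ.le_perp_of_singular (hts i)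
  have h2 := hD.finrank_eq
  have hc : IsCompl (D 0) (D 1) := ⟨hD.indep.pairwiseDisjoint (by decide), codisjoint_iff_le_sup.mpr (by
    rw [← hD.iSup_eq_top]
    exact iSup_le (Fin.forall_fin_two.mpr ⟨le_sup_left, le_sup_right⟩))⟩
  refine hσ.isMaximalIn_of (fun g _ => mem_decompositionStabilizer_iff g) ?_ fun K hH hK => ?_
  · obtain ⟨a, ha, ha0⟩ := exists_notMem_of_lt (W := D 0) (Z := ⊥) (by simp [h2]; omega)
    have h3 := finrank_le_finrank_inf_perp h (D 1) (F ∙ a)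
    have h4 := finrank_span_singleton_le (F := F) a
    obtain ⟨b, hb, hb0⟩ := exists_notMem_of_lt (W := D 1 ⊓ perp (stdForm σ (Fin n)) (F ∙ a))
      (Z := ⊥) (by rw [h2] at h3; simp only [finrank_bot]; omega)
    have h5 := mem_perp_singleton.mp hb.2
    have h6 : a + b ∉ D 0 := fun hm => hb0 (hc.disjoint.le_bot
      ⟨(Submodule.add_mem_iff_right _ ha).mp hm, hb.1⟩)
    refine h.not_SUG_le_decStab ((Submodule.finrank_le (D 0)).trans' (by rw [h2]; omega)) ha ha0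
      (v := a + b) (fun h0 => h6 (h0 ▸ zero_mem _)) (by
        simp [h5, h.eq_zero_comm.mp h5, show stdForm σ (Fin n) b b = 0 from h1 1 hb.1 b hb.1])
      (Fin.forall_fin_two.mpr ⟨h6, fun hm => ha0 (hc.disjoint.le_bot
        ⟨ha, (Submodule.add_mem_iff_left _ hb.1).mp hm⟩)⟩)
  refine or_iff_not_imp_right.mpr fun hK' g hg => ?_
  obtain ⟨k, rfl⟩ : ∃ k', k = k' + 1 := ⟨k - 1, by omega⟩
  obtain ⟨s, hs, hs1, hs2⟩ := h.exists_swap_pair hσ hc (h1 0) (h1 1) (h2 0) (h2 1)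
  have S : Pair3 (stdForm σ (Fin n)) (D 0) (D 1) K := ⟨hc, h1 0, h1 1, (h2 0).symm ▸ hk,
    (h2 1).symm ▸ hk, hK, fun g h3 h4 h5 =>
      hH ⟨mem_decStab_of_forall (Fin.forall_fin_two.mpr ⟨h4, h5⟩), h3⟩, s,
    hH ⟨mem_decStab_of_perm h2 (Equiv.swap 0 1) (Fin.forall_fin_two.mpr ⟨hs1, hs2⟩), hs⟩, hs1, hs2⟩
  have key : ∀ i, ¬ ((∀ a ∈ D 0, g a ∈ D i) ∧ ∀ a ∈ D 1, g a ∈ D i) := fun i ⟨h3, h4⟩ => by
    have := Submodule.finrank_mono (Submodule.map_le_iff_le_comap.mpr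
      (sup_le h3 h4 : D 0 ⊔ D 1 ≤ (D i).comap g.toLinearMap))
    rw [LinearEquiv.finrank_map_eq, hc.sup_eq_top, finrank_top,
      ← Submodule.finrank_add_eq_of_isCompl hc, h2, h2, h2] at this
    omega
  rcases S.le_or_le h hσ hK' hg with h3 | h3 <;> rcases S.symm.le_or_le h hσ hK' hg with h4 | h4
  · exact mem_decStab_of_forall (Fin.forall_fin_two.mpr ⟨h3, h4⟩)
  · exact absurd ⟨h3, h4⟩ (key 0)
  · exact absurd ⟨h3, h4⟩ (key 1)
  · exact mem_decStab_of_perm h2 (Equiv.swap 0 1) (Fin.forall_fin_two.mpr ⟨h3, h4⟩)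

end Cfsg.Lib.Unitary
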