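import Cfsg.Agent.Lib.Unitary.MaxFrameC

/-!
# Overgroups of the monomial group in `SU_6`: the case of a large point stabiliser
-/

set_option autoImplicit false

namespace Cfsg.Lib.Unitary

open Module Finset

variable {F V : Type*} [Field F] [AddCommGroup V] [Module F V] {σ : F →+* F}
  {B : V →ₛₗ[σ] V →ₗ[F] F} {q : ℕ}

theorem IsBar.exists_triangle (hσ : IsBar q σ) {a b c : F} (ha : σ a = a) (hb : σ b = b)
    (hc : σ c = c) (ha0 : a ≠ 0) (hb0 : b ≠ 0) (hc0 : c ≠ 0) : ∃ r s t : F, r * σ r = 1 ∧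
      s * σ s = 1 ∧ t * σ t = 1 ∧ r ≠ 1 ∧ (r - 1) * a + (s - 1) * b + (t - 1) * c = 0 := by
  by_cases hm : a + b + c = 0
  · obtain ⟨l, h1, h2⟩ := hσ.exists_norm_one_ne_one
    exact ⟨l, l, l, h1, h1, h1, h2, by linear_combination (l - 1) * hm⟩
  obtain ⟨μ, ν, h1, h2, h3, h4⟩ := hσ.exists_norm_one_pair (a := a * (a + b + c)) (b := b * c)
    (c := 0) (by simp [ha, hb, hc]) (by simp [hb, hc]) (map_zero σ) (mul_ne_zero ha0 hm)
    (mul_ne_zero hb0 hc0)
  have h5 : (a + b + c - a * μ) * σ (a + b + c - a * μ) = (b * ν + c) * σ (b * ν + c) := by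
    simp only [map_sub, map_add, map_mul, ha, hb, hc]
    linear_combination h4 + a ^ 2 * h1 - b ^ 2 * h2
  by_cases h6 : b * ν + c = 0
  · rw [h6, zero_mul, mul_eq_zero, map_eq_zero, or_self] at h5
    exact ⟨μ, ν, 1, h1, h2, by simp, h3, by linear_combination h6 - h5⟩
  have h7 := (map_ne_zero σ).mpr h6
  obtain ⟨θ, h8⟩ : ∃ θ, θ * (b * ν + c) = a + b + c - a * μ := ⟨_, div_mul_cancel₀ _ h6⟩
  have h9 : θ * σ θ = 1 := by
    rw [← h8, map_mul] at h5
    exact mul_right_cancel₀ (mul_ne_zero h6 h7) (by linear_combination h5)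
  exact ⟨μ, θ * ν, θ, h1, by rw [map_mul]; linear_combination ν * σ ν * h9 + h2, h9, h3,
    by linear_combination h8⟩

variable {ι : Type*} [Fintype ι] [DecidableEq ι]

namespace FrameStr

variable {e : ι → V} {K : Subgroup (V ≃ₗ[F] V)} (S : FrameStr B e K) [FiniteDimensional F V]
  (hσ : IsBar q σ) (hn : 6 ≤ Fintype.card ι)
include S hσ hn

/-- An Eichler map with a short centre forces `K = SU`. -/
theorem SUG_le_of_short' {u w : V} (hu : B u u = 0) (hu0 : u ≠ 0) (hu4 : (supp B e u).card ≤ 3)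
    (hw : w ∈ S.herm.AE K hu) {k k₀ : ι} (hk : k ≠ k₀) (h1 : B (e k) u = 0) (h2 : B (e k₀) u = 0)
    (h3 : B (e k) w ≠ 0) (h4 : B (e k₀) w = 0) : SUG B ≤ K := by
  have := hσ.finite
  have h := S.herm
  obtain ⟨μ, hμ, hμ'⟩ := hσ.exists_norm_one_ne_one
  have h5 : ∀ l, l * σ l = 1 → ∀ w ∈ h.AE K hu, B (e k₀) w = 0 →
      ((l - 1) * B (e k) w) • e k ∈ h.AE K hu := fun l hl w hw h4 => by
    obtain ⟨s, hs, e1⟩ := S.exists_diag_two hk hl
    simpa [e1 w, h4] using h.sub_mem_AE hu S.leU hs (by simp [e1 u, h1, h2]) hw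
  have h6 := hσ.smul_mem_of_norm_one (fun a l hl ha => by
    simpa [S.on, ← add_smul, sub_mul] using add_mem (h5 l hl _ ha (by simp [S.on, hk.symm])) ha)
    (mul_ne_zero (sub_ne_zero.mpr hμ') h3) (h5 μ hμ w hw h4)
  have h7 := fun k' hk' => S.smul_mem_AE_of_perm hu h1 (k' := k') hk' h6
  obtain ⟨i, hi⟩ : ∃ i, B (e i) u ≠ 0 := by
    by_contra hcon
    push Not at hcon
    exact hu0 (S.top u hcon)
  have hik : i ≠ k := by rintro rfl; exact hi h1
  obtain ⟨s, hs, e1⟩ := S.exists_diag_two hik hμ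
  have hf : B (s u) (s u) = 0 := (S.leU hs u u).trans hu
  have huf : B u (s u) ≠ 0 := by
    simpa [e1 u, hu, h1, sub_ne_zero.mpr hμ', hi] using fun h0 => hi (h.eq_zero_comm.mp h0)
  have hfu : B (s u) u ≠ 0 := fun h0 => huf (h.eq_zero_comm.mp h0)
  have h8 : ∀ k', B (e k') u = 0 → ∀ t : F, t • e k' ∈ h.AE K hf := fun k' hk' =>
    S.smul_mem_AE_of_perm hf (k := k₀) (by
      simp [e1 u, h1, h2, S.on, show k₀ ≠ i by rintro rfl; exact hi h2])
      (by simp [e1 u, h1, hk', S.on, show k' ≠ i by rintro rfl; exact hi hk']) fun t => by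
      simpa [e1 (e k₀), S.on, hk, show i ≠ k₀ by rintro rfl; exact hi h2] using
        h.conj_mem_AE hu S.leU hf hs one_ne_zero (one_smul _ _).symm (h7 k₀ h2 t)
  let T := (supp B e u)ᶜ
  have hT : 3 ≤ T.card := by rw [card_compl]; omega
  have hTu : ∀ k, k ∈ T ↔ B (e k) u = 0 := by simp [T]
  let W := Submodule.span F (e '' T)
  have hWu : ∀ x ∈ W, B u x = 0 ∧ B (s u) x = 0 := fun x hx => by
    have h9 : ∀ j, B (e j) u ≠ 0 → B (e j) x = 0 := fun j hj => by_contra fun h0 =>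
      hj ((hTu j).mp (S.mem_span_iff.mp hx (mem_supp.mpr h0)))
    have h10 : B u x = 0 := by
      rw [S.form_eq]
      exact sum_eq_zero fun j _ => by by_cases hj : B (e j) u = 0 <;> simp [hj, h9]
    exact ⟨h10, by simp [e1 u, h10, h1, LinearMap.map_smulₛₗ, h9 i hi]⟩
  have hY' : ∀ x ∈ Submodule.span F {u, s u} ⊔ W, ∃ a b : F, ∃ w ∈ W, x = a • u + b • s u + w :=
    fun x hx => by
      obtain ⟨y, hy, w, hw, rfl⟩ := Submodule.mem_sup.mp hx
      obtain ⟨a, b, rfl⟩ := Submodule.mem_span_pair.mp hy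
      exact ⟨a, b, w, hw, rfl⟩
  have hW : ∀ k ∈ T, e k ∈ Submodule.span F {u, s u} ⊔ W := fun k hk =>
    Submodule.mem_sup_right (Submodule.subset_span ⟨k, hk, rfl⟩)
  have hY : Disjoint (Submodule.span F {u, s u} ⊔ W) (perp B (Submodule.span F {u, s u} ⊔ W)) :=
    Submodule.disjoint_def.mpr fun x hx hx' => by
      obtain ⟨a, b, w, hw, rfl⟩ := hY' x hx
      have k1 := mem_perp.mp hx' u (Submodule.mem_sup_left (Submodule.subset_span (by simp)))
      have k2 := mem_perp.mp hx' (s u) (Submodule.mem_sup_left (Submodule.subset_span (by simp)))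
      simp [hu, hf, huf, hfu, hWu w hw] at k1 k2
      subst k1 k2
      simp only [zero_smul, zero_add] at hx' ⊢
      exact S.top w fun j => by_contra fun h0 =>
        h0 (hx' _ (hW j (S.mem_span_iff.mp hw (mem_supp.mpr h0))))
  have hS := h.SU_le_of_AE hY hσ ((hT.trans (S.finrank_span T).ge).trans_lt
    (Submodule.finrank_lt_finrank_of_lt (lt_of_le_of_ne le_sup_right fun h0 =>
      hi ((hTu i).mp (S.mem_span_iff.mp (h0.ge (Submodule.mem_sup_left
        (Submodule.subset_span (by simp)))) (mem_supp.mpr hi)))))) S.leU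
    (Submodule.mem_sup_left (Submodule.subset_span (by simp)))
    (Submodule.mem_sup_left (Submodule.subset_span (by simp))) hu hf huf
    (fun x hx hx' => by
      obtain ⟨a, b, w, hw, rfl⟩ := hY' x hx
      simp [hu, huf, hWu w hw] at hx'
      simpa [hx'] using add_mem (h.smul_self_mem_AE hu a) (S.mem_of_supp fun j hj =>
        h7 j ((hTu j).mp (S.mem_span_iff.mp hw hj))))
    (fun x hx hx' => by
      obtain ⟨a, b, w, hw, rfl⟩ := hY' x hx
      simp [hf, hfu, hWu w hw] at hx'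
      simpa [hx'] using add_mem (h.smul_self_mem_AE hf b) (S.mem_of_supp fun j hj =>
        h8 j ((hTu j).mp (S.mem_span_iff.mp hw hj))))
  obtain ⟨k₁, a1, k₂, a2, k₃, a3, a4, a5, a6⟩ := two_lt_card.mp (show 2 < T.card by omega)
  obtain ⟨θ, hθ⟩ := h.exists_norm_eq (μ := -1) (by simp)
  have hx : B (e k₁ + θ • e k₂) (e k₁ + θ • e k₂) = 0 := by
    simp [LinearMap.map_smulₛₗ, S.on, a4, a4.symm, hθ, mul_comm (σ θ)]
  have hxY := add_mem (hW k₁ a1) (Submodule.smul_mem _ θ (hW k₂ a2))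
  have hx0 : e k₁ + θ • e k₂ ≠ 0 := fun h0 => by simpa [S.on, a4] using congrArg (B (e k₁)) h0
  obtain ⟨f, hfY, hf, hef⟩ := h.exists_hyperbolic_mem hY hxY hx0 hx
  obtain ⟨δ, hδ0, hδ⟩ := h.exists_skew
  refine h.SUG_le_of_AE hσ (by rw [S.finrank_eq]; omega) S.leU hx (hef ▸ one_ne_zero) hδ0
    (h.transv_mem_of_SU hS hfY δ hf (by simp [hδ])) fun y hy => ?_
  have h9 : y - B (e k₁) y • e k₁ - B (e k₂) y • e k₂ ∈ h.AE K hx := S.mem_of_supp fun j hj => by
    have b1 : j ≠ k₁ := by rintro rfl; simp [S.on, a4] at hj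
    have b2 : j ≠ k₂ := by rintro rfl; simp [S.on, a4.symm] at hj
    exact S.smul_mem_AE_of_perm hx (k := k₃) (by simp [S.on, a5.symm, a6.symm])
      (by simp [S.on, b1, b2]) fun t => h.mem_AE_of_SU hS hxY (Submodule.smul_mem _ _ (hW k₃ a3)) hx
        (by simp [LinearMap.map_smulₛₗ, S.on, a5, a6])
  simpa using add_mem h9 (h.mem_AE_of_SU hS hxY (add_mem
    (Submodule.smul_mem _ (B (e k₁) y) (hW k₁ a1)) (Submodule.smul_mem _ (B (e k₂) y) (hW k₂ a2))) hx
    (by simpa [LinearMap.map_smulₛₗ, S.on, a4, a4.symm, mul_comm] using hy))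

theorem homCtr_grow' {i₀ : ι} {a : V} (ha : HomCtr B K (e i₀) a) (h1 : 2 ≤ (supp B e a).card)
    (h2 : (supp B e a).card ≤ 3) :
    ∃ a', HomCtr B K (e i₀) a' ∧ (supp B e a').card + 1 = 2 * (supp B e a).card := by
  have := hσ.finite
  obtain ⟨i, hi⟩ := card_pos.mp (show 0 < (supp B e a).card by omega)
  obtain ⟨T, hT, hTc⟩ := exists_subset_card_eq (s := (supp B e a)ᶜ.erase i₀)
    (n := (supp B e a).card - 1) (by
      have := pred_card_le_card_erase (s := (supp B e a)ᶜ) (a := i₀)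
      rw [card_compl] at this
      omega)
  have hT1 : ∀ j ∈ T, B (e j) a = 0 := fun j hj => by simpa using (mem_erase.mp (hT hj)).2
  have hiT : i ∉ T := fun h => mem_supp.mp hi (hT1 i h)
  have h0 : i₀ ∉ insert i T := by
    simp only [mem_insert, not_or]
    exact ⟨by rintro rfl; exact mem_supp.mp hi ha.2.1, fun h => (mem_erase.mp (hT h)).1 rfl⟩
  obtain ⟨π, hπ⟩ := Equiv.Perm.exists_map_finset_eq (s := supp B e a) (t := insert i T)
    (by rw [card_insert_of_notMem hiT]; omega)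
  have h3 : ∀ j, π j ∈ insert i T ↔ j ∈ supp B e a := fun j => by rw [← hπ]; simp
  obtain ⟨m, hm, m1, -⟩ := S.exists_perm (π.trans (Equiv.swap (π i₀) i₀)) i₀
  have h4 : supp B e (m a) = insert i T := by
    ext j
    obtain ⟨j, rfl⟩ := (π.trans (Equiv.swap (π i₀) i₀)).surjective j
    rw [S.mem_supp_apply (S.leU hm) (m1 j), ← h3, Equiv.trans_apply, Equiv.swap_apply_def]
    have : π i₀ ∉ insert i T := by simp [h3, ha.2.1]
    split_ifs with h5 h6
    · simp [h5, this, h0]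
    · simp [h6, this, h0]
    · rfl
  have h5 := S.homCtr_apply ha hm (by simpa using m1 i₀)
  generalize m a = b at h4 h5
  obtain ⟨l, hl, hl'⟩ := hσ.exists_norm_one_sq_ne
  obtain ⟨x, hx, e1⟩ := h5.2.2 l hl
  have h6 : ∀ j, B (e j) b ≠ 0 ↔ j = i ∨ j ∈ T := fun j => by rw [← mem_supp, h4, mem_insert]
  have h7 : B b a = σ (B (e i) b) * B (e i) a := by
    rw [S.form_eq, sum_eq_single i _ (by simp)]
    intro j _ hj
    by_cases h : B (e j) b = 0
    · simp [h]
    · simp [hT1 j (((h6 j).mp h).resolve_left hj)]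
  refine ⟨x a, S.homCtr_apply ha hx (Submodule.mem_span_singleton.mpr ⟨σ l, by
    simp [e1 (e i₀), S.herm.eq_zero_comm.mp h5.2.1, S.on, sub_smul]⟩), ?_⟩
  rw [show supp B e (x a) = supp B e a ∪ T from ?_, card_union_of_disjoint
    (disjoint_left.mpr fun j h h' => mem_supp.mp h (hT1 j h'))]
  · omega
  ext j
  simp only [mem_supp, e1 a, ha.2.1, h7, mem_union, map_add, map_smul, smul_eq_mul, mul_zero,
    zero_smul, add_zero]
  by_cases hj : j = i
  · subst hj
    refine iff_of_true (fun h0 => mul_ne_zero (mem_supp.mp hi) (S.herm.one_add_ne hl'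
      (n := B (e j) b * σ (B (e j) b)) (by simp [S.herm.invol, mul_comm])) ?_) (Or.inl (mem_supp.mp hi))
    linear_combination h0
  by_cases hj' : j ∈ T
  · have : l - 1 ≠ 0 := fun h0 => hl' (by simp [sub_eq_zero.mp h0])
    simp [hj', hT1 j hj', this, (h6 i).mpr (Or.inl rfl), mem_supp.mp hi, (h6 j).mpr (Or.inr hj')]
  · simp [hj', not_not.mp ((h6 j).not.mpr (by simp [hj, hj']))]

theorem SUG_le_of_homCtr' {i₀ : ι} {a : V} (ha : HomCtr B K (e i₀) a)
    (h1 : 4 ≤ (supp B e a).card) : SUG B ≤ K := by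
  have h := S.herm
  obtain ⟨k, hk, i, a1, j, a2, i', a3, b1, b2, b3, b4, b5, b6⟩ := three_lt_card.mp
    (show 3 < (supp B e a).card by omega)
  simp only [mem_supp] at a1 a2 a3 hk
  have hN : ∀ x : F, σ (x * σ x) = x * σ x := fun x => by rw [map_mul, h.invol, mul_comm]
  have hN' : ∀ {x : F}, x ≠ 0 → x * σ x ≠ 0 := fun hx => mul_ne_zero hx ((map_ne_zero σ).mpr hx)
  obtain ⟨r, s, t, c1, c2, c3, c4, c5⟩ := hσ.exists_triangle (hN _) (hN _) (hN _) (hN' a1) (hN' a2)
    (hN' a3)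
  have h0 : ∀ j, B (e j) a ≠ 0 → j ≠ i₀ := by rintro j hj rfl; exact hj ha.2.1
  have step : ∀ {b : V} {m : ι} {l : F}, HomCtr B K (e i₀) b → m ≠ i₀ → l * σ l = 1 →
      HomCtr B K (e i₀) (b + ((l - 1) * B (e m) b) • e m) := fun {b m l} hb hm hl => by
    obtain ⟨x, hx, e1⟩ := S.exists_diag_two hm hl
    simpa [e1 b, hb.2.1] using S.homCtr_apply hb hx (Submodule.mem_span_singleton.mpr ⟨σ l, by
      simp [e1 (e i₀), S.on, hm, sub_smul]⟩)
  obtain ⟨u, hu⟩ : ∃ u, u = ((r - 1) * B (e i) a) • e i + ((s - 1) * B (e j) a) • e j +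
    ((t - 1) * B (e i') a) • e i' := ⟨_, rfl⟩
  have h3 : HomCtr B K (e i₀) (a + u) := by
    convert step (step (step ha (h0 _ a1) c1) (h0 _ a2) c2) (h0 _ a3) c3 using 1
    simp [hu, S.on, b4.symm, b5.symm, b6.symm, add_assoc]
  have hau : B a u = 0 := by
    simp only [hu, map_add, map_smul, ← h.symm (e _) a, smul_eq_mul]
    linear_combination c5
  have hua := h.eq_zero_comm.mp hau
  have huu : B u u = 0 := by simpa [hau, hua, ha.1] using h3.1
  have h4 : ∀ k, k ≠ i → k ≠ j → k ≠ i' → B (e k) u = 0 := fun k h1 h2 h3 => by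
    simp [hu, S.on, h1, h2, h3]
  have h5 := h4 i₀ (h0 _ a1).symm (h0 _ a2).symm (h0 _ a3).symm
  obtain ⟨l, hl, hl'⟩ := hσ.exists_norm_one_ne_one
  obtain ⟨x, hx, e1⟩ := ha.2.2 (σ l) (by rw [h.invol, mul_comm, hl])
  obtain ⟨y, hy, e2⟩ := h3.2.2 l hl
  refine S.SUG_le_of_short' hσ hn huu (fun h0 => by
      simpa [hu, S.on, b4, b5, sub_eq_zero, c4, a1] using congrArg (B (e i)) h0)
    ((card_le_card (t := {i, j, i'}) fun k hk => by_contra fun hk' => ?_).trans card_le_three)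
    (w := (l - 1) • a) ⟨by simp [hua], y * x, mul_mem hy hx, l - 1, fun v => ?_⟩ (h0 k hk)
    (h4 k b1 b2 b3) h5 (by simp [sub_ne_zero.mpr hl', hk])
    (by simp [ha.2.1])
  · simp only [mem_insert, mem_singleton, not_or] at hk'
    exact mem_supp.mp hk (h4 k hk'.1 hk'.2.1 hk'.2.2)
  · rw [LinearEquiv.mul_apply, e2, e1]
    simp only [map_add, map_smul, LinearMap.add_apply, ha.1, ha.2.1, hua, h.eq_zero_comm.mp h5,
      h.eq_zero_comm.mp ha.2.1, S.self, h.invol, LinearMap.map_smulₛₗ, LinearMap.smul_apply,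
      smul_eq_mul, map_sub, map_one]
    linear_combination (norm := module) (B a v * hl) • (a + u) + (B (e i₀) v * hl) • e i₀

/-- If a non-monomial element fixes a point of the frame, then `K = SU`. -/
theorem SUG_le_of_fix' {g : V ≃ₗ[F] V} (hg : g ∈ K) (hg' : g ∉ decStab fun i => F ∙ e i) {i₀ : ι}
    (h0 : g (e i₀) ∈ F ∙ e i₀) : SUG B ≤ K := by
  obtain ⟨j, hj⟩ : ∃ j, ∀ i, g (e j) ∉ F ∙ e i := by
    by_contra hcon
    push Not at hcon
    exact hg' (S.mem_mono (S.leU hg) hcon)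
  have h1 : j ≠ i₀ := by rintro rfl; exact hj _ h0
  have h2 := S.homCtr_apply (a := e j) ⟨S.self j, by simp [S.on, h1.symm],
    fun l hl => S.exists_diag_two h1 hl⟩ hg h0
  have h3 : 2 ≤ (supp B e (g (e j))).card := by
    by_contra hlt
    have : Nonempty ι := ⟨i₀⟩
    obtain ⟨i, hi⟩ := card_le_one_iff_subset_singleton.mp (show (supp B e (g (e j))).card ≤ 1 by omega)
    exact hj i (S.mem_span_singleton_iff.mpr hi)
  by_cases h4 : (supp B e (g (e j))).card ≤ 3
  swap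
  · exact S.SUG_le_of_homCtr' hσ hn h2 (by omega)
  obtain ⟨a, a1, a2⟩ := S.homCtr_grow' hσ hn h2 h3 h4
  by_cases h5 : (supp B e a).card ≤ 3
  swap
  · exact S.SUG_le_of_homCtr' hσ hn a1 (by omega)
  obtain ⟨b, b1, b2⟩ := S.homCtr_grow' hσ hn a1 (by omega) h5
  exact S.SUG_le_of_homCtr' hσ hn b1 (by omega)

end FrameStr

end Cfsg.Lib.Unitary
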