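import Cfsg.Agent.Lib.Unitary.Sub10A

/-!
# Maximality of subfield subgroups of `SU_n(q)`, `n ≥ 10`, II
-/

set_option autoImplicit false

namespace Cfsg.Lib.Unitary

open Module

variable {F V : Type*} [Field F] [AddCommGroup V] [Module F V] {σ : F →+* F}
  {B : V →ₛₗ[σ] V →ₗ[F] F} {q : ℕ}

namespace Rat10

variable {τ : F ≃+* F} {T : AddMonoid.End V} {ζ ε : F} (R : Rat10 B τ T ζ ε) [Finite F]
  [FiniteDimensional F V] (h : IsHerm σ B) (hn : 10 ≤ finrank F V) {K : Subgroup (V ≃ₗ[F] V)}
  (hH : ratStab F T ⊓ SUG B ≤ K) (hK : K ≤ SUG B) (hσ : IsBar q σ)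
include R h hn

omit [Finite F] hn in
/-- A transvection commuting with `T` has a rational centre. -/
theorem rat_of_transv {v : V} {c : F} {hv hc} (hc0 : c ≠ 0)
    (hT : ∀ x, T (transv B v c hv hc x) = transv B v c hv hc (T x)) : T v ∈ F ∙ v := by
  by_cases hv0 : v = 0
  · simp [hv0]
  obtain ⟨x, hx⟩ := h.exists_eq_one hv0
  have := hT x
  rw [transv_apply, transv_apply, map_add, R.smul, hx, mul_one, add_right_inj] at this
  exact (Submodule.smul_mem_iff _ ((map_ne_zero τ).mpr hc0)).mp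
    (this ▸ Submodule.smul_mem _ _ (Submodule.mem_span_singleton_self v))

theorem exists_theta : ∃ θ, τ θ ≠ θ := by
  by_contra hne
  push Not at hne
  have : τ = 1 := RingEquiv.ext hne
  have h1 := R.prime
  rw [this, orderOf_one] at h1
  exact Nat.not_prime_one h1

theorem not_SUG_le : ¬ SUG B ≤ ratStab F T := fun hle => by
  obtain ⟨e, hTe, he, -, -, -, -, he0⟩ := R.exists_iso_notMem h hn (map_zero T) (map_zero T)
    (map_zero T) (map_zero T) (Z := ⊥) (by simp)
  rw [Submodule.mem_bot] at he0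
  obtain ⟨e', a1, a2, a3, -, -, -, a4⟩ := R.exists_iso_notMem h hn hTe hTe hTe hTe (Z := F ∙ e)
    ((finrank_span_one_le _).trans (by omega))
  obtain ⟨θ, hθ⟩ := R.exists_theta h hn
  obtain ⟨δ, hδ0, hδ⟩ := h.exists_skew
  have hv : B (e + θ • e') (e + θ • e') = 0 := by
    simp [LinearMap.map_smulₛₗ, he, a2, a3, h.eq_zero_comm.mp a3]
  have h1 := R.rat_of_transv h hδ0 (comm_of_mem_ratStab
    (hle (h.transv_mem_SUG _ δ hv (by simp [hδ]))) he0 hTe
    (by simp [LinearMap.map_smulₛₗ, he, h.eq_zero_comm.mp a3]))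
  obtain ⟨d, hd⟩ := Submodule.mem_span_singleton.mp h1
  rw [map_add, R.smul, hTe, a1] at hd
  have h2 : (d * θ - τ θ) • e' = (1 - d) • e := by linear_combination (norm := module) hd
  have h3 : d * θ - τ θ = 0 := by
    by_contra hne
    exact a4 ((Submodule.smul_mem_iff _ hne).mp
      (h2 ▸ Submodule.smul_mem _ _ (Submodule.mem_span_singleton_self e)))
  rw [h3, zero_smul, eq_comm, smul_eq_zero, sub_eq_zero] at h2
  rw [← h2.resolve_right he0] at h3
  exact hθ (by linear_combination -h3)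

include hH hK hσ

/-- The case of a quadratic extension. -/
theorem max_two (h2 : orderOf τ = 2) : K ≤ ratStab F T ∨ SUG B ≤ K := by
  refine or_iff_not_imp_right.mpr fun hK' g hg => R.mem_ratStab_of_points h hn fun a hTa ha => ?_
  have hTT : ∀ v, T (T v) = v := fun v => by
    have := R.pow
    rw [h2, sq] at this
    exact DFunLike.congr_fun this v
  have hgU := (hK hg).1
  by_cases ha0 : a = 0
  · exact ⟨0, by simp [ha0]⟩
  have key : ∀ b, T b = b → B b b = 0 → B a b = 0 → b ∉ F ∙ a →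
      T (g a) ∈ Submodule.span F {g a, g b} := by
    intro b hTb hb hab hba
    obtain ⟨x, hx, e1⟩ := R.exists_eichler_zero_mem h hTa hTb ha hab hb
    obtain ⟨e, a1, a2, a3, a4⟩ := R.exists_iso_perp h hn
      (W := Submodule.span F {g a, T (g a), g b, T (g b)}) (Z := ⊥)
      (R.inv_span' (by simp [hTT, Submodule.mem_span_of_mem])) (finrank_span_four_le ..) (by simp)
    rw [mem_perp_span] at a1
    have hy : ∀ v, (g * x * g⁻¹) v = v + (ζ * B (g a) v) • g b - (σ ζ * B (g b) v) • g a :=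
      fun v => by
        rw [LinearEquiv.mul_apply, LinearEquiv.mul_apply, e1, ← UG_apply_left hgU,
          ← UG_apply_left hgU]
        simp only [map_add, map_sub, map_smul, LinearMap.map_smulₛₗ, LinearMap.smul_apply,
          smul_eq_mul, LinearEquiv.coe_inv, LinearEquiv.apply_symm_apply]
        (module)
    have hye : (g * x * g⁻¹) e = e := by simp [hy, a1 (g a), a1 (g b)]
    have hc := comm_of_mem_ratStab (R.mem_ratStab_of_stab h hn hH hK a2 a3 hσ hK' a4
      (mul_mem (mul_mem hg (hH hx)) (inv_mem hg)) (a := 1) (by rw [hye, one_smul])) a4 a2 hye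
    obtain ⟨v, hv1, hv2⟩ : ∃ v, B (g a) v = 0 ∧ B (g b) v ≠ 0 := by
      by_contra hcon
      push Not at hcon
      refine hba ?_
      rw [← h.perp_perp (F ∙ a)]
      intro w hw
      exact h.eq_zero_comm.mp ((hgU b w).symm.trans (hcon (g w)
        ((hgU a w).trans (mem_perp_singleton.mp hw))))
    have h3 := hc v
    rw [hy, hy, hv1, mul_zero, zero_smul, add_zero, map_sub, R.smul] at h3
    refine (Submodule.smul_mem_iff _ ((map_ne_zero τ).mpr
      (mul_ne_zero ((map_ne_zero σ).mpr R.zeta_ne) hv2))).mp (Submodule.mem_span_pair.mpr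
        ⟨σ ζ * B (g b) (T v), -(ζ * B (g a) (T v)), ?_⟩)
    linear_combination (norm := module) h3
  obtain ⟨b, b1, b2, b3, -, -, -, b4⟩ := R.exists_iso_notMem h hn hTa hTa hTa hTa (Z := F ∙ a)
    ((finrank_span_one_le _).trans (by omega))
  obtain ⟨b', c1, c2, c3, -, -, -, c4⟩ := R.exists_iso_notMem h hn hTa hTa hTa hTa
    (Z := Submodule.span F {a, b}) ((finrank_span_pair_le _ _).trans (by omega))
  obtain ⟨s, t, e1⟩ := Submodule.mem_span_pair.mp (key b b1 b2 b3 b4)
  obtain ⟨s', t', e2⟩ := Submodule.mem_span_pair.mp (key b' c1 c2 c3 fun hm =>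
    c4 (Submodule.span_mono (by simp) hm))
  refine ⟨s', ?_⟩
  have h3 : t' • b' = (s - s') • a + t • b := g.injective (by
    simp only [map_add, map_smul]; linear_combination (norm := module) e2 - e1)
  have h4 : t' = 0 := by
    by_contra hne
    exact c4 ((Submodule.smul_mem_iff _ hne).mp (Submodule.mem_span_pair.mpr ⟨_, _, h3.symm⟩))
  rw [← e2, h4, zero_smul, add_zero]

/-- The case where the subfield group contains transvections. -/
theorem max_transv {c : F} (hc0 : c ≠ 0) (hc : c + σ c = 0) (hτc : τ c = ε * c) :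
    K ≤ ratStab F T ∨ SUG B ≤ K := by
  refine or_iff_not_imp_right.mpr fun hK' g hg => R.mem_ratStab_of_points h hn fun u hTu hu => ?_
  have hKU := hK.trans SUG_le_UG
  have ht : ∀ e, T e = e → ∀ he : B e e = 0, transv B e c he hc ∈ K := fun e hTe he => by
    have := R.eichler_mem h hTe (map_zero T) hτc (he := he) (hew := by simp) (hwe := by simp)
      (by simpa using hc)
    rw [eichler_congr (he' := he) (hew' := by simp) (hwe' := by simp) rfl (smul_zero ζ) rfl,
      eichler_zero e c he hc] at this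
    exact hH this
  have hv : B (g u) (g u) = 0 := (hKU hg u u).trans hu
  have htv : transv B (g u) c hv hc ∈ K := by
    rw [← conj_transv (hKU hg) u c hu hc]
    exact mul_mem (mul_mem hg (ht u hTu hu)) (inv_mem hg)
  generalize g u = v at hv htv
  by_contra hne
  have hno : ∀ e, T e = e → B e e = 0 → e ≠ 0 → B v e ≠ 0 := fun e hTe he he0 hve => by
    have h1 : transv B v c hv hc e = e := by simp [hve]
    obtain ⟨d, hd⟩ := Submodule.mem_span_singleton.mp (R.rat_of_transv h hc0 (comm_of_mem_ratStab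
      (R.mem_ratStab_of_stab h hn hH hK hTe he hσ hK' he0 htv (a := 1) (by rw [h1, one_smul]))
      he0 hTe h1))
    exact hne ⟨d, hd.symm⟩
  obtain ⟨e, hTe, he, -, -, -, -, he0⟩ := R.exists_iso_notMem h hn (map_zero T) (map_zero T)
    (map_zero T) (map_zero T) (Z := ⊥) (by simp)
  rw [Submodule.mem_bot] at he0
  obtain ⟨e', a1, a2, a3, -, -, -, a4⟩ := R.exists_iso_notMem h hn hTe hTe hTe hTe (Z := F ∙ e)
    ((finrank_span_one_le _).trans (by omega))
  have he0' : e' ≠ 0 := by rintro rfl; simp at a4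
  obtain ⟨k, hk, ⟨a, hka⟩, hk'⟩ := h.exists_swap hKU hc0 hc0
    (fun h0 => hno e hTe he he0 (h.eq_zero_comm.mp h0)) (ht e hTe he) htv
  obtain ⟨l, hl, ⟨b, hlb⟩, hl'⟩ := h.exists_swap hKU hc0 hc0 (hno e' a1 a2 he0') htv (ht e' a1 a2)
  have hm : l * k ∈ K := mul_mem hl hk
  have hme : (l * k) e = (a * b) • e' := by
    rw [LinearEquiv.mul_apply, hka, map_smul, hlb, smul_smul]
  have hfix : ∀ x ∈ perp B (Submodule.span F {e, e', v}), (l * k) x = x := fun x hx => by
    rw [mem_perp_span] at hx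
    rw [LinearEquiv.mul_apply, hk' x (hx e (by simp)) (hx v (by simp)),
      hl' x (hx v (by simp)) (hx e' (by simp))]
  generalize l * k = m at hm hme hfix
  have hmT : m ∈ ratStab F T := by
    obtain ⟨w, b1, b2, b3, -, b5⟩ := R.exists_iso_orth h hn (a := e - e')
      (by rw [map_sub, hTe, a1]) (map_zero T) (y := e') (by
        intro hm
        simp only [Set.mem_singleton_iff, Set.insert_eq_of_mem, Submodule.span_insert_zero,
          Set.pair_comm] at hm
        obtain ⟨s, hs⟩ := Submodule.mem_span_singleton.mp hm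
        have h1 : (1 + s) • e' = s • e := by linear_combination (norm := module) -hs
        have h2 : 1 + s = 0 := by
          by_contra hne
          exact a4 ((Submodule.smul_mem_iff _ hne).mp
            (h1 ▸ Submodule.smul_mem _ _ (Submodule.mem_span_singleton_self e)))
        rw [h2, zero_smul, eq_comm, smul_eq_zero] at h1
        simp [h1.resolve_right he0] at h2)
    have b6 : ζ * B w e' ≠ 0 := mul_ne_zero R.zeta_ne fun h0 => b5 (h.eq_zero_comm.mp h0)
    obtain ⟨x, hx, e1⟩ := R.exists_eichler_zero_mem h b1 (x := (ζ * B w e')⁻¹ • (e - e'))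
      (R.fix_smul (by rw [map_inv₀, R.tau_zeta_form b1 a1]) (by rw [map_sub, hTe, a1])) b2
      (by rw [map_smul, h.eq_zero_comm.mp b3, smul_zero])
      (by simp [LinearMap.map_smulₛₗ, a2, a3, he, h.eq_zero_comm.mp a3])
    have hxe : x e' = e := by
      rw [e1]
      simp only [LinearMap.map_smulₛₗ, LinearMap.smul_apply, smul_eq_mul, map_sub,
        LinearMap.sub_apply, a2, a3]
      match_scalars <;> field_simp [left_ne_zero_of_mul b6, right_ne_zero_of_mul b6] <;> ring
    have := R.mem_ratStab_of_stab h hn hH hK hTe he hσ hK' he0 (mul_mem (hH hx) hm) (a := a * b)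
      (by rw [LinearEquiv.mul_apply, hme, map_smul, hxe])
    simpa using mul_mem (inv_mem (show x ∈ ratStab F T from hx.1)) this
  obtain ⟨d, -, hd⟩ := hmT
  obtain ⟨v', hv'⟩ := R.surj v
  have hd1 : d = 1 := by
    have h1 := h.finrank_add_finrank_perp (Submodule.span F {e, e', v, v'})
    have h2 := finrank_span_four_le (F := F) e e' v v'
    obtain ⟨⟨x, hx⟩, hx0⟩ := @exists_ne (perp B (Submodule.span F {e, e', v, v'}))
      (Module.nontrivial_of_finrank_pos (R := F) (by omega)) 0
    rw [mem_perp_span] at hx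
    have h3 := hd x
    rw [hfix x (mem_perp_span.mpr (by simp [hx])), hfix (T x) (mem_perp_span.mpr (by
      simp only [Set.mem_insert_iff, Set.mem_singleton_iff, forall_eq_or_imp, forall_eq,
        R.form_right hTe, R.form_right a1]
      rw [← hv', R.form]
      simp [hx]))] at h3
    by_contra hne
    have h4 : T x = 0 := by
      have : (d - 1) • T x = 0 := by linear_combination (norm := module) -h3
      exact (smul_eq_zero.mp this).resolve_left (sub_ne_zero.mpr hne)
    refine hx0 (Subtype.ext (h.nondeg x fun y => ?_))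
    have := R.form x y
    rw [h4] at this
    simpa [R.eps_ne] using this
  simp only [hd1, one_smul] at hd
  have hsub := h.sub_mem_of_fix (hKU hm) hfix
  by_cases hcase : ∀ y, B (m y - y) e = 0
  · have h1 : m e = e := sub_eq_zero.mp (h.nondeg_right _ fun y => by
      obtain ⟨y, rfl⟩ := m.surjective y
      have := hcase y
      rw [map_sub, hKU hm]
      rw [map_sub, LinearMap.sub_apply] at this
      linear_combination -this)
    exact notMem_span_swap he0 a4 (h1.symm.trans hme ▸ Submodule.smul_mem _ _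
      (Submodule.mem_span_singleton_self e'))
  · push Not at hcase
    obtain ⟨y, hy⟩ := hcase
    obtain ⟨α, β, γ, e1⟩ := Submodule.mem_span_triple.mp (hsub y)
    have hγ : γ ≠ 0 := by
      rintro rfl
      exact hy (by rw [← e1]; simp [LinearMap.map_smulₛₗ, he, h.eq_zero_comm.mp a3])
    have hTv : T v ∈ Submodule.span F {e, e', v} := by
      refine (Submodule.smul_mem_iff _ ((map_ne_zero τ).mpr hγ)).mp ?_
      have h1 := congrArg T e1
      rw [map_sub, hd, map_add, map_add, R.smul, R.smul, R.smul, hTe, a1] at h1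
      rw [show τ γ • T v = (m (T y) - T y) - τ α • e - τ β • e' by rw [← h1]; module]
      exact sub_mem (sub_mem (hsub _) (Submodule.smul_mem _ _ (Submodule.subset_span (by simp))))
        (Submodule.smul_mem _ _ (Submodule.subset_span (by simp)))
    obtain ⟨w, b1, b2, b3, b4⟩ := R.exists_iso_perp h hn (W := Submodule.span F {e, e', v})
      (Z := ⊥) (R.inv_span' (by simp [hTe, a1, hTv, Submodule.mem_span_of_mem]))
      ((finrank_span_three_le ..).trans (by omega)) (by simp)
    exact hno w b2 b3 b4 (mem_perp_span.mp b1 v (by simp))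

end Rat10

open Matrix

variable {τ : F ≃+* F}

variable {n : ℕ} {P : GL (Fin n) F} {F₀ : Subfield F} (hσ : IsBar q σ) (hn : 10 ≤ n)
  (hτ : ∀ a, τ a = a ↔ a ∈ F₀)
include hσ hτ

include hn

theorem IsBar.isMaximalIn_sub10 {ζ ε : F} (R : RatStr (stdForm σ (Fin n)) τ (ratT τ P) ζ ε)
    (h : orderOf τ = 2 ∨ ∃ c, c ≠ 0 ∧ c + σ c = 0 ∧ τ c = ε * c) :
    Geo.IsMaximalIn (GU n F q ⊓ Geo.specialLinear (Fin n) F)
      (Geo.subfieldSubgroup F₀ P ⊓ (GU n F q ⊓ Geo.specialLinear (Fin n) F)) := by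
  have := hσ.finite
  have hn' : 10 ≤ finrank F (Fin n → F) := by simpa
  refine hσ.isMaximalIn_of (fun g _ => mem_subfieldSubgroup_iff_ratStab hτ g)
    ((Rat10.mk R).not_SUG_le hσ.isHerm hn') fun K hH hK => ?_
  rcases h with h | ⟨c, h0, h1, h2⟩
  · exact (Rat10.mk R).max_two hσ.isHerm hn' hH hK hσ h
  · exact (Rat10.mk R).max_transv hσ.isHerm hn' hH hK hσ h0 h1 h2

theorem IsBar.isMaximalIn_sub10_odd (hr : (orderOf τ).Prime) (hodd : Odd (orderOf τ))
    (hP : Geo.IsFormRationalStructure (hermForm n F q) F₀ 1 P) :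
    Geo.IsMaximalIn (GU n F q ⊓ Geo.specialLinear (Fin n) F)
      (Geo.subfieldSubgroup F₀ P ⊓ (GU n F q ⊓ Geo.specialLinear (Fin n) F)) := by
  have := hσ.finite
  have h := hσ.isHerm (ι := Fin n)
  have hf := hσ.ratT_form_std hτ (ε := 1) one_ne_zero (by simp) (by simp) hP
  have hf' : ∀ x y, ratT τ P x = x → ratT τ P y = y →
      τ (stdForm σ (Fin n) x y) = stdForm σ (Fin n) x y := fun x y hx hy => by
    conv_rhs => rw [← hx, ← hy, hf, one_mul]
  refine hσ.isMaximalIn_sub10 hn hτ (ζ := 1) (ε := 1)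
    ⟨ratT_smul, ratT_pow, hf, hσ.comm τ, Or.inl rfl, one_ne_zero, by simp, fun x hx => ?_,
      fun x y z hx hy hz => ?_, hr⟩ (Or.inr ?_)
  · obtain ⟨a, h1, h2⟩ := hσ.exists_fixed_trace_ne hodd
    have h3 : σ a + a ≠ 0 := by rwa [add_comm]
    refine ⟨-stdForm σ (Fin n) x x * a / (a + σ a), by simp [hf' x x hx hx, h1, hσ.comm τ], ?_⟩
    simp only [map_div₀, map_mul, map_neg, map_add, h.self_fixed, h.invol]
    field_simp
    ring
  · generalize stdForm σ (Fin n) = B at h hf'
    by_cases h0 : B x x = 0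
    · exact ⟨1, 0, 0, by simp, by simp, by simp, by simp, by simpa⟩
    obtain ⟨t, h1, h2⟩ := hσ.exists_fixed_norm_eq hodd
      (μ := (B x y * B y x - B x x * B y y) / (B x x * B x x))
      (by simp [h.symm, mul_comm]) (by simp [hf', hx, hy])
    refine ⟨t - B x y / B x x, 1, 0, by simp [hf', hx, hy, h1], by simp, by simp, by simp, ?_⟩
    simp only [zero_smul, add_zero, one_smul, map_add, map_smul, LinearMap.map_smulₛₗ,
      LinearMap.add_apply, LinearMap.smul_apply, smul_eq_mul, map_sub, map_div₀, h.symm]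
    field_simp at h2 ⊢
    linear_combination h2
  · obtain ⟨δ, h0, h1⟩ := hσ.exists_skew
    refine ⟨∏ i ∈ Finset.range (orderOf τ), (τ ^ i) δ, Finset.prod_ne_zero_iff.mpr fun i _ =>
      (map_ne_zero _).mpr h0, ?_, by rw [apply_prod_pow τ (pow_orderOf_eq_one τ), one_mul]⟩
    simp only [map_prod, ← hσ.comm, h1, map_neg]
    rw [Finset.prod_neg, Finset.card_range, hodd.neg_one_pow]
    ring

variable (h2 : orderOf τ = 2) (hτσ : ∀ a, τ a = σ a)
include h2 hτσ

theorem IsBar.isMaximalIn_sub10_orth (hodd : Odd q)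
    (hP : Geo.IsFormRationalStructure (hermForm n F q) F₀ 1 P) :
    Geo.IsMaximalIn (GU n F q ⊓ Geo.specialLinear (Fin n) F)
      (Geo.subfieldSubgroup F₀ P ⊓ (GU n F q ⊓ Geo.specialLinear (Fin n) F)) := by
  have := hσ.finite
  have h := hσ.isHerm (ι := Fin n)
  have hf := hσ.ratT_form_std hτ (ε := 1) one_ne_zero (by simp) (by simp) hP
  have hf' : ∀ x y, ratT τ P x = x → ratT τ P y = y →
      τ (stdForm σ (Fin n) x y) = stdForm σ (Fin n) x y := fun x y hx hy => by
    conv_rhs => rw [← hx, ← hy, hf, one_mul]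
  refine hσ.isMaximalIn_sub10 hn hτ (ζ := 1) (ε := 1)
    ⟨ratT_smul, ratT_pow, hf, hσ.comm τ, Or.inl rfl, one_ne_zero, by simp, fun x hx => ?_,
      fun x y z hx hy hz => ?_, h2 ▸ Nat.prime_two⟩ (Or.inl h2)
  · have h3 : (2 : F) ≠ 0 := fun h0 => by
      obtain ⟨k, rfl⟩ := hodd
      simpa [h0] using hσ.cast_q
    refine ⟨-stdForm σ (Fin n) x x / 2, by simp [hf' x x hx hx, map_ofNat], ?_⟩
    simp only [map_div₀, map_neg, h.self_fixed, map_ofNat]
    field_simp
    ring
  · generalize stdForm σ (Fin n) = B at h hf'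
    have h3 : ∀ i, ratT τ P (![x, y, z] i) = ![x, y, z] i := fun i => by
      fin_cases i <;> simpa
    obtain ⟨v, hv0, hv⟩ := Orth.exists_singular (Matrix.toQuadraticForm'
      (Matrix.of fun i j : Fin 3 => (⟨B (![x, y, z] i) (![x, y, z] j),
        (hτ _).mp (hf' _ _ (h3 i) (h3 j))⟩ : F₀))) (by simp)
    have h4 : ∀ i, τ (v i) = v i := fun i => (hτ _).mpr (v i).2
    refine ⟨v 0, v 1, v 2, h4 0, h4 1, h4 2, ?_, ?_⟩
    · by_contra hcon
      push Not at hcon
      exact hv0 (funext fun i => Subtype.ext (by fin_cases i <;> simp [hcon]))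
    · have h5 := congrArg (Subtype.val) hv
      simp [Matrix.toQuadraticForm', Matrix.toLinearMap₂'_apply, Fin.sum_univ_three] at h5
      simp only [map_add, map_smul, LinearMap.map_smulₛₗ, LinearMap.add_apply,
        LinearMap.smul_apply, smul_eq_mul, ← hτσ, h4]
      linear_combination h5

theorem IsBar.isMaximalIn_sub10_symp {ζ : F} (hζ0 : ζ ≠ 0) (hζ : ζ + σ ζ = 0)
    (hP : Geo.IsFormRationalStructure (hermForm n F q) F₀ ζ P)
    (halt : ∀ u : Fin n → F, (∀ i, u i ∈ F₀) →
      hermForm n F q ((P : Matrix _ _ F) *ᵥ u) ((P : Matrix _ _ F) *ᵥ u) = 0) :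
    Geo.IsMaximalIn (GU n F q ⊓ Geo.specialLinear (Fin n) F)
      (Geo.subfieldSubgroup F₀ P ⊓ (GU n F q ⊓ Geo.specialLinear (Fin n) F)) := by
  have hζ' : τ ζ = -1 * ζ := by rw [hτσ]; linear_combination hζ
  have h0 : ∀ x, ratT τ P x = x → stdForm σ (Fin n) x x = 0 := fun x hx => by
    obtain ⟨u, hu, rfl⟩ := exists_of_ratT_fixed hx
    rw [← hσ.hermForm_eq, halt u fun i => (hτ _).mp (hu i)]
  exact hσ.isMaximalIn_sub10 hn hτ (ζ := ζ) (ε := -1)
    ⟨ratT_smul, ratT_pow, hσ.ratT_form_std hτ hζ0 hζ' (by simp) hP, hσ.comm τ, Or.inr rfl, hζ0,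
      hζ', fun x hx => ⟨0, by simp, by simp [h0 x hx]⟩,
      fun x y z hx hy hz => ⟨1, 0, 0, by simp, by simp, by simp, by simp, by simp [h0 x hx]⟩,
      h2 ▸ Nat.prime_two⟩ (Or.inl h2)

end Cfsg.Lib.Unitary
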