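import Cfsg.Agent.Lib.Unitary.MaxGeo
import Cfsg.Agent.Lib.OMax.ExtC

/-!
# Extension-field subgroups of unitary groups: the field-theoretic lemmas
-/

set_option autoImplicit false
set_option linter.unusedSectionVars false

namespace Cfsg.Lib.Unitary

open Module Cfsg.Lib.Linear

variable {F K : Type*} [Field F] [Field K] [Algebra F K]

theorem hua_mem {S : AddSubgroup K} (h : ∀ κ ∈ S, κ⁻¹ ∈ S) {a b : K} (ha : a ∈ S) (hb : b ∈ S) :
    a * b * a ∈ S := by
  rcases eq_or_ne a 0 with rfl | ha0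
  · simp
  rcases eq_or_ne b 0 with rfl | hb0
  · simp
  by_cases h1 : a * b = 1
  · simpa [h1] using ha
  have h2 : b⁻¹ - a ≠ 0 := fun h0 => h1 (by rw [← sub_eq_zero.1 h0, inv_mul_cancel₀ hb0])
  have h3 : 1 - b * a ≠ 0 := fun h0 => h1 (by linear_combination -h0)
  convert sub_mem ha (h _ (add_mem (h a ha) (h _ (sub_mem (h b hb) ha)))) using 1
  have h4 : a⁻¹ + (b⁻¹ - a)⁻¹ = (a * (1 - b * a))⁻¹ := by
    field_simp
    ring
  rw [h4, inv_inv]
  ring

/-- An odd-degree extension of fields with compatible involutions. -/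
structure FStr (q : ℕ) (σ : F →+* F) (s : K →+* K) (τ : K →ₗ[F] F) : Prop where
  bar : IsBar q σ
  barK : IsBar (q ^ finrank F K) s
  prime : (finrank F K).Prime
  three : 3 ≤ finrank F K
  ext : ∀ c, s (algebraMap F K c) = algebraMap F K (σ c)
  tau_s : ∀ y, τ (s y) = σ (τ y)
  ne : τ ≠ 0

namespace FStr

variable {q : ℕ} {σ : F →+* F} {s : K →+* K} {τ : K →ₗ[F] F} (h : FStr q σ s τ)
include h

theorem s_smul (c : F) (y : K) : s (c • y) = σ c • s y := by
  rw [Algebra.smul_def, map_mul, h.ext, Algebra.smul_def]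

theorem finite : Module.Finite F K := Module.finite_of_finrank_pos h.prime.pos

theorem decomp {ω : F} (hω : σ ω ≠ ω) (y : K) :
    ∃ a b : K, a + s a = 0 ∧ b + s b = 0 ∧ y = a + ω • b := by
  have h1 : ω - σ ω ≠ 0 := sub_ne_zero.2 hω.symm
  have h2 : σ ω - ω ≠ 0 := sub_ne_zero.2 hω
  have h3 : s ((ω - σ ω)⁻¹ • (y + s y)) = -((ω - σ ω)⁻¹ • (y + s y)) := by
    rw [h.s_smul, map_add, h.barK.invol, map_inv₀, map_sub, h.bar.invol, ← neg_sub ω, inv_neg,
      neg_smul, add_comm]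
  refine ⟨y - ω • (ω - σ ω)⁻¹ • (y + s y), (ω - σ ω)⁻¹ • (y + s y), ?_, by rw [h3, add_neg_cancel],
    by abel⟩
  rw [map_sub, h.s_smul, h3]
  match_scalars <;> field_simp <;> ring

theorem eq_top_of_skew {Δ : Submodule F K} {β : K} (hβ : β ≠ 0)
    (hΔ : ∀ c, c + s c = 0 → c * β ∈ Δ) : Δ = ⊤ := eq_top_iff.2 fun y _ => by
  obtain ⟨ω, hω⟩ := h.bar.exists_ne
  obtain ⟨a, b, ha, hb, e⟩ := h.decomp hω (y / β)
  rw [← div_mul_cancel₀ y hβ, e, add_mul, smul_mul_assoc]
  exact add_mem (hΔ a ha) (Δ.smul_mem _ (hΔ b hb))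

theorem exists_skew_ne {y : K} (hy : y ≠ 0) : ∃ c, c + s c = 0 ∧ τ (c * y) ≠ 0 := by
  by_contra! h1
  exact h.ne (LinearMap.ker_eq_top.1 (h.eq_top_of_skew hy h1))

theorem tau_skew {c : K} (hc : c + s c = 0) : τ c + σ (τ c) = 0 := by
  rw [← h.tau_s, ← map_add, hc, map_zero]

theorem skew_mul {c y : K} (hc : c + s c = 0) (hy : s y = y) : c * y + s (c * y) = 0 := by
  rw [map_mul, hy, ← add_mul, hc, zero_mul]

theorem skew_smul {c : K} {l : F} (hc : c + s c = 0) (hl : σ l = l) : l • c + s (l • c) = 0 := by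
  rw [h.s_smul, hl, ← smul_add, hc, smul_zero]

theorem fixed_norm (β : K) : s (β * s β) = β * s β := by rw [map_mul, h.barK.invol, mul_comm]

theorem sq_lt : q ^ 2 < q ^ finrank F K :=
  Nat.pow_lt_pow_right h.bar.two_le h.three

theorem exists_skew_two {y₁ y₂ : K} (h1 : s y₁ = y₁) (h2 : s y₂ = y₂) :
    ∃ c, c ≠ 0 ∧ c + s c = 0 ∧ τ (c * y₁) = 0 ∧ τ (c * y₂) = 0 := by
  have := h.bar.finite
  have := h.barK.finite
  obtain ⟨a, b, e, hab⟩ := Function.not_injective_iff.1 fun hi : Function.Injective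
    (fun c : {x : K // x + s x = 0} => ((⟨τ (c * y₁), h.tau_skew (h.skew_mul c.2 h1)⟩,
      ⟨τ (c * y₂), h.tau_skew (h.skew_mul c.2 h2)⟩) :
        {x : F // x + σ x = 0} × {x : F // x + σ x = 0})) => by
      have := Nat.card_le_card_of_injective _ hi
      rw [Nat.card_prod, h.bar.card_trace_zero, h.barK.card_trace_zero, ← sq] at this
      exact h.sq_lt.not_ge this
  simp only [Prod.mk.injEq, Subtype.mk.injEq] at e
  exact ⟨a - b, sub_ne_zero.2 (Subtype.coe_ne_coe.2 hab), by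
    rw [map_sub]; linear_combination a.2 - b.2, by rw [sub_mul, map_sub, e.1, sub_self],
    by rw [sub_mul, map_sub, e.2, sub_self]⟩

theorem norm_s (y : K) : Algebra.norm F (s y) = σ (Algebra.norm F y) := by
  have := Algebra.norm_eq_of_equiv_equiv (RingEquiv.ofBijective σ h.bar.bijective)
    (RingEquiv.ofBijective s h.barK.bijective) (RingHom.ext fun c => (h.ext c).symm) y
  rw [this]
  exact ((RingEquiv.ofBijective σ h.bar.bijective).apply_symm_apply _).symm

theorem exists_lam (hq : ¬ (q = 2 ∧ finrank F K = 3)) :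
    ∃ l : K, l * s l = 1 ∧ Algebra.norm F l = 1 ∧ ∀ c : F, algebraMap F K c ≠ l := by
  obtain ⟨ζ, hζ⟩ := h.barK.exists_primitive_norm_one
  have h1 : ζ * s ζ = 1 := by rw [h.barK.norm_eq, hζ.pow_eq_one]
  have h2 : ζ ^ (q + 1) * s (ζ ^ (q + 1)) = 1 := by rw [map_pow, ← mul_pow, h1, one_pow]
  refine ⟨ζ ^ (q + 1), h2, by
    rw [map_pow, ← h.bar.norm_eq, ← h.norm_s, ← map_mul, h1, map_one], fun c hc => ?_⟩
  rw [← hc, h.ext, ← map_mul, h.bar.norm_eq, map_pow, hc, ← pow_mul] at h2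
  have h3 := Nat.le_of_dvd (by positivity) ((hζ.pow_eq_one_iff_dvd _).1 h2)
  have h4 := h.bar.two_le
  have h5 := h.three
  rcases h4.eq_or_lt with rfl | h4
  · have := Nat.pow_le_pow_right (n := 2) (by norm_num)
      (show 4 ≤ finrank F K by omega)
    omega
  · have := Nat.pow_le_pow_right (n := q) (by omega) h5
    nlinarith [Nat.mul_le_mul h4 h4]

theorem mem_range_of_sq {a : K} {c : F} (ha : a * a = algebraMap F K c) :
    ∃ c : F, algebraMap F K c = a := by
  have := h.finite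
  refine mem_range_of_mul_mem h.prime (Δ := Submodule.span F {1, a}) (fun h0 => ?_) (fun h0 => ?_)
    fun δ hδ => ?_
  · exact one_ne_zero ((Submodule.eq_bot_iff _).1 h0 1 (Submodule.subset_span (by simp)))
  · have h1 := Unitary.finrank_span_pair_le (F := F) (1 : K) a
    have := h.three
    rw [h0, finrank_top] at h1
    omega
  · obtain ⟨x, y, rfl⟩ := Submodule.mem_span_pair.1 hδ
    exact Submodule.mem_span_pair.2 ⟨y * c, x, by
      rw [mul_add, mul_smul_comm, mul_smul_comm, ha, Algebra.algebraMap_eq_smul_one, smul_smul,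
        mul_one, add_comm]⟩

theorem exists_kappa {a : K} (ha : a * s a = 1) (ha' : ∀ c : F, algebraMap F K c ≠ a) :
    ∃ κ : K, κ ≠ 0 ∧ s κ = κ ∧ ∀ ρ : F, ρ ≠ 0 → ∀ y, s y = y → ∀ μ : F,
      ρ • (a * κ) ≠ y + algebraMap F K μ := by
  have := h.bar.finite
  have := h.barK.finite
  obtain ⟨⟨t, ht⟩, ht'⟩ : ∃ t : {x : K // x + s x = 0}, ∀ ρ : F, ρ • a - s (ρ • a) ≠ t := by
    by_contra! h1
    choose f hf using h1
    have := Nat.card_le_card_of_injective f fun x y e => Subtype.ext (by rw [← hf, e, hf])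
    rw [h.barK.card_trace_zero, h.bar.card] at this
    exact h.sq_lt.not_ge this
  obtain ⟨δ, hδ0, hδ⟩ := h.bar.exists_skew
  have ht0 : t ≠ 0 := fun h0 => ht' 0 (by simp [h0])
  have h1 : s t = -t := by linear_combination ht
  have h2 : s (algebraMap F K δ / t) = algebraMap F K δ / t := by
    rw [map_div₀, h.ext, hδ, h1, map_neg, neg_div_neg_eq]
  refine ⟨_, div_ne_zero (by simpa) ht0, h2, fun ρ hρ y hy μ e => ?_⟩
  have h3 : (ρ • a - s (ρ • a)) * (algebraMap F K δ / t) = algebraMap F K (μ - σ μ) := by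
    have := congrArg s e
    rw [← smul_mul_assoc, map_mul, h2, map_add, hy, h.ext] at this
    rw [← smul_mul_assoc] at e
    rw [map_sub]
    linear_combination e - this
  by_cases h4 : μ - σ μ = 0
  · rw [h4, map_zero, mul_eq_zero, sub_eq_zero] at h3
    obtain ⟨c, hc⟩ := h.mem_range_of_sq (a := ρ • a) (c := ρ * σ ρ) (by
      nth_rewrite 2 [h3.resolve_right (div_ne_zero (by simpa) ht0)]
      rw [h.s_smul, smul_mul_smul_comm, ha, Algebra.algebraMap_eq_smul_one])
    exact ha' (ρ⁻¹ * c) (by rw [map_mul, hc, ← Algebra.smul_def, inv_smul_smul₀ hρ])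
  refine ht' (δ / (μ - σ μ) * ρ) ?_
  have h5 : σ (δ / (μ - σ μ)) = δ / (μ - σ μ) := by
    rw [map_div₀, hδ, map_sub, h.bar.invol, ← neg_sub μ, neg_div_neg_eq]
  have h6 : algebraMap F K (μ - σ μ) ≠ 0 := (map_ne_zero _).2 h4
  rw [mul_smul, h.s_smul, h5, ← smul_sub, Algebra.smul_def, map_div₀]
  field_simp at h3 ⊢
  linear_combination h3

theorem card_fiber {y : K} (hy : y ≠ 0) (hy' : s y = y) :
    q * Nat.card {c : {c : K // c + s c = 0} // τ (c * y) = 0} = q ^ finrank F K := by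
  have := h.barK.finite
  let S : AddSubgroup K := (AddMonoidHom.id K + (s : K →+ K)).ker
  let φ : S →+ F := τ.toAddMonoidHom.comp ((AddMonoidHom.mulRight y).comp S.subtype)
  have h1 : Nat.card φ.range = q := by
    rw [← h.bar.card_trace_zero]
    refine Nat.card_congr (Equiv.subtypeEquivRight fun x => ⟨?_, fun hx => ?_⟩)
    · rintro ⟨c, rfl⟩
      exact h.tau_skew (h.skew_mul c.2 hy')
    · obtain ⟨c, hc, hc'⟩ := h.exists_skew_ne hy
      have h2 := h.tau_skew (h.skew_mul hc hy')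
      refine ⟨⟨(x / τ (c * y)) • c, h.skew_smul hc ?_⟩, ?_⟩
      · rw [map_div₀, eq_neg_of_add_eq_zero_right hx, eq_neg_of_add_eq_zero_right h2,
          neg_div_neg_eq]
      · change τ (((x / τ (c * y)) • c) * y) = x
        rw [smul_mul_assoc, map_smul, smul_eq_mul, div_mul_cancel₀ _ hc']
  have h2 := AddSubgroup.card_mul_index φ.ker
  rw [AddSubgroup.index_ker, h1, mul_comm] at h2
  rw [← h.barK.card_trace_zero]
  exact h2

/-- A space of hermitian forms whose members are zero or non-degenerate. -/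
theorem card_zero_forms (W : Submodule F K) (hW : W ≠ ⊥) (p : K → Prop)
    (h1 : ∀ c, c + s c = 0 → p c → ∀ β ∈ W, τ (c * (β * s β)) = 0)
    (h2 : ∀ c, c + s c = 0 → ¬ p c → ∀ β ∈ W, (∀ β' ∈ W, τ (c * β * s β') = 0) → β = 0) :
    Nat.card {c : {c : K // c + s c = 0} // p c} * q ^ finrank F W = q ^ finrank F K := by
  classical
  have := h.bar.finite
  have := h.barK.finite
  have := h.finite
  have := Fintype.ofFinite {c : K // c + s c = 0}
  have := Fintype.ofFinite W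
  obtain ⟨δ, hδ0, hδ⟩ := h.bar.exists_skew
  have hq := h.bar.two_le
  set m := finrank F W with hm
  have hWc : Nat.card W = q ^ (2 * m) := by
    rw [Module.natCard_eq_pow_finrank (K := F), h.bar.card, ← pow_mul]
  have k1 : ∀ c : {c : K // c + s c = 0}, (q : ℤ) * Nat.card {β : W // τ (c * (β * s β)) = 0} =
      if p c then (q : ℤ) * q ^ (2 * m) else q ^ (2 * m) + (q - 1) * (-q) ^ m := fun c => by
    split_ifs with hc
    · rw [Nat.card_congr (Equiv.subtypeUnivEquiv fun β : W => h1 c c.2 hc β β.2), hWc]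
      simp
    let B : W →ₛₗ[σ] W →ₗ[F] F := LinearMap.mk₂'ₛₗ σ (RingHom.id F)
      (fun β β' => δ * τ (c * β' * s β)) (fun _ _ _ => by simp [mul_add])
      (fun _ _ _ => by simp [h.s_smul, mul_left_comm]) (fun _ _ _ => by simp [mul_add, add_mul])
      (fun _ _ _ => by simp [mul_left_comm])
    have hB : ∀ β β', B β β' = δ * τ (c * β' * s β) := fun _ _ => rfl
    have h3 : ∀ β β', σ (B β β') = B β' β := fun β β' => by
      rw [hB, hB, map_mul, hδ, ← h.tau_s, map_mul s, map_mul s, h.barK.invol,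
        eq_neg_of_add_eq_zero_right c.2, neg_mul, neg_mul, neg_mul, map_neg, mul_neg, neg_neg,
        mul_right_comm]
    have h4 : IsHerm σ B := ⟨h.bar.ne_id, h.bar.invol, h3, fun β hβ =>
      Subtype.ext (h2 c c.2 hc β β.2 fun β' hβ' => by
        have := hβ ⟨β', hβ'⟩
        rw [← h3, map_eq_zero, hB] at this
        exact (mul_eq_zero.1 this).resolve_left hδ0)⟩
    rw [← (h4.card_norm_aux h.bar hm.symm).1]
    congr 2
    exact Nat.card_congr (Equiv.subtypeEquivRight fun β => by simp [hB, hδ0, mul_assoc])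
  have k2 : ∀ β : W, (q : ℤ) * Nat.card {c : {c : K // c + s c = 0} // τ (c * (β * s β)) = 0} =
      if β = 0 then (q : ℤ) * q ^ finrank F K else q ^ finrank F K := fun β => by
    split_ifs with hβ
    · rw [Nat.card_congr (Equiv.subtypeUnivEquiv fun c => by simp [hβ]), h.barK.card_trace_zero]
      simp
    · exact_mod_cast h.card_fiber (y := β * s β) (by simpa using hβ) (h.fixed_norm β)
  have k3 : ∑ c : {c : K // c + s c = 0}, (Nat.card {β : W // τ (c * (β * s β)) = 0} : ℤ) =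
      ∑ β : W, (Nat.card {c : {c : K // c + s c = 0} // τ (c * (β * s β)) = 0} : ℤ) := by
    simp only [Nat.card_eq_fintype_card, Fintype.card_subtype, Finset.card_filter, Nat.cast_sum]
    exact Finset.sum_comm
  have k4 := congrArg ((q : ℤ) * ·) k3
  simp only [Finset.mul_sum, k1, k2, sum_ite_eq_card, h.barK.card_trace_zero, hWc,
    Nat.card_unique] at k4
  generalize Nat.card {c : {c : K // c + s c = 0} // p c} = N at k4 ⊢
  have hm0 : m ≠ 0 := fun h0 => hW (Submodule.finrank_eq_zero.1 h0)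
  have k5 : ((-q : ℤ) ^ m).natAbs = q ^ m := by simp [Int.natAbs_pow]
  have k6 : (-q : ℤ) ^ m - 1 ≠ 0 := fun h0 => by
    rw [sub_eq_zero.1 h0] at k5
    exact (Nat.one_lt_pow hm0 hq).ne (by simpa using k5)
  have k7 : (q : ℤ) ^ (2 * m) = (-q) ^ m * (-q) ^ m := by rw [← mul_pow, pow_mul]; ring
  have k8 : (q : ℤ) - 1 ≠ 0 := by omega
  push_cast at k4
  rw [k7] at k4
  have k9 : (N : ℤ) * (-q) ^ m = -q ^ finrank F K :=
    mul_left_cancel₀ (mul_ne_zero k8 k6) (by linear_combination k4)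
  have := congrArg Int.natAbs k9
  simpa [Int.natAbs_mul, Int.natAbs_pow] using this

/-- The conclusion drawn from the count. -/
theorem mem_range_of_forms {W Δ : Submodule F K} (hΔ : Δ ≠ ⊥) (hΔ' : Δ ≠ ⊤)
    (hd : finrank F W + finrank F Δ = finrank F K)
    (h1 : ∀ β ∈ W, ∀ δ ∈ Δ, τ (δ * s β) = 0)
    (h2 : ∀ c, c + s c = 0 → ∀ β ∈ W, β ≠ 0 → (∀ β' ∈ W, τ (c * β * s β') = 0) →
      ∀ β' ∈ W, c * β' ∈ Δ) {β : K} (hβ : β ∈ W) (hβ0 : β ≠ 0) :
    (∃ c, c ≠ 0 ∧ c + s c = 0 ∧ c * β ∈ Δ) ∧ ∀ β' ∈ W, ∃ l : F, β' = l • β := by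
  have := h.bar.finite
  have := h.barK.finite
  have hq := h.bar.two_le
  have h3 := h.card_zero_forms W ((Submodule.ne_bot_iff _).2 ⟨β, hβ, hβ0⟩)
    (fun c => ∀ β ∈ W, c * β ∈ Δ) (fun c _ hc β hβ => by rw [← mul_assoc, h1 β hβ _ (hc β hβ)])
    fun c hc hc' β hβ e => by_contra fun h0 => hc' (h2 c hc β hβ h0 e)
  rw [← hd, pow_add, mul_comm (q ^ _), mul_left_inj' (by positivity)] at h3
  obtain ⟨ω, hω⟩ := h.bar.exists_ne
  let f : {c : {c : K // c + s c = 0} // ∀ β ∈ W, c * β ∈ Δ} ×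
      {c : {c : K // c + s c = 0} // ∀ β ∈ W, c * β ∈ Δ} → Δ := fun x =>
    ⟨x.1.1 * β + ω • (x.2.1 * β), add_mem (x.1.2 β hβ) (Δ.smul_mem _ (x.2.2 β hβ))⟩
  have h4 : Function.Surjective f := ((Nat.bijective_iff_injective_and_card f).2 ⟨?_, by
    rw [Nat.card_prod, h3, Module.natCard_eq_pow_finrank (K := F), h.bar.card, ← pow_mul,
      two_mul, pow_add]⟩).2
  · constructor
    · obtain ⟨δ, hδ, hδ0⟩ := (Submodule.ne_bot_iff _).1 hΔ
      obtain ⟨⟨a, b⟩, e⟩ := h4 ⟨δ, hδ⟩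
      by_cases ha : (a.1 : K) = 0
      · refine ⟨b.1, fun hb => hδ0 ?_, b.1.2, b.2 β hβ⟩
        simpa [f, ha, hb] using (congrArg Subtype.val e).symm
      · exact ⟨a.1, ha, a.1.2, a.2 β hβ⟩
    intro β' hβ'
    obtain ⟨l, hl⟩ := mem_range_of_mul_mem h.prime hΔ hΔ' (l := β' / β) fun δ hδ => by
      obtain ⟨⟨a, b⟩, e⟩ := h4 ⟨δ, hδ⟩
      convert add_mem (a.2 β' hβ') (Δ.smul_mem ω (b.2 β' hβ')) using 1
      rw [show δ = a.1 * β + ω • (b.1 * β) from (congrArg Subtype.val e).symm, Algebra.smul_def,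
        Algebra.smul_def]
      field_simp
    exact ⟨l, by rw [Algebra.smul_def, hl, div_mul_cancel₀ _ hβ0]⟩
  · rintro ⟨⟨⟨a, ha⟩, _⟩, ⟨⟨b, hb⟩, _⟩⟩ ⟨⟨⟨a', ha'⟩, _⟩, ⟨⟨b', hb'⟩, _⟩⟩ e
    have e1 : a + ω • b = a' + ω • b' := mul_right_cancel₀ hβ0 (by
      simpa [add_mul, f] using e)
    have e2 := congrArg s e1
    simp only [map_add, h.s_smul, eq_neg_of_add_eq_zero_right ha, eq_neg_of_add_eq_zero_right hb,
      eq_neg_of_add_eq_zero_right ha', eq_neg_of_add_eq_zero_right hb'] at e2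
    have e3 : (ω - σ ω) • (b - b') = 0 := by linear_combination (norm := module) e1 + e2
    have e4 : b = b' := sub_eq_zero.1 ((smul_eq_zero.1 e3).resolve_left (sub_ne_zero.2 hω.symm))
    subst e4
    simpa using e1

end FStr

end Cfsg.Lib.Unitary
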