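import Cfsg.Agent.Lib.Unitary.XfA

/-!
# Extension-field subgroups of unitary groups: the global argument
-/

set_option autoImplicit false
set_option linter.unusedSectionVars false

namespace Cfsg.Lib.Unitary

open Module Cfsg.Lib.Linear Cfsg.Lib.OMax

variable {F K V : Type*} [Field F] [Field K] [Algebra F K] [AddCommGroup V] [Module F V]
  [Module K V] [IsScalarTower F K V] {q : ℕ} {σ : F →+* F} {s : K →+* K} {τ : K →ₗ[F] F}
  {B : V →ₛₗ[σ] V →ₗ[F] F} {A : V →ₛₗ[s] V →ₗ[K] K} {M : Subgroup (V ≃ₗ[F] V)}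

/-- `B` is the trace of the hermitian form `A` over `K`. -/
structure KStr (q : ℕ) (τ : K →ₗ[F] F) (B : V →ₛₗ[σ] V →ₗ[F] F) (A : V →ₛₗ[s] V →ₗ[K] K) :
    Prop extends FStr q σ s τ where
  h : IsHerm σ B
  hK : IsHerm s A
  eq : ∀ u v, B u v = τ (A u v)

/-- `M` contains the `K`-linear isometries of determinant one over `F`. -/
def HasK (A : V →ₛₗ[s] V →ₗ[K] K) (M : Subgroup (V ≃ₗ[F] V)) : Prop :=
  ∀ g ∈ UG A, Algebra.norm F (LinearMap.det (g : V →ₗ[K] V)) = 1 → g.restrictScalars F ∈ M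

theorem HasK.of_SUG (hM : HasK A M) {g : V ≃ₗ[K] V} (hg : g ∈ SUG A) : g.restrictScalars F ∈ M :=
  hM g hg.1 (by rw [(mem_SUG'.1 hg).2, map_one])

/-- The `M`-images of the isotropic `K`-points. -/
def IsX (A : V →ₛₗ[s] V →ₗ[K] K) (M : Subgroup (V ≃ₗ[F] V)) (X : Submodule F V) : Prop :=
  ∃ g ∈ M, ∃ u, u ≠ 0 ∧ A u u = 0 ∧ X = (pt F K u).map (g : V →ₗ[F] V)

theorem isX_pt {u : V} (hu0 : u ≠ 0) (hu : A u u = 0) : IsX A M (pt F K u) :=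
  ⟨1, one_mem _, u, hu0, hu, (Submodule.map_id _).symm⟩

theorem IsX.map {X : Submodule F V} (h : IsX A M X) {g : V ≃ₗ[F] V} (hg : g ∈ M) :
    IsX A M (X.map (g : V →ₗ[F] V)) := by
  obtain ⟨k, hk, u, hu0, hu, rfl⟩ := h
  exact ⟨g * k, mul_mem hg hk, u, hu0, hu, (Submodule.map_comp _ _ _).symm⟩

theorem IsX.finrank_eq {X : Submodule F V} (h : IsX A M X) : finrank F X = finrank F K := by
  obtain ⟨k, -, u, hu0, -, rfl⟩ := h
  rw [LinearEquiv.finrank_map_eq, finrank_pt hu0]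

theorem map_inv_map' (g : V ≃ₗ[F] V) (X : Submodule F V) :
    (X.map (g : V →ₗ[F] V)).map ((g⁻¹ : V ≃ₗ[F] V) : V →ₗ[F] V) = X := by
  rw [← Submodule.map_comp]
  convert Submodule.map_id X
  ext x
  simp

theorem finrank_inf_map' (g : V ≃ₗ[F] V) (X Y : Submodule F V) :
    finrank F ↥(X.map ((g⁻¹ : V ≃ₗ[F] V) : V →ₗ[F] V) ⊓ Y) =
      finrank F ↥(X ⊓ Y.map (g : V →ₗ[F] V)) := by
  rw [← LinearEquiv.finrank_map_eq g⁻¹ (X ⊓ _), Submodule.map_inf _ (g⁻¹).injective, map_inv_map']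

variable (K) in
/-- The coefficients `κ` with `κ u ∈ X`. -/
def cf (X : Submodule F V) (u : V) : Submodule F K :=
  X.comap ((LinearMap.toSpanSingleton K V u).restrictScalars F)

theorem mem_cf {X : Submodule F V} {u : V} {κ : K} : κ ∈ cf K X u ↔ κ • u ∈ X := Iff.rfl

theorem finrank_cf (X : Submodule F V) {u : V} (hu : u ≠ 0) :
    finrank F (cf K X u) = finrank F ↥(X ⊓ pt F K u) := by
  rw [(Submodule.equivMapOfInjective ((LinearMap.toSpanSingleton K V u).restrictScalars F)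
    (fun a b e => smul_left_injective K hu e) _).finrank_eq, cf, Submodule.map_comap_eq, inf_comm]
  have h : LinearMap.range ((LinearMap.toSpanSingleton K V u).restrictScalars F) = pt F K u := by
    ext x
    exact (mem_pt (F := F) (K := K) (u := u) (x := x)).symm
  rw [h]

/-- `M` induces a group of transvections on `X`. -/
def TvOn (σ : F →+* F) (M : Subgroup (V ≃ₗ[F] V)) (X : Submodule F V) : Prop :=
  ∃ (θ : V →ₗ[F] F) (d x : V), d ∈ X ∧ d ≠ 0 ∧ θ d = 0 ∧ x ∈ X ∧ θ x ≠ 0 ∧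
    ∀ l, σ l = l → ∃ z ∈ M, ∀ y ∈ X, z y = y + (l * θ y) • d

theorem TvOn.of_map {X : Submodule F V} {g : V ≃ₗ[F] V} (hg : g ∈ M)
    (h : TvOn σ M (X.map (g : V →ₗ[F] V))) : TvOn σ M X := by
  obtain ⟨θ, _, _, ⟨d, hd, rfl⟩, h1, h2, ⟨x, hx, rfl⟩, h3, h4⟩ := h
  refine ⟨θ ∘ₗ g, d, x, hd, by rintro rfl; simp at h1, h2, hx, h3, fun l hl => ?_⟩
  obtain ⟨z, hz, hz'⟩ := h4 l hl
  refine ⟨g⁻¹ * z * g, mul_mem (mul_mem (inv_mem hg) hz) hg, fun y hy => ?_⟩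
  rw [LinearEquiv.mul_apply, LinearEquiv.mul_apply, hz' (g y) ⟨y, hy, rfl⟩]
  simp

namespace KStr

variable (h : KStr q τ B A)
include h

theorem smul_right (κ : K) (u v : V) : B u (κ • v) = τ (κ * A u v) := by
  rw [h.eq, map_smul, smul_eq_mul]

theorem smul_left (κ : K) (u v : V) : B (κ • u) v = τ (s κ * A u v) := by
  rw [h.eq, LinearMap.map_smulₛₗ, LinearMap.smul_apply, smul_eq_mul]

theorem eq_zero {u v : V} (h0 : ∀ κ : K, B u (κ • v) = 0) : A u v = 0 :=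
  eq_of_coef h.ne fun κ => by rw [← h.smul_right, h0, mul_zero, map_zero]

theorem eq_zero' {u v : V} (h0 : ∀ κ : K, B (κ • u) v = 0) : A u v = 0 :=
  h.hK.eq_zero_comm.1 (h.eq_zero fun κ => h.h.eq_zero_comm.1 (h0 κ))

theorem A_pt {u x : V} (hu : A u u = 0) (hx : x ∈ pt F K u) : A u x = 0 := by
  obtain ⟨κ, rfl⟩ := mem_pt.1 hx
  simp [hu]

theorem B_pt {u x y : V} (hu : A u u = 0) (hx : x ∈ pt F K u) (hy : y ∈ pt F K u) : B x y = 0 := by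
  obtain ⟨κ, rfl⟩ := mem_pt.1 hx
  rw [h.smul_left, h.A_pt hu hy, mul_zero, map_zero]

theorem iso (hU : M ≤ UG B) {X : Submodule F V} (hX : IsX A M X) {x y : V} (hx : x ∈ X)
    (hy : y ∈ X) : B x y = 0 := by
  obtain ⟨g, hg, u, -, hu, rfl⟩ := hX
  obtain ⟨x, hx, rfl⟩ := hx
  obtain ⟨y, hy, rfl⟩ := hy
  exact (hU hg x y).trans (h.B_pt hu hx hy)

variable [FiniteDimensional F V] [FiniteDimensional K V] (hM : HasK A M) (hU : M ≤ UG B)
include hM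

theorem exists_tv {u : V} (hu : A u u = 0) {c : K} (hc : c + s c = 0) :
    ∃ t ∈ M, ∀ x, t x = x + (c * A u x) • u :=
  ⟨_, hM.of_SUG (h.hK.transv_mem_SUG u c hu hc), fun _ => rfl⟩

theorem exists_ei {u : V} (hu : A u u = 0) {ψ : V →ₗ[K] K} (hψ : ψ u = 0) :
    ∃ t ∈ M, ∀ x, A u x = 0 → t x = x + ψ x • u := by
  obtain ⟨z, rfl⟩ := h.hK.exists_eq ψ
  obtain ⟨γ, hγ⟩ := h.hK.exists_eichler_param (-z)
  refine ⟨_, hM.of_SUG (h.hK.eichler_mem_SUG hu (by simpa using h.hK.eq_zero_comm.1 hψ)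
    (by simpa) hγ), fun x hx => ?_⟩
  simp [eichler_apply, hx]

include hU

theorem exists_pair (hk : 3 ≤ finrank K V ∨ ¬ (q = 2 ∧ finrank F K = 3)) {X : Submodule F V}
    (hX : IsX A M X) (hX' : ∀ u, u ≠ 0 → A u u = 0 → X ≠ pt F K u) :
    ∃ Y, IsX A M Y ∧ X ≠ Y ∧ X ⊓ Y ≠ ⊥ := by
  have := h.barK.finite
  by_contra! h1
  replace h1 : ∀ Y, IsX A M Y → ∀ v ∈ X, v ≠ 0 → v ∈ Y → X = Y := fun Y hY v hv h0 hv' =>
    by_contra fun hne => h0 ((Submodule.eq_bot_iff _).1 (h1 Y hY hne) v ⟨hv, hv'⟩)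
  have h2 : ∀ v ∈ X, v ≠ 0 → A v v ≠ 0 := fun v hv h0 hv' =>
    hX' v h0 hv' (h1 _ (isX_pt h0 hv') v hv h0 (self_mem_pt v))
  obtain ⟨v, hv, hv0⟩ := Submodule.exists_mem_ne_zero_of_ne_bot (p := X) fun h0 => by
    have := hX.finrank_eq
    have := h.three
    rw [h0, finrank_bot] at *
    omega
  have h3 : ∀ g ∈ M, g v = v → ∀ x ∈ X, g x ∈ X := fun g hg hgv x hx =>
    h1 _ (hX.map hg) v hv hv0 ⟨v, hv, hgv⟩ ▸ Submodule.mem_map_of_mem hx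
  have hv' := h2 v hv hv0
  obtain ⟨x, hx, hx'⟩ := SetLike.not_le_iff_exists.1 (show ¬ X ≤ pt F K v from fun h0 => by
    have h4 := Submodule.eq_of_le_of_finrank_eq h0 (by rw [hX.finrank_eq, finrank_pt hv0])
    exact hv' (h.eq_zero fun κ => h.iso hU hX hv (h4 ▸ smul_mem_pt κ v)))
  have hT : ∀ u, A v u = 0 → A u u = 0 → A x u = 0 := fun u h4 hu => by
    by_contra h5
    replace h5 := mt h.hK.eq_zero_comm.1 h5
    obtain ⟨δ, hδ0, hδ⟩ := h.barK.exists_skew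
    obtain ⟨t, ht, ht'⟩ := h.exists_tv hM hu (c := δ) (by simp [hδ])
    have h6 := sub_mem (h3 t ht (by simp [ht', h.hK.eq_zero_comm.1 h4]) x hx) hx
    rw [ht', add_sub_cancel_left] at h6
    exact h2 _ h6 (smul_ne_zero (mul_ne_zero hδ0 h5) (by rintro rfl; simp at h5))
      (by simp [LinearMap.map_smulₛₗ, hu])
  have hY := h.hK.disjoint_perp_perp (IsHerm.disjoint_perp_singleton hv')
  rcases hk with hk | hk
  · have h4 := h.hK.le_of_isotropic hY (by have := h.hK.finrank_perp_singleton hv0; omega)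
      (Z := perp A (K ∙ x)) fun u hu hu' => mem_perp_singleton.2 (hT u (mem_perp_singleton.1 hu) hu')
    refine hx' (show x ∈ K ∙ v from ?_)
    rw [← h.hK.perp_perp (K ∙ v)]
    exact h.hK.le_perp_comm h4 (Submodule.mem_span_singleton_self x)
  obtain ⟨z, a, hz, rfl⟩ : ∃ (z : V) (a : K), A v z = 0 ∧ x = z + a • v :=
    ⟨x - (A v x / A v v) • v, A v x / A v v, by simp [hv'], by simp⟩
  have hz0 : z ≠ 0 := by rintro rfl; exact hx' (by simpa using smul_mem_pt a v)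
  by_cases h4 : A z z = 0
  · obtain ⟨f, h5, h6, h7⟩ := h.hK.exists_hyperbolic_mem hY (mem_perp_singleton.2 hz) hz0 h4
    rw [mem_perp_singleton] at h5
    simpa [h5, h7, LinearMap.map_smulₛₗ] using hT f h5 h6
  obtain ⟨l, h5, h6, h7⟩ := h.exists_lam hk
  obtain ⟨r, hr, h8, h9, h10, h11⟩ := h.hK.exists_quasiReflection h4 h5
  have h12 := h3 _ (hM r hr (by rw [h8, h6])) (h10 v (h.hK.eq_zero_comm.1 hz))
  obtain ⟨c, hc⟩ := mem_range_of_mul_mem h.prime (Δ := cf K X z) (l := l)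
    ((Submodule.ne_bot_iff _).2 ⟨l - 1, by
      simpa [mem_cf, h9, h10 v (h.hK.eq_zero_comm.1 hz), sub_smul] using sub_mem (h12 _ hx) hx,
      fun h0 => h7 1 (by rw [map_one, sub_eq_zero.1 h0])⟩)
    (fun h0 => h4 (h.eq_zero fun κ => h.iso hU hX
      (by simpa using mem_cf.1 (h0 ▸ Submodule.mem_top : 1 ∈ cf K X z))
      (mem_cf.1 (h0 ▸ Submodule.mem_top))))
    fun δ hδ => by simpa [mem_cf, h9, smul_smul, mul_comm] using h12 _ hδ
  exact h7 c hc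

variable {d : ℕ} (hd : 0 < d)
  (hmax : ∀ X Y, IsX A M X → IsX A M Y → X ≠ Y → finrank F ↥(X ⊓ Y) ≤ d)
  {X : Submodule F V} (hX : IsX A M X) {u : V} (hu0 : u ≠ 0) (hu : A u u = 0)
  (hXd : finrank F ↥(X ⊓ pt F K u) = d)
include hmax hX hXd

omit h hM hU in
theorem stab {t : V ≃ₗ[F] V} (ht : t ∈ M) (ht' : ∀ y ∈ pt F K u, t y = y) {x : V} (hx : x ∈ X)
    (hx' : x ∉ pt F K u) (htx : t x ∈ X) {y : V} (hy : y ∈ X) : t y ∈ X := by
  suffices h0 : X.map (t : V →ₗ[F] V) = X from h0 ▸ Submodule.mem_map_of_mem hy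
  by_contra h0
  have h1 := hmax _ _ (hX.map ht) hX h0
  have h3 : X ⊓ pt F K u < X.map (t : V →ₗ[F] V) ⊓ X := by
    refine lt_of_le_of_ne (fun y hy => ⟨⟨y, hy.1, ht' y hy.2⟩, hy.1⟩) fun h3 => hx' ?_
    have h4 : t x ∈ X ⊓ pt F K u := h3 ▸ ⟨⟨x, hx, rfl⟩, htx⟩
    rw [t.injective (ht' _ h4.2).symm]
    exact h4.2
  have := Submodule.finrank_lt_finrank_of_lt h3
  omega

include hd hu0 hu

omit hM hU hmax hu in
theorem cf_ne {x : V} (hx : x ∈ X) (hx' : x ∉ pt F K u) : cf K X u ≠ ⊥ ∧ cf K X u ≠ ⊤ := by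
  have h1 := finrank_cf (K := K) X hu0
  refine ⟨fun h0 => by rw [h0, finrank_bot] at h1; omega, fun h0 => hx' ?_⟩
  rw [h0, finrank_top, ← hX.finrank_eq] at h1
  exact ((Submodule.eq_of_le_of_finrank_eq inf_le_left h1.symm).ge hx).2

omit hU in
theorem tv_of_perp {x : V} (hx : x ∈ X) (hx' : x ∉ pt F K u) (hux : A u x = 0) : TvOn σ M X := by
  obtain ⟨hΔ, hΔ'⟩ := h.cf_ne hd hX hu0 hXd hx hx'
  have h1 : ∀ y ∈ X, A u y = 0 := fun y hy => by_contra fun h0 =>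
    hΔ' (h.eq_top_of_skew h0 fun c hc => by
      obtain ⟨t, ht, ht'⟩ := h.exists_tv hM hu hc
      simpa [ht', mem_cf] using sub_mem (stab hmax hX hXd ht
        (fun y hy => by simp [ht', h.A_pt hu hy]) hx hx' (by simpa [ht', hux]) hy) hy)
  have key : ∀ ψ : V →ₗ[K] K, ψ u = 0 → ψ x ∈ cf K X u → ∀ y ∈ X, ψ y ∈ cf K X u :=
    fun ψ hψ h2 y hy => by
      obtain ⟨t, ht, ht'⟩ := h.exists_ei hM hu hψ
      simpa [ht' y (h1 y hy), mem_cf] using sub_mem (stab hmax hX hXd ht (fun y hy => by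
        obtain ⟨κ, rfl⟩ := mem_pt.1 hy
        simp [ht', hu, hψ]) hx hx' (by rw [ht' x hux]; exact add_mem hx h2) hy) hy
  have h2 : ∀ a : K, a • u ≠ x := fun a ha => hx' (mem_pt.2 ⟨a, ha⟩)
  have h3 : ∀ y ∈ X, ∃ (a : K) (c : F), a • u + c • x = y := fun y hy => by
    by_cases h3 : ∀ a b : K, a • u + b • x ≠ y
    · refine (hΔ' (eq_top_iff.2 fun κ _ => ?_)).elim
      obtain ⟨ψ, h4, h5, rfl⟩ := exists_dual_pair h3 κ
      exact key ψ h4 (h5 ▸ zero_mem _) y hy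
    push Not at h3
    obtain ⟨a, l, rfl⟩ := h3
    obtain ⟨c, rfl⟩ := mem_range_of_mul_mem h.prime hΔ hΔ' (l := l) fun δ hδ => by
      obtain ⟨ψ, h4, rfl⟩ := exists_dual_single h2 δ
      simpa [h4] using key ψ h4 hδ _ hy
    exact ⟨a, c, by rw [algebraMap_smul]⟩
  obtain ⟨t, ht⟩ : ∃ t, τ t = 1 := LinearMap.surjective h.ne 1
  obtain ⟨ψ, h4, h5⟩ := exists_dual_single h2 t
  obtain ⟨δ, hδ, hδ0⟩ := (Submodule.ne_bot_iff _).1 hΔ
  refine ⟨τ ∘ₗ ψ.restrictScalars F, δ • u, x, hδ, smul_ne_zero hδ0 hu0, by simp [h4], hx,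
    by simp [h5, ht], fun l _ => ?_⟩
  obtain ⟨ψ', h6, h7⟩ := exists_dual_single h2 (l • δ)
  obtain ⟨z, hz, hz'⟩ := h.exists_ei hM hu h6
  refine ⟨z, hz, fun y hy => ?_⟩
  rw [hz' y (h1 y hy)]
  obtain ⟨a, c, rfl⟩ := h3 y hy
  simp [h4, h5, h6, h7, ht, smul_smul, mul_comm]

theorem tv_of_not_perp (hXu : X ≠ pt F K u) (hN : ∀ X u, IsX A M X → u ≠ 0 → A u u = 0 →
    finrank F ↥(X ⊓ pt F K u) = d → ∀ x ∈ X, A u x = 0 → x ∈ pt F K u) : TvOn σ M X := by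
  obtain ⟨x, hx, hx'⟩ := SetLike.not_le_iff_exists.1 (show ¬ X ≤ pt F K u from fun h0 =>
    hXu (Submodule.eq_of_le_of_finrank_eq h0 (by rw [hX.finrank_eq, finrank_pt hu0])))
  obtain ⟨hΔ, hΔ'⟩ := h.cf_ne hd hX hu0 hXd hx hx'
  have hβ : A u x ≠ 0 := fun h0 => hx' (hN X u hX hu0 hu hXd x hx h0)
  let φ : X →ₗ[F] K := ((A u).restrictScalars F).domRestrict X
  obtain ⟨⟨c, hc0, hc, h1⟩, h2⟩ := h.mem_range_of_forms (W := LinearMap.range φ) hΔ hΔ' (by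
      have h0 : (X ⊓ pt F K u).comap X.subtype = LinearMap.ker φ := by
        ext y
        exact ⟨fun hy => h.A_pt hu hy.2, fun hy => ⟨y.2, hN X u hX hu0 hu hXd y y.2 hy⟩⟩
      rw [finrank_cf X hu0, ← (Submodule.comapSubtypeEquivOfLe inf_le_left).finrank_eq,
        ← hX.finrank_eq, ← φ.finrank_range_add_finrank_ker, h0])
    (by
      rintro _ ⟨y, rfl⟩ δ hδ
      have := h.iso hU hX y.2 (mem_cf.1 hδ)
      rwa [h.smul_right, ← h.hK.symm u y] at this)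
    (by
      rintro c hc _ ⟨x, rfl⟩ h1 h2 _ ⟨y, rfl⟩
      change A u x ≠ 0 at h1
      change c * A u y ∈ _
      obtain ⟨t, ht, ht'⟩ := h.exists_tv hM hu hc
      have h3 : ∀ y ∈ pt F K u, t y = y := fun y hy => by simp [ht', h.A_pt hu hy]
      suffices h0 : t x ∈ X by
        simpa [ht', mem_cf] using sub_mem (stab hmax hX hXd ht h3 x.2
          (fun h0 => h1 (h.A_pt hu h0)) h0 y.2) y.2
      by_contra h0
      have h4 : finrank F ↥(X.map (t : V →ₗ[F] V) ⊓ X) = d :=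
        le_antisymm (hmax _ _ (hX.map ht) hX fun h4 => h0 (h4.le (Submodule.mem_map_of_mem x.2)))
          (hXd ▸ Submodule.finrank_mono fun y hy => ⟨⟨y, hy.1, h3 y hy.2⟩, hy.1⟩)
      have h5 : ∀ y ∈ X, B y (t x) = 0 := fun y hy => by
        rw [ht', map_add, h.iso hU hX hy x.2, h.smul_right, ← h.hK.symm u y, zero_add]
        exact h2 _ ⟨⟨y, hy⟩, rfl⟩
      obtain ⟨g, hg, v, hv0, hv, e⟩ := id hX
      have h6 := hN _ v ((hX.map ht).map (inv_mem hg)) hv0 hv (by rw [finrank_inf_map', ← e, h4])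
        (g⁻¹ (t x)) (Submodule.mem_map_of_mem (Submodule.mem_map_of_mem x.2))
        (h.eq_zero' fun κ => by
          rw [← hU hg]
          simpa using h5 (g (κ • v)) (e.ge (Submodule.mem_map_of_mem (smul_mem_pt κ v))))
      exact h0 (e.ge ⟨_, h6, by simp⟩)) (β := A u x) ⟨⟨x, hx⟩, rfl⟩ hβ
  obtain ⟨t, ht⟩ : ∃ t, τ t = 1 := LinearMap.surjective h.ne 1
  refine ⟨τ ∘ₗ ((t / A u x) • A u).restrictScalars F, (c * A u x) • u, x, h1,
    smul_ne_zero (mul_ne_zero hc0 hβ) hu0, by simp [hu], hx, by simp [hβ, ht], fun l hl => ?_⟩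
  obtain ⟨z, hz, hz'⟩ := h.exists_tv hM hu (h.skew_smul hc hl)
  refine ⟨z, hz, fun y hy => ?_⟩
  obtain ⟨a, ha⟩ := h2 _ ⟨⟨y, hy⟩, rfl⟩
  replace ha : A u y = a • A u x := ha
  simp [hz', ha, ht, smul_smul, mul_comm, mul_div_cancel₀ _ hβ]

omit hmax hX hXd hd hu0 hu in
theorem exists_tvOn (hk : 3 ≤ finrank K V ∨ ¬ (q = 2 ∧ finrank F K = 3)) {X : Submodule F V}
    (hX : IsX A M X) (hX' : ∀ u, u ≠ 0 → A u u = 0 → X ≠ pt F K u) :
    ∃ e, e ≠ 0 ∧ A e e = 0 ∧ ∃ (θ : V →ₗ[F] F) (x : K), θ e = 0 ∧ θ (x • e) ≠ 0 ∧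
      ∀ l, σ l = l → ∃ z ∈ M, ∀ κ : K, z (κ • e) = κ • e + (l * θ (κ • e)) • e := by
  obtain ⟨Y, hY, hXY, hXY'⟩ := h.exists_pair hM hU hk hX hX'
  let S : Set ℕ := {k | ∃ X Y, IsX A M X ∧ IsX A M Y ∧ X ≠ Y ∧ finrank F ↥(X ⊓ Y) = k}
  have hS : BddAbove S := ⟨finrank F V, fun _ ⟨_, _, _, _, _, h⟩ => h ▸ Submodule.finrank_le _⟩
  have hmax : ∀ X Y, IsX A M X → IsX A M Y → X ≠ Y → finrank F ↥(X ⊓ Y) ≤ sSup S :=
    fun X Y h1 h2 h3 => le_csSup hS ⟨X, Y, h1, h2, h3, rfl⟩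
  have hd : 0 < sSup S := lt_of_lt_of_le (Nat.pos_of_ne_zero fun h0 =>
    hXY' (Submodule.finrank_eq_zero.1 h0)) (hmax X Y hX hY hXY)
  obtain ⟨X, hX, h1⟩ : ∃ X, IsX A M X ∧ TvOn σ M X := by
    by_cases hN : ∀ X u, IsX A M X → u ≠ 0 → A u u = 0 →
        finrank F ↥(X ⊓ pt F K u) = sSup S → ∀ x ∈ X, A u x = 0 → x ∈ pt F K u
    · obtain ⟨X, Y, hX, ⟨k, hk, u, hu0, hu, rfl⟩, h1, h2⟩ :=
        Nat.sSup_mem (s := S) ⟨_, X, Y, hX, hY, hXY, rfl⟩ hS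
      refine ⟨_, hX.map (inv_mem hk), h.tv_of_not_perp hM hU hd hmax (hX.map (inv_mem hk)) hu0 hu
        (by rw [← h2, finrank_inf_map']) (fun h0 => h1 ?_) hN⟩
      rw [← h0]
      exact (map_inv_map' k⁻¹ X).symm
    push Not at hN
    obtain ⟨X, u, hX, hu0, hu, h1, x, hx, h2, h3⟩ := hN
    exact ⟨X, hX, h.tv_of_perp hM hd hmax hX hu0 hu h1 hx h3 h2⟩
  obtain ⟨g, hg, u, hu0, hu, rfl⟩ := hX
  obtain ⟨θ, e, x, he, he0, h2, hx, h3, h4⟩ := h1.of_map hg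
  rw [← pt_eq_of_mem he he0] at hx h4
  obtain ⟨x, rfl⟩ := mem_pt.1 hx
  refine ⟨e, he0, by obtain ⟨κ, rfl⟩ := mem_pt.1 he; simp [LinearMap.map_smulₛₗ, hu], θ, x, h2, h3,
    fun l hl => ?_⟩
  obtain ⟨z, hz, hz'⟩ := h4 l hl
  exact ⟨z, hz, fun κ => hz' _ (smul_mem_pt κ e)⟩

end KStr

end Cfsg.Lib.Unitary
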