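import Cfsg.Agent.Lib.Unitary.XfB

/-!
# Extension-field subgroups of unitary groups: the structure and the local argument
-/

set_option autoImplicit false
set_option linter.unusedSectionVars false

namespace Cfsg.Lib.Unitary

open Module Cfsg.Lib.Linear Cfsg.Lib.OMax

variable {F K V : Type*} [Field F] [Field K] [Algebra F K] [AddCommGroup V] [Module F V]
  [Module K V] [IsScalarTower F K V] {q : ℕ} {σ : F →+* F} {s : K →+* K} {τ : K →ₗ[F] F}
  {B : V →ₛₗ[σ] V →ₗ[F] F} {A : V →ₛₗ[s] V →ₗ[K] K} {M : Subgroup (V ≃ₗ[F] V)}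

variable (F K V) in
/-- The `K`-semilinear automorphisms. -/
def semiU : Subgroup (V ≃ₗ[F] V) where
  carrier := {g | (∀ κ : K, ∃ κ' : K, ∀ x, g (κ • x) = κ' • g x) ∧
    ∀ κ' : K, ∃ κ : K, ∀ x, g (κ • x) = κ' • g x}
  one_mem' := ⟨fun κ => ⟨κ, fun _ => rfl⟩, fun κ => ⟨κ, fun _ => rfl⟩⟩
  mul_mem' := by
    rintro g h ⟨g1, g2⟩ ⟨h1, h2⟩
    refine ⟨fun κ => ?_, fun κ => ?_⟩
    · obtain ⟨a, ha⟩ := h1 κ
      obtain ⟨b, hb⟩ := g1 a
      exact ⟨b, fun x => by rw [LinearEquiv.mul_apply, LinearEquiv.mul_apply, ha, hb]⟩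
    · obtain ⟨a, ha⟩ := g2 κ
      obtain ⟨b, hb⟩ := h2 a
      exact ⟨b, fun x => by rw [LinearEquiv.mul_apply, LinearEquiv.mul_apply, hb, ha]⟩
  inv_mem' := by
    rintro g ⟨g1, g2⟩
    refine ⟨fun κ => ?_, fun κ => ?_⟩
    · obtain ⟨a, ha⟩ := g2 κ
      exact ⟨a, fun x => g.injective (by simp [ha])⟩
    · obtain ⟨a, ha⟩ := g1 κ
      exact ⟨a, fun x => g.injective (by simp [ha])⟩

theorem mem_semiU_of_forall [Finite K] [Nontrivial V] {g : V ≃ₗ[F] V}
    (h : ∀ κ : K, ∃ κ' : K, ∀ x, g (κ • x) = κ' • g x) : g ∈ semiU F K V := by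
  refine ⟨h, fun κ' => ?_⟩
  choose φ hφ using h
  obtain ⟨x, hx⟩ := exists_ne (0 : V)
  have h1 : Function.Injective φ := fun a b hab => by
    have := hφ a x
    rw [hab, ← hφ b x, g.injective.eq_iff] at this
    exact smul_left_injective K hx this
  obtain ⟨κ, rfl⟩ := Finite.injective_iff_surjective.1 h1 κ'
  exact ⟨κ, hφ κ⟩

theorem IsHerm.not_SUG_le_semiU [Finite F] [FiniteDimensional F V] (h : IsHerm σ B)
    (hn : 3 ≤ finrank F V) (hr : 2 ≤ finrank F K) : ¬ SUG B ≤ semiU F K V := fun h1 => by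
  obtain ⟨κ, hκ⟩ := exists_notMem_range hr
  obtain ⟨e, he0, he⟩ := h.exists_isotropic (by omega)
  obtain ⟨δ, hδ0, hδ⟩ := h.exists_skew
  obtain ⟨κ', h2⟩ := (h1 (h.transv_mem_SUG e δ he (by simp [hδ]))).1 κ
  obtain ⟨x, hx, hx0⟩ := Submodule.exists_mem_ne_zero_of_ne_bot (LinearMap.ker_ne_bot_of_finrank_lt
    (f := (B e).prod (B e ∘ₗ (LinearMap.lsmul K V κ).restrictScalars F)) (by simp; omega))
  replace hx : B e x = 0 ∧ B e (κ • x) = 0 := Prod.mk_eq_zero.1 hx
  obtain rfl : κ = κ' := smul_left_injective K hx0 (by simpa [hx.1, hx.2] using h2 x)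
  obtain ⟨y, hy⟩ := h.exists_eq_one he0
  refine hκ (B e (κ • y)) (smul_left_injective K he0 (smul_right_injective V hδ0 ?_))
  simpa [hy, smul_comm κ δ, smul_smul] using h2 y

theorem IsHerm.exists_kStr [FiniteDimensional F V] [Nontrivial V] (h : IsHerm σ B)
    (hσ : IsBar q σ) (hr : (finrank F K).Prime) (h3 : 3 ≤ finrank F K)
    (ha : ∀ κ : K, ∃ κ' : K, ∀ u v, B (κ • u) v = B u (κ' • v)) :
    ∃ (s : K →+* K) (τ : K →ₗ[F] F) (A : V →ₛₗ[s] V →ₗ[K] K), KStr q τ B A := by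
  have := hσ.finite
  have : Module.Finite F K := Module.finite_of_finrank_pos hr.pos
  have : Finite K := Module.finite_of_finite F
  choose s₀ hs using ha
  obtain ⟨x, hx⟩ := exists_ne (0 : V)
  have h1 : ∀ {a b : K}, (∀ u v, B u (a • v) = B u (b • v)) → a = b := fun {a b} e =>
    smul_left_injective K hx (sub_eq_zero.1 (h.nondeg_right _ fun u => by simp [e]))
  let s : K →+* K :=
    { toFun := s₀
      map_one' := h1 fun u v => by simp [← hs]
      map_mul' := fun a b => h1 fun u v => by rw [← hs, mul_smul, hs, hs, mul_comm, mul_smul]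
      map_zero' := h1 fun u v => by simp [← hs]
      map_add' := fun a b => h1 fun u v => by simp [← hs, add_smul] }
  replace hs : ∀ κ u v, B (κ • u) v = B u (s κ • v) := hs
  have h2 : ∀ a, s (s a) = a := fun a => h1 fun u v => by
    rw [← hs, ← h.symm, ← hs, h.symm]
  have h4 : ∀ c, s (algebraMap F K c) = algebraMap F K (σ c) := fun c => h1 fun u v => by
    simp [← hs, LinearMap.map_smulₛₗ]
  have h5 : s ≠ RingHom.id K := fun e => h.ne_id (RingHom.ext fun c =>
    (algebraMap F K).injective (by rw [← h4, e]; rfl))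
  obtain ⟨q', hq'⟩ := exists_isBar_of_invol h5 h2
  obtain rfl : q' = q ^ finrank F K := Nat.pow_left_injective two_ne_zero (by
    simp only [← hq'.card, Module.natCard_eq_pow_finrank (K := F) (V := K), hσ.card, ← pow_mul,
      mul_comm])
  have hτ := Algebra.trace_ne_zero F K
  have h6 : ∀ y, Algebra.trace F K (s y) = σ (Algebra.trace F K y) := fun y => by
    rw [Algebra.trace_eq_of_equiv_equiv (RingEquiv.ofBijective σ hσ.bijective)
      (RingEquiv.ofBijective s hq'.bijective) (RingHom.ext fun c => (h4 c).symm) y]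
    exact ((RingEquiv.ofBijective σ hσ.bijective).apply_symm_apply _).symm
  generalize Algebra.trace F K = τ at hτ h6
  choose b hb using fun x y => exists_coef_eq hτ (B x ∘ₗ
    (LinearMap.toSpanSingleton K _ y).restrictScalars F)
  replace hb : ∀ x y κ, τ (κ * b x y) = B x (κ • y) := hb
  refine ⟨s, τ, LinearMap.mk₂'ₛₗ s (RingHom.id K) b (fun x x' y => eq_of_coef hτ fun κ => ?_)
    (fun c x y => eq_of_coef hτ fun κ => ?_) (fun x y y' => eq_of_coef hτ fun κ => ?_)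
    (fun c x y => eq_of_coef hτ fun κ => ?_), ⟨hσ, hq', hr, h3, h4, h6, hτ⟩, h,
    ⟨h5, h2, fun u v => eq_of_coef hτ fun κ => ?_, fun a ha => h.nondeg a fun v => ?_⟩,
    fun u v => ?_⟩
  · rw [mul_add, map_add, hb, hb, hb, map_add, LinearMap.add_apply]
  · rw [smul_eq_mul, ← mul_assoc, hb, hb, hs, smul_smul, mul_comm]
  · rw [mul_add, map_add, hb, hb, hb, smul_add, map_add]
  · rw [smul_eq_mul, ← mul_assoc, hb, hb, smul_smul, RingHom.id_apply]
  · change τ (κ * s (b u v)) = τ (κ * b v u)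
    rw [hb, ← h.symm, hs, ← hb, ← h6, map_mul s, h2]
  · rw [← one_smul K v, ← hb, show b a v = 0 from ha v, mul_zero, map_zero]
  · exact (one_smul K v ▸ hb u v 1).symm.trans (by rw [one_mul]; rfl)

theorem IsEich.mul {e w w' : V} {γ γ' : F} {g g' : V ≃ₗ[F] V} (h1 : IsEich B e w γ g)
    (h2 : IsEich B e w' γ' g') (he : B e e = 0) (hw : B w e = 0) (hw' : B e w' = 0) :
    IsEich B e (w + w') (γ + γ' - B w w') (g * g') := fun x => by
  rw [LinearEquiv.mul_apply, h1, h2]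
  simp only [map_add, map_sub, map_smul, he, hw, hw', LinearMap.add_apply, smul_eq_mul]
  module

theorem IsEich.inv {e w : V} {γ : F} {g : V ≃ₗ[F] V} (h1 : IsEich B e w γ g) (he : B e e = 0)
    (hw : B w e = 0) (hw' : B e w = 0) (hww : B w w = 0) : IsEich B e (-w) (-γ) g⁻¹ := fun x => by
  rw [LinearEquiv.coe_inv, LinearEquiv.symm_apply_eq, h1]
  simp only [map_add, map_sub, map_smul, he, hw, hw', hww, map_neg, LinearMap.neg_apply,
    smul_eq_mul]
  module

namespace KStr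

variable (h : KStr q τ B A)
include h

theorem hasK [FiniteDimensional F V] [FiniteDimensional K V]
    (hM : semiU F K V ⊓ SUG B ≤ M) : HasK A M := fun g hg hg' =>
  have := h.finite
  hM ⟨⟨fun κ => ⟨κ, map_smul g κ⟩, fun κ => ⟨κ, map_smul g κ⟩⟩, mem_SUG'.2 ⟨fun u v => by
    rw [h.eq, h.eq]; exact congrArg τ (hg u v),
    LinearMap.det_restrictScalars.trans hg'⟩⟩

theorem mem_semiU [FiniteDimensional K V] (hk : 2 ≤ finrank K V) {g : V ≃ₗ[F] V}
    (hg : ∀ u, u ≠ 0 → A u u = 0 → ∃ v, (pt F K u).map (g : V →ₗ[F] V) = pt F K v) :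
    g ∈ semiU F K V := by
  have := h.barK.finite
  have : Nontrivial V := Module.nontrivial_of_finrank_pos (R := K) (by omega)
  refine mem_semiU_of_forall fun κ => ?_
  have h1 : ∀ u, u ≠ 0 → A u u = 0 → (pt F K u).map (g : V →ₗ[F] V) = pt F K (g u) :=
    fun u h0 hu => by
      obtain ⟨v, hv⟩ := hg u h0 hu
      exact hv.trans (pt_eq_of_mem (hv.le (Submodule.mem_map_of_mem (self_mem_pt u)))
        (by simpa)).symm
  have h2 : ∀ u, A u u = 0 → ∃ a : K, g (κ • u) = a • g u := fun u hu => by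
    rcases eq_or_ne u 0 with rfl | h0
    · exact ⟨0, by simp⟩
    exact (mem_pt.1 ((h1 u h0 hu).le (Submodule.mem_map_of_mem (smul_mem_pt κ u)))).imp
      fun _ e => e.symm
  obtain ⟨u, hu0, hu⟩ := h.hK.exists_isotropic hk
  obtain ⟨a, ha⟩ := h2 u hu
  have h3 : ∀ u v, A u u = 0 → A v v = 0 → A u v ≠ 0 → g (κ • u) = a • g u →
      ∀ c : K, g (κ • c • v) = a • g (c • v) := fun u v hu hv huv e c => by
    have hu0 : u ≠ 0 := by rintro rfl; simp at huv
    let Δ : Submodule F K :=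
      { carrier := {c | g (κ • c • v) = a • g (c • v)}
        add_mem' := fun {x y} hx hy => by
          simp only [Set.mem_ofPred_eq, add_smul, smul_add, map_add] at hx hy ⊢; rw [hx, hy]
        zero_mem' := by simp
        smul_mem' := fun l x hx => by
          simp only [Set.mem_ofPred_eq, smul_assoc, smul_comm κ l, map_smul] at hx ⊢
          rw [hx, smul_comm] }
    refine (h.eq_top_of_skew (Δ := Δ) (inv_ne_zero huv) fun c hc => ?_).ge Submodule.mem_top
    change g (κ • _ • v) = a • g (_ • v)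
    rcases eq_or_ne c 0 with rfl | hc0
    · simp
    have h4 : A u ((c * (A u v)⁻¹) • v) = c := by simp [huv]
    have h5 : A ((c * (A u v)⁻¹) • v) ((c * (A u v)⁻¹) • v) = 0 := by
      simp [LinearMap.map_smulₛₗ, hv]
    generalize (c * (A u v)⁻¹) • v = w at h4 h5
    obtain ⟨a₁, e1⟩ := h2 w h5
    obtain ⟨a₂, e2⟩ := h2 (u + w) (by simp [hu, h4, h5, ← h.hK.symm u w, hc])
    rw [smul_add, map_add, map_add, e, e1, smul_add] at e2
    by_cases h6 : a₁ = a₂
    · rw [h6, add_left_inj] at e2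
      rw [e1, h6, show a = a₂ from smul_left_injective K (by simpa : g u ≠ 0) e2]
    obtain ⟨x, hx, e3⟩ := (h1 u hu0 hu).ge (mem_pt.2 ⟨(a₁ - a₂)⁻¹ * (a₂ - a), show _ = g w by
      rw [mul_smul, inv_smul_eq_iff₀ (sub_ne_zero.2 h6)]
      linear_combination (norm := module) -e2⟩)
    exact (hc0 (h4 ▸ h.A_pt hu (g.injective e3 ▸ hx))).elim
  refine ⟨a, fun x => ?_⟩
  let W : Submodule K V :=
    { carrier := {x | ∀ c : K, g (κ • c • x) = a • g (c • x)}
      add_mem' := fun {x y} hx hy c => by simp only [smul_add, map_add, hx c, hy c]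
      zero_mem' := by simp
      smul_mem' := fun l x hx c => by rw [smul_smul c l]; exact hx _ }
  simpa using (h.hK.eq_top_of_isotropic hu0 hu (W := W) fun v hv => by
    rcases eq_or_ne v 0 with rfl | hv0
    · exact zero_mem _
    by_cases h4 : A v u = 0
    · obtain ⟨w, hw, h5, h6⟩ := h.hK.exists_isotropic_not_orth hu0 hv0 hu h4
      exact h3 w v hw hv (mt h.hK.eq_zero_comm.1 h6) (by simpa using h3 u w hu hw h5 ha 1)
    · exact h3 u v hu hv (mt h.hK.eq_zero_comm.1 h4) ha).ge (Submodule.mem_top (x := x)) 1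

variable [FiniteDimensional F V] [FiniteDimensional K V] (hM : HasK A M)
include hM

theorem exists_tor {e : V} (he0 : e ≠ 0) (he : A e e = 0) {m : K} (hm : m ≠ 0)
    (hm' : σ (Algebra.norm F m) = Algebra.norm F m) :
    ∃ g ∈ M, ∀ κ : K, g (κ • e) = (κ * m) • e := by
  have := h.finite
  obtain ⟨f, hf, hef⟩ := h.hK.exists_hyperbolic he0 he
  have hfe : A f e = 1 := by rw [← h.hK.symm, hef, map_one]
  have h1 : s m ≠ 0 := by simpa
  refine ⟨_, hM _ (h.hK.tor_mem_UG hef hfe he hf (a := Units.mk0 m hm) (b := (Units.mk0 _ h1)⁻¹)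
    (by simp [h1])) ?_, fun κ => by simp [tor_apply hef hfe hf, he, hfe, sub_mul, sub_smul, mul_comm m]⟩
  rw [← LinearEquiv.coe_det, det_tor]
  simp [Algebra.norm_inv, h.norm_s, hm', Algebra.norm_ne_zero_iff.2 hm]

theorem exists_mul (hk : 3 ≤ finrank K V ∨ finrank F K ≠ 3) (hq : q = 2) {e : V} (he0 : e ≠ 0)
    (he : A e e = 0) {κ : K} (hκ : κ ≠ 0) :
    ∃ μ : F, μ * σ μ = 1 ∧ ∃ g ∈ M, ∀ x : K, g (x • e) = (x * (μ • κ)) • e := by
  have := h.barK.finite
  have := h.finite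
  rcases hk with hk | hk
  · obtain ⟨g, hg, hg'⟩ := h.hK.exists_SUG_vec hk he0 (smul_ne_zero hκ he0)
      (by simp [LinearMap.map_smulₛₗ, he])
    exact ⟨1, by simp, _, hM.of_SUG hg, fun x => by simp [hg', smul_smul]⟩
  have h1 : ∀ μ : F, μ ≠ 0 → μ ^ 3 = 1 := fun μ h0 => by
    have := h.bar.finite
    have := Fintype.ofFinite F
    have h2 := FiniteField.pow_card_sub_one_eq_one μ h0
    rwa [← Nat.card_eq_fintype_card, h.bar.card, hq] at h2
  have h2 := Algebra.norm_ne_zero_iff (R := F) |>.2 hκ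
  obtain ⟨μ, h3⟩ : ∃ μ : F, μ ^ finrank F K * Algebra.norm F κ = 1 := by
    have h4 : ¬ 3 ∣ finrank F K := fun h0 =>
      hk ((Nat.prime_dvd_prime_iff_eq Nat.prime_three h.prime).1 h0).symm
    obtain ⟨j, e | e⟩ : ∃ j, finrank F K = 3 * j + 1 ∨ finrank F K = 3 * j + 2 :=
      ⟨finrank F K / 3, by omega⟩
    · exact ⟨(Algebra.norm F κ)⁻¹, by simp [e, pow_add, pow_mul, h1 _ h2, h2]⟩
    · exact ⟨Algebra.norm F κ, by simp [e, pow_add, pow_mul, h1 _ h2, ← pow_succ]⟩
  have h4 : μ ≠ 0 := by rintro rfl; simp [h.prime.ne_zero] at h3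
  exact ⟨μ, by rw [h.bar.norm_eq, hq, h1 μ h4], h.exists_tor hM he0 he (smul_ne_zero h4 hκ) (by
    rw [Algebra.smul_def, map_mul, Algebra.norm_algebraMap, h3, map_one])⟩

variable (hU : M ≤ UG B)
include hU

theorem exists_isEich {e : V} (he : A e e = 0) {b c : K} {l : F} (hl : σ l = l)
    {z : V ≃ₗ[F] V} (hz : z ∈ M) (hz' : ∀ κ : K, z (κ • e) = κ • e + (l * τ (κ * s b)) • e)
    (hc : c + s c = 0) :
    ∃ g ∈ M, IsEich B e ((l • (c * b)) • e) (l ^ 2 * τ (c * (b * s b))) g := by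
  have h1 : ∀ v, A e (z⁻¹ v) = A e v + (l * B e v) • b := fun v => eq_of_coef h.ne fun κ => by
    obtain ⟨κ, rfl⟩ := h.barK.bijective.2 κ
    rw [← h.smul_left, ← UG_apply_left (hU hz), hz', map_add, LinearMap.add_apply, h.smul_left,
      LinearMap.map_smulₛₗ, LinearMap.smul_apply, map_mul σ, hl, ← h.tau_s, map_mul s,
      h.barK.invol,
      mul_add, map_add, mul_smul_comm, map_smul]
    simp only [smul_eq_mul]
    ring
  obtain ⟨t, ht, ht'⟩ := h.exists_tv hM he hc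
  obtain ⟨t', ht1, ht2⟩ := h.exists_tv hM he (c := -c) (by rw [map_neg, ← neg_add, hc, neg_zero])
  refine ⟨z * t * z⁻¹ * t', mul_mem (mul_mem (mul_mem hz ht) (inv_mem hz)) ht1, fun x => ?_⟩
  have h2 : A e (t' x) = A e x := by simp [ht2, he]
  have h3 : B e (t' x) = B e x := by rw [h.eq, h.eq, h2]
  have h4 : s c = -c := eq_neg_of_add_eq_zero_right hc
  rw [LinearEquiv.mul_apply, LinearEquiv.mul_apply, LinearEquiv.mul_apply, ht', map_add,
    LinearEquiv.coe_inv, LinearEquiv.apply_symm_apply, ← LinearEquiv.coe_inv, h1, h2, h3, hz', ht2,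
    h.smul_left, h.s_smul, hl, map_mul s, h4, smul_mul_assoc, map_smul, mul_add, add_mul, map_add,
    mul_smul_comm, smul_mul_assoc, map_smul, show -c * s b * A e x = -(c * A e x * s b) by ring,
    map_neg, mul_assoc c b]
  simp only [smul_assoc, add_smul, neg_mul, neg_smul, smul_eq_mul]
  module

theorem exists_transv (hk : 3 ≤ finrank K V ∨ ¬ (q = 2 ∧ finrank F K = 3)) {e : V} (he0 : e ≠ 0)
    (he : A e e = 0) {θ : V →ₗ[F] F} {x : K} (hx : θ (x • e) ≠ 0)
    (hθ : ∀ l, σ l = l → ∃ z ∈ M, ∀ κ : K, z (κ • e) = κ • e + (l * θ (κ • e)) • e) :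
    ∃ γ, γ ≠ 0 ∧ ∃ hb hγ, transv B e γ hb hγ ∈ M := by
  have hE : ∀ κ κ' : K, B (κ • e) (κ' • e) = 0 := fun κ κ' =>
    h.B_pt he (smul_mem_pt κ e) (smul_mem_pt κ' e)
  have hE1 : ∀ κ : K, B (κ • e) e = 0 := fun κ => by simpa using hE κ 1
  have hE2 : ∀ κ : K, B e (κ • e) = 0 := fun κ => by simpa using hE 1 κ
  have hE3 : B e e = 0 := by simpa using hE 1 1
  let Y : AddSubgroup (K × F) :=
    { carrier := {y | ∃ g ∈ M, IsEich B e (y.1 • e) y.2 g}
      zero_mem' := ⟨1, one_mem _, fun x => by simp⟩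
      add_mem' := by
        rintro y y' ⟨g, hg, e1⟩ ⟨g', hg', e2⟩
        exact ⟨_, mul_mem hg hg', by simpa [add_smul, hE] using e1.mul e2 hE3 (hE1 _) (hE2 _)⟩
      neg_mem' := by
        rintro y ⟨g, hg, e1⟩
        exact ⟨_, inv_mem hg, by simpa using e1.inv hE3 (hE1 _) (hE2 _) (hE _ _)⟩ }
  suffices h0 : ∃ γ, γ ≠ 0 ∧ ((0 : K), γ) ∈ Y by
    obtain ⟨γ, h1, g, hg, e1⟩ := h0
    have h2 : ∀ v, g v = v + (γ * B e v) • e := fun v => by simpa using e1 v
    refine ⟨γ, h1, hE3, h.h.trace_zero_of_mem_UG (hU hg) he0 hE3 h2, ?_⟩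
    convert hg
    ext v
    rw [h2, transv_apply]
  obtain ⟨a, rfl⟩ := h.h.exists_eq θ
  obtain ⟨b, hb⟩ := h.barK.bijective.2 (A a e)
  simp only [h.smul_right, ← hb] at hx hθ
  have hb0 : b * s b ≠ 0 := by
    rw [Ne, mul_eq_zero, map_eq_zero, or_self]; rintro rfl; simp at hx
  have h1 : ∀ l, σ l = l → ∀ c, c + s c = 0 → (l • (c * b), l ^ 2 * τ (c * (b * s b))) ∈ Y :=
    fun l hl c hc => by
      obtain ⟨z, hz, hz'⟩ := hθ l hl
      exact h.exists_isEich hM hU he hl hz hz' hc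
  obtain ⟨c, hc, hc'⟩ := h.exists_skew_ne hb0
  by_cases hq : q = 2
  swap
  · obtain ⟨l, hl, h0, h2⟩ := h.bar.exists_fixed_ne hq
    refine ⟨(l ^ 2 - l) * τ (c * (b * s b)), mul_ne_zero (fun h3 => h2 (mul_left_cancel₀ h0
      (by linear_combination h3))) hc', ?_⟩
    simpa [sub_mul] using sub_mem (h1 l hl c hc) (h1 1 (map_one σ) _ (h.skew_smul hc hl))
  let R : AddSubgroup K := Y.comap (AddMonoidHom.inl K F)
  have hR : ∀ κ ∈ R, κ⁻¹ ∈ R := fun κ hκ => by
    obtain ⟨t, ht, e1⟩ := hκ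
    rcases eq_or_ne κ 0 with rfl | h0
    · simp
    obtain ⟨μ, hμ, g, hg, hg'⟩ := h.exists_mul hM (by tauto) hq he0 he (inv_ne_zero h0)
    refine neg_mem_iff.1 ⟨g * t * g⁻¹, mul_mem (mul_mem hg ht) (inv_mem hg), fun v => ?_⟩
    have h2 : g e = μ • κ⁻¹ • e := by simpa using hg' 1
    have h3 : g (κ • e) = μ • e := by simp [hg', h0]
    rw [LinearEquiv.mul_apply, LinearEquiv.mul_apply, e1, ← UG_apply_left (hU hg),
      ← UG_apply_left (hU hg)]
    simp only [map_add, map_sub, map_smul, AddMonoidHom.inl_apply, h2, h3, LinearMap.map_smulₛₗ,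
      Prod.fst_neg, Prod.snd_neg, neg_zero, zero_mul, zero_smul, map_zero,
      LinearEquiv.coe_inv, LinearEquiv.apply_symm_apply, neg_smul, map_neg, LinearMap.smul_apply,
      LinearMap.neg_apply, smul_eq_mul]
    generalize κ⁻¹ • e = w
    linear_combination (norm := module) (B w v * hμ) • e - (B e v * hμ) • w
  have h2 : ∀ c, c + s c = 0 → τ (c * (b * s b)) = 0 → c * b ∈ R := fun c hc e => by
    simpa [e, R] using h1 1 (map_one σ) c hc
  have h3 : (2 : K) = 0 := by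
    rw [← map_ofNat (algebraMap F K) 2, ← Nat.cast_ofNat, ← hq, h.bar.cast_q, map_zero]
  obtain ⟨c₀, h4, h5, h6, -⟩ := h.exists_skew_two (h.fixed_norm b) (h.fixed_norm b)
  have := h.barK.finite
  have h7 : Function.Injective fun y : K => y * y := fun y y' e =>
    sub_eq_zero.1 (mul_self_eq_zero.1 (by linear_combination e + (y' * y' - y * y') * h3))
  obtain ⟨y, hy⟩ := Finite.injective_iff_surjective.1 h7 (c / c₀)
  have h8 : s y = y := h7 (by
    simp only [← map_mul, hy, map_div₀, eq_neg_of_add_eq_zero_right hc,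
      eq_neg_of_add_eq_zero_right h5, neg_div_neg_eq])
  obtain ⟨c₁, k1, k2, k3, k4⟩ := h.exists_skew_two (h.fixed_norm b) (y₂ := y * (b * s b))
    (by rw [map_mul, h8, h.fixed_norm])
  have k5 := hua_mem hR (h2 _ (h.skew_mul k2 h8) (by rwa [mul_assoc]))
    (hua_mem hR (hR _ (h2 _ k2 k3)) (h2 _ h5 h6))
  refine ⟨_, hc', ?_⟩
  have k6 : b ≠ 0 := left_ne_zero_of_mul hb0
  have k7 : c * b ∈ R := by
    convert k5 using 1
    rw [eq_div_iff h4] at hy
    rw [← hy]
    field_simp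
  simpa using sub_mem (h1 1 (map_one σ) c hc) k7

end KStr

end Cfsg.Lib.Unitary
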